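import Mathlib
import Cfsg.Prelude.Def_Transfer
import Cfsg.Agent.Lib.H13.ElemAb
import Cfsg.Agent.Lib.H65.PBasic
import Cfsg.Agent.Lib.H36.CharTwoLocal

/-!
Connectivity of the elementary abelian subgroups of order 8 of a 2-group with a normal elementary abelian
subgroup of order at least 32.
-/

set_option autoImplicit false

open Cfsg Subgroup

namespace H36.EightConn

variable {X : Type*} [Group X]

theorem mem_sup_zpowers {P : Subgroup X} {z : X} (hz : z ^ 2 = 1) (hc : ∀ p ∈ P, p * z = z * p)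
    (x : X) : x ∈ P ⊔ zpowers z ↔ x ∈ P ∨ ∃ p ∈ P, x = p * z := by
  have hcomm : ⁅P, zpowers z⁆ = ⊥ := by
    rw [Subgroup.commutator_eq_bot_iff_le_centralizer, H36.CharTwoLocal.centralizer_zpowers]
    intro p hp
    rw [Subgroup.mem_centralizer_singleton_iff]
    exact hc p hp
  constructor
  · intro hx
    obtain ⟨p, hp, y, hy, rfl⟩ := (H26.Basic.mem_sup_of_commutator_eq_bot hcomm).mp hx
    obtain ⟨k, rfl⟩ := Subgroup.mem_zpowers_iff.mp hy
    rcases Int.even_or_odd' k with ⟨m, rfl | rfl⟩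
    · left
      have : z ^ (2 : ℤ) = 1 := by exact_mod_cast hz
      rw [zpow_mul, this, one_zpow, mul_one]
      exact hp
    · right
      have : z ^ (2 : ℤ) = 1 := by exact_mod_cast hz
      rw [zpow_add, zpow_mul, this, one_zpow, one_mul, zpow_one]
      exact ⟨p, hp, rfl⟩
  · rintro (hx | ⟨p, hp, rfl⟩)
    · exact Subgroup.mem_sup_left hx
    · exact Subgroup.mul_mem_sup hp (Subgroup.mem_zpowers z)

theorem ea_sup {P : Subgroup X} (hP : IsElementaryAbelian 2 P) {z : X} (hz : z ^ 2 = 1)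
    (hc : ∀ p ∈ P, p * z = z * p) : IsElementaryAbelian 2 (P ⊔ zpowers z) := by
  apply H13.ElemAb.sup hP (H13.ElemAb.zpowers hz)
  rw [H36.CharTwoLocal.centralizer_zpowers]
  intro p hp
  rw [Subgroup.mem_centralizer_singleton_iff]
  exact hc p hp

theorem card_sup_zpowers [Finite X] {P : Subgroup X} {z : X} (hz : z ^ 2 = 1)
    (hc : ∀ p ∈ P, p * z = z * p) (hzP : z ∉ P) :
    Nat.card (P ⊔ zpowers z : Subgroup X) = 2 * Nat.card P := by
  have h1 : ((P ⊔ zpowers z : Subgroup X) : Set X) = (P : Set X) ∪ (fun p => p * z) '' (P : Set X) := by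
    ext x
    rw [Set.mem_union, Set.mem_image]
    refine (mem_sup_zpowers hz hc x).trans ?_
    constructor
    · rintro (h | ⟨p, hp, rfl⟩)
      · exact Or.inl h
      · exact Or.inr ⟨p, hp, rfl⟩
    · rintro (h | ⟨p, hp, rfl⟩)
      · exact Or.inl h
      · exact Or.inr ⟨p, hp, rfl⟩
  have h2 : Disjoint (P : Set X) ((fun p => p * z) '' (P : Set X)) := by
    rw [Set.disjoint_left]
    rintro x hx ⟨p, hp, rfl⟩
    apply hzP
    have := P.mul_mem (P.inv_mem hp) hx
    simpa using this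
  have h3 : Nat.card (P ⊔ zpowers z : Subgroup X) = Set.ncard ((P ⊔ zpowers z : Subgroup X) : Set X) := rfl
  have h4 : Nat.card P = Set.ncard (P : Set X) := rfl
  rw [h3, h1, Set.ncard_union_eq h2 (Set.toFinite _) (Set.toFinite _),
    Set.ncard_image_of_injective _ (mul_left_injective z), h4]
  ring

/-- `|F| ≤ |C_F(a)|²` for an element `a` with `a² = 1` normalizing the elementary abelian `F` -/
theorem card_le_sq [Finite X] {F : Subgroup X} (hF : IsElementaryAbelian 2 F) {a : X} (ha : a ^ 2 = 1)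
    (haF : a ∈ normalizer (F : Set X)) :
    Nat.card F ≤ (Nat.card (F ⊓ centralizer ({a} : Set X) : Subgroup X)) ^ 2 := by
  have hconj : ∀ x ∈ F, a * x * a⁻¹ ∈ F := fun x hx => (Subgroup.mem_normalizer_iff.mp haF x).mp hx
  have hcomm : ∀ x ∈ F, ∀ y ∈ F, x * y = y * x := (H13.ElemAb.iff_mem.mp hF).1
  have haa : a * a = 1 := by rw [← pow_two]; exact ha
  have hainv : a⁻¹ = a := inv_eq_of_mul_eq_one_left haa
  let f : F →* F :=
    { toFun := fun x => ⟨(x : X) * (a * x * a⁻¹), F.mul_mem x.2 (hconj _ x.2)⟩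
      map_one' := by
        apply Subtype.ext
        simp
      map_mul' := by
        rintro ⟨x, hx⟩ ⟨y, hy⟩
        apply Subtype.ext
        have h1 := hcomm y hy (a * x * a⁻¹) (hconj x hx)
        calc x * y * (a * (x * y) * a⁻¹) = x * (y * (a * x * a⁻¹)) * (a * y * a⁻¹) := by group
          _ = x * ((a * x * a⁻¹) * y) * (a * y * a⁻¹) := by rw [h1]
          _ = x * (a * x * a⁻¹) * (y * (a * y * a⁻¹)) := by group }
  have hf : ∀ x : F, ((f x : F) : X) = (x : X) * (a * x * a⁻¹) := fun x => rfl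
  have h1 : Nat.card F = Nat.card f.range * Nat.card f.ker := by
    have h2 := Subgroup.card_eq_card_quotient_mul_card_subgroup f.ker
    rw [Nat.card_congr (QuotientGroup.quotientKerEquivRange f).toEquiv] at h2
    exact h2
  have h2 : Nat.card f.ker ≤ Nat.card (F ⊓ centralizer ({a} : Set X) : Subgroup X) := by
    rw [Nat.card_congr (f.ker.equivMapOfInjective F.subtype F.subtype_injective).toEquiv]
    apply Subgroup.card_le_of_le
    rintro _ ⟨x, hx, rfl⟩
    refine Subgroup.mem_inf.mpr ⟨x.2, ?_⟩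
    rw [Subgroup.mem_centralizer_singleton_iff]
    have h3 : (x : X) * (a * x * a⁻¹) = 1 := by
      rw [← hf x]
      have : f x = 1 := hx
      rw [this]; rfl
    have h4 : (x : X) * x = 1 := by rw [← pow_two]; exact hF.2 _ x.2
    have h5 : a * (x : X) * a⁻¹ = x := by
      have := h3.trans h4.symm
      exact mul_left_cancel this
    exact (mul_inv_eq_iff_eq_mul.mp h5).symm
  have h3 : Nat.card f.range ≤ Nat.card (F ⊓ centralizer ({a} : Set X) : Subgroup X) := by
    rw [Nat.card_congr (f.range.equivMapOfInjective F.subtype F.subtype_injective).toEquiv]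
    apply Subgroup.card_le_of_le
    rintro _ ⟨_, ⟨x, rfl⟩, rfl⟩
    refine Subgroup.mem_inf.mpr ⟨(f x).2, ?_⟩
    rw [Subgroup.mem_centralizer_singleton_iff]
    change (x : X) * (a * x * a⁻¹) * a = a * ((x : X) * (a * x * a⁻¹))
    have h4 := hcomm (x : X) x.2 (a * x * a⁻¹) (hconj _ x.2)
    calc (x : X) * (a * x * a⁻¹) * a = x * a * x := by group
      _ = (a * a) * x * a * x := by rw [haa, one_mul]
      _ = a * ((a * x * a⁻¹) * x) := by rw [hainv]; group
      _ = a * ((x : X) * (a * x * a⁻¹)) := by rw [h4]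
  calc Nat.card F = Nat.card f.range * Nat.card f.ker := h1
    _ ≤ _ := Nat.mul_le_mul h3 h2
    _ = _ := (pow_two _).symm

theorem two_pow_of_ea [Finite X] {F : Subgroup X} (hF : IsElementaryAbelian 2 F) :
    ∃ n, Nat.card F = 2 ^ n := by
  have : Fact (Nat.Prime 2) := ⟨Nat.prime_two⟩
  exact (H13.ElemAb.isPGroup hF).exists_card_eq

/-- the adjacency relation -/
def Rel (C D : Subgroup X) : Prop :=
  IsElementaryAbelian 2 C ∧ Nat.card C = 8 ∧ IsElementaryAbelian 2 D ∧ Nat.card D = 8 ∧ ⁅C, D⁆ = ⊥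

theorem rel_symm {C D : Subgroup X} (h : Rel C D) : Rel D C :=
  ⟨h.2.2.1, h.2.2.2.1, h.1, h.2.1, by rw [Subgroup.commutator_comm]; exact h.2.2.2.2⟩

/-- the group generated by three elements -/
theorem triple [Finite X] {a b c : X} (ha : a ^ 2 = 1) (hb : b ^ 2 = 1) (hc : c ^ 2 = 1)
    (hab : a * b = b * a) (hac : a * c = c * a) (hbc : b * c = c * b)
    (ha1 : a ≠ 1) (hb1 : b ∉ zpowers a) (hc1 : c ∉ zpowers a ⊔ zpowers b) :
    IsElementaryAbelian 2 (zpowers a ⊔ zpowers b ⊔ zpowers c) ∧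
      Nat.card (zpowers a ⊔ zpowers b ⊔ zpowers c : Subgroup X) = 8 := by
  have h1 : ∀ p ∈ zpowers a, p * b = b * p := by
    intro p hp
    have : zpowers a ≤ centralizer ({b} : Set X) := by
      rw [Subgroup.zpowers_le, Subgroup.mem_centralizer_singleton_iff]
      exact hab
    exact Subgroup.mem_centralizer_singleton_iff.mp (this hp)
  have h2 : ∀ p ∈ zpowers a ⊔ zpowers b, p * c = c * p := by
    intro p hp
    have : zpowers a ⊔ zpowers b ≤ centralizer ({c} : Set X) := by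
      refine sup_le ?_ ?_
      · rw [Subgroup.zpowers_le, Subgroup.mem_centralizer_singleton_iff]
        exact hac
      · rw [Subgroup.zpowers_le, Subgroup.mem_centralizer_singleton_iff]
        exact hbc
    exact Subgroup.mem_centralizer_singleton_iff.mp (this hp)
  have h3 := ea_sup (H13.ElemAb.zpowers ha) hb h1
  refine ⟨ea_sup h3 hc h2, ?_⟩
  rw [card_sup_zpowers hc h2 hc1, card_sup_zpowers hb h1 hb1, Nat.card_zpowers,
    orderOf_eq_prime ha ha1]

theorem commutator_eq_bot_of_gens {a b c : X} {D : Subgroup X} (ha : ∀ d ∈ D, d * a = a * d)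
    (hb : ∀ d ∈ D, d * b = b * d) (hc : ∀ d ∈ D, d * c = c * d) :
    ⁅zpowers a ⊔ zpowers b ⊔ zpowers c, D⁆ = ⊥ := by
  rw [Subgroup.commutator_eq_bot_iff_le_centralizer]
  refine sup_le (sup_le ?_ ?_) ?_ <;> rw [Subgroup.zpowers_le, Subgroup.mem_centralizer_iff]
  · exact ha
  · exact hb
  · exact hc

theorem mem_triple {a b c d : X} (h : d ∈ zpowers a ⊔ zpowers b ⊔ zpowers c) {g : X}
    (ha : g * a = a * g) (hb : g * b = b * g) (hc : g * c = c * g) : d * g = g * d := by
  have : zpowers a ⊔ zpowers b ⊔ zpowers c ≤ centralizer ({g} : Set X) := by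
    refine sup_le (sup_le ?_ ?_) ?_ <;>
      rw [Subgroup.zpowers_le, Subgroup.mem_centralizer_singleton_iff]
    · exact ha.symm
    · exact hb.symm
    · exact hc.symm
  exact Subgroup.mem_centralizer_singleton_iff.mp (this h)

theorem exists_mem_not_mem [Finite X] {A B : Subgroup X} (h : Nat.card B < Nat.card A) :
    ∃ x ∈ A, x ∉ B := by
  by_contra h1
  push Not at h1
  exact absurd (Subgroup.card_le_of_le (fun x hx => h1 x hx : A ≤ B)) (not_le.mpr h)

theorem card_zpowers_le_two {z : X} (hz : z ^ 2 = 1) : Nat.card (zpowers z) ≤ 2 := by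
  rw [Nat.card_zpowers]
  exact Nat.le_of_dvd two_pos (orderOf_dvd_of_pow_eq_one hz)

theorem card_sup_zpowers_le [Finite X] {P : Subgroup X} {z : X} (hz : z ^ 2 = 1)
    (hc : ∀ p ∈ P, p * z = z * p) : Nat.card (P ⊔ zpowers z : Subgroup X) ≤ 2 * Nat.card P := by
  by_cases hzP : z ∈ P
  · rw [sup_eq_left.mpr (Subgroup.zpowers_le.mpr hzP)]
    omega
  · exact (card_sup_zpowers hz hc hzP).le

section main

variable [Finite X] {E : Subgroup X} [E.Normal] (hE : IsElementaryAbelian 2 E)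
  (hE32 : 32 ≤ Nat.card E)
include hE hE32

theorem card_fix {v : X} (hv : v ^ 2 = 1) :
    8 ≤ Nat.card (E ⊓ centralizer ({v} : Set X) : Subgroup X) := by
  have h1 := card_le_sq hE hv (by
    rw [(Subgroup.normalizer_eq_top_iff (H := E)).mpr inferInstance]; exact Subgroup.mem_top v)
  obtain ⟨n, hn⟩ := two_pow_of_ea (H13.ElemAb.of_le hE
    (inf_le_left : E ⊓ centralizer ({v} : Set X) ≤ E))
  rw [hn] at h1 ⊢
  have h2 : 3 ≤ n := by
    by_contra h
    interval_cases n <;> omega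
  calc 8 = 2 ^ 3 := by norm_num
    _ ≤ 2 ^ n := Nat.pow_le_pow_right (by norm_num) h2

theorem card_fix2 {v w : X} (hv : v ^ 2 = 1) (hw : w ^ 2 = 1) (hvw : v * w = w * v) :
    4 ≤ Nat.card (E ⊓ centralizer ({v} : Set X) ⊓ centralizer ({w} : Set X) : Subgroup X) := by
  have h0 := card_fix hE hE32 hv
  have hEA := H13.ElemAb.of_le hE (inf_le_left : E ⊓ centralizer ({v} : Set X) ≤ E)
  have h1 := card_le_sq hEA hw (by
    apply H36.CharTwoLocal.le_normalizer_inf (A := zpowers w) _ _ (Subgroup.mem_zpowers w)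
    · rw [(Subgroup.normalizer_eq_top_iff (H := E)).mpr inferInstance]; exact le_top
    · refine le_trans ?_ Subgroup.le_normalizer
      rw [Subgroup.zpowers_le, Subgroup.mem_centralizer_singleton_iff]
      exact hvw.symm)
  obtain ⟨n, hn⟩ := two_pow_of_ea (H13.ElemAb.of_le hE
    ((inf_le_left.trans inf_le_left) :
      E ⊓ centralizer ({v} : Set X) ⊓ centralizer ({w} : Set X) ≤ E))
  rw [hn] at h1 ⊢
  have h2 : 2 ≤ n := by
    by_contra h
    interval_cases n <;> omega
  calc 4 = 2 ^ 2 := by norm_num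
    _ ≤ 2 ^ n := Nat.pow_le_pow_right (by norm_num) h2

theorem exists_chain {A : Subgroup X} (hA : IsElementaryAbelian 2 A)
    (hA8 : Nat.card A = 8) : ∃ F ≤ E, IsElementaryAbelian 2 F ∧ Nat.card F = 8 ∧
      Relation.ReflTransGen Rel A F := by
  have : Fact (Nat.Prime 2) := ⟨Nat.prime_two⟩
  have hAc := (H13.ElemAb.iff_mem.mp hA).1
  have hEc := (H13.ElemAb.iff_mem.mp hE).1
  by_cases hAE : A ≤ E
  · exact ⟨A, hAE, hA, hA8, Relation.ReflTransGen.refl⟩
  obtain ⟨v, hvA, hvE⟩ := SetLike.not_le_iff_exists.mp hAE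
  have hE1 : E ≠ ⊥ := by
    rintro rfl
    rw [Subgroup.card_bot] at hE32
    omega
  have hz := H65.PBasic.inf_centralizer_ne_bot (p := 2) A E (H13.ElemAb.isPGroup hA)
    (H13.ElemAb.isPGroup hE) (by
      rw [(Subgroup.normalizer_eq_top_iff (H := E)).mpr inferInstance]; exact le_top) hE1
  obtain ⟨z, hz, hz1⟩ : ∃ z ∈ E ⊓ centralizer (A : Set X), z ≠ 1 := by
    by_contra h
    push Not at h
    exact hz (le_bot_iff.mp (fun x hx => Subgroup.mem_bot.mpr (h x hx)))
  obtain ⟨hzE, hzA⟩ := Subgroup.mem_inf.mp hz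
  rw [Subgroup.mem_centralizer_iff] at hzA
  have hv2 : v ^ 2 = 1 := hA.2 v hvA
  have hz2 : z ^ 2 = 1 := hE.2 z hzE
  have hv1 : v ≠ 1 := by rintro rfl; exact hvE E.one_mem
  have hvz : v * z = z * v := hzA v hvA
  have hvo : orderOf v = 2 := orderOf_eq_prime hv2 hv1
  have hmemv : ∀ y, y ∈ zpowers v ↔ y = 1 ∨ y = v :=
    H36.CharTwoLocal.mem_zpowers_iff_of_orderOf_two hvo
  -- choose `w`
  obtain ⟨w, hwA, hw⟩ : ∃ w ∈ A, w ∉ zpowers v ⊔ zpowers z := by
    apply exists_mem_not_mem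
    have h1 := card_sup_zpowers_le (P := zpowers v) hz2 (by
      intro p hp
      rcases (hmemv p).mp hp with rfl | rfl
      · simp
      · exact hvz)
    have h2 := card_zpowers_le_two hv2
    omega
  have hw2 : w ^ 2 = 1 := hA.2 w hwA
  have hvw : v * w = w * v := hAc v hvA w hwA
  have hwz : w * z = z * w := hzA w hwA
  have hw1 : w ∉ zpowers v := fun h => hw (Subgroup.mem_sup_left h)
  have hzvw : z ∉ zpowers v ⊔ zpowers w := by
    rw [mem_sup_zpowers hw2 (by
      intro p hp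
      rcases (hmemv p).mp hp with rfl | rfl
      · simp
      · exact hvw)]
    rintro (h | ⟨p, hp, h⟩)
    · rcases (hmemv z).mp h with h | h
      · exact hz1 h
      · exact hvE (h ▸ hzE)
    · apply hw
      have : w = p⁻¹ * z := by rw [h]; group
      rw [this]
      exact Subgroup.mul_mem_sup (Subgroup.inv_mem _ hp) (Subgroup.mem_zpowers z)
  -- `A' = ⟨v, w, z⟩`
  obtain ⟨hA', hA'8⟩ := triple hv2 hw2 hz2 hvw hvz hwz hv1 hw1 hzvw
  -- choose `y`
  obtain ⟨y, hy, hyz⟩ : ∃ y ∈ E ⊓ centralizer ({v} : Set X) ⊓ centralizer ({w} : Set X),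
      y ∉ zpowers z := by
    apply exists_mem_not_mem
    have h1 := card_fix2 hE hE32 hv2 hw2 hvw
    have h2 := card_zpowers_le_two hz2
    omega
  obtain ⟨hy', hyw⟩ := Subgroup.mem_inf.mp hy
  obtain ⟨hyE, hyv⟩ := Subgroup.mem_inf.mp hy'
  rw [Subgroup.mem_centralizer_singleton_iff] at hyw hyv
  have hy2 : y ^ 2 = 1 := hE.2 y hyE
  have hzy : z * y = y * z := hEc z hzE y hyE
  have hv' : v ∉ zpowers z ⊔ zpowers y := by
    intro h
    have : zpowers z ⊔ zpowers y ≤ E := sup_le (Subgroup.zpowers_le.mpr hzE)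
      (Subgroup.zpowers_le.mpr hyE)
    exact hvE (this h)
  obtain ⟨hA'', hA''8⟩ := triple hz2 hy2 hv2 hzy hvz.symm hyv hz1 hyz hv'
  -- choose `F`
  have hcard := card_fix hE hE32 hv2
  have hEAF := H13.ElemAb.of_le hE (inf_le_left : E ⊓ centralizer ({v} : Set X) ≤ E)
  obtain ⟨n, hn⟩ := two_pow_of_ea hEAF
  have h8 : 2 ^ 3 ∣ Nat.card (E ⊓ centralizer ({v} : Set X) : Subgroup X) := by
    rw [hn] at hcard ⊢
    apply pow_dvd_pow
    by_contra h
    have : 2 ^ n ≤ 2 ^ 2 := Nat.pow_le_pow_right (by norm_num) (by omega)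
    omega
  obtain ⟨F0, hF0⟩ := Sylow.exists_subgroup_card_pow_prime 2 h8
  set F := F0.map (E ⊓ centralizer ({v} : Set X)).subtype with hF
  have hFle : F ≤ E ⊓ centralizer ({v} : Set X) := Subgroup.map_subtype_le _
  have hFE : F ≤ E := hFle.trans inf_le_left
  have hFEA := H13.ElemAb.of_le hE hFE
  have hF8 : Nat.card F = 8 := by
    rw [hF, Nat.card_congr (F0.equivMapOfInjective _ (Subgroup.subtype_injective _)).symm.toEquiv,
      hF0]
    norm_num
  refine ⟨F, hFE, hFEA, hF8, ?_⟩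
  have r1 : Rel A (zpowers v ⊔ zpowers w ⊔ zpowers z) := by
    refine ⟨hA, hA8, hA', hA'8, ?_⟩
    rw [Subgroup.commutator_comm]
    exact commutator_eq_bot_of_gens (fun d hd => hAc d hd v hvA) (fun d hd => hAc d hd w hwA)
      (fun d hd => hzA d hd)
  have r2 : Rel (zpowers v ⊔ zpowers w ⊔ zpowers z) (zpowers z ⊔ zpowers y ⊔ zpowers v) := by
    refine ⟨hA', hA'8, hA'', hA''8, ?_⟩
    exact commutator_eq_bot_of_gens
      (fun d hd => mem_triple hd hvz hyv.symm rfl)
      (fun d hd => mem_triple hd hwz hyw.symm hvw.symm)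
      (fun d hd => mem_triple hd rfl hzy hvz.symm)
  have r3 : Rel (zpowers z ⊔ zpowers y ⊔ zpowers v) F := by
    refine ⟨hA'', hA''8, hFEA, hF8, ?_⟩
    exact commutator_eq_bot_of_gens (fun d hd => hEc d (hFE hd) z hzE)
      (fun d hd => hEc d (hFE hd) y hyE)
      (fun d hd => Subgroup.mem_centralizer_singleton_iff.mp (Subgroup.mem_inf.mp (hFle hd)).2)
  exact ((Relation.ReflTransGen.single r1).tail r2).tail r3

theorem exists_eight {V : Subgroup X} (hV : IsElementaryAbelian 2 V) (hV4 : Nat.card V = 4) :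
    ∃ A : Subgroup X, V ≤ A ∧ IsElementaryAbelian 2 A ∧ Nat.card A = 8 := by
  have hVc := (H13.ElemAb.iff_mem.mp hV).1
  have hEc := (H13.ElemAb.iff_mem.mp hE).1
  -- it suffices to find `z` outside `V` commuting with `V`
  suffices h : ∃ z, z ^ 2 = 1 ∧ z ∉ V ∧ ∀ x ∈ V, x * z = z * x by
    obtain ⟨z, hz2, hzV, hzc⟩ := h
    refine ⟨V ⊔ zpowers z, le_sup_left, ea_sup hV hz2 hzc, ?_⟩
    rw [card_sup_zpowers hz2 hzc hzV, hV4]
  by_cases hVE : V ≤ E
  · obtain ⟨z, hz, hzV⟩ := exists_mem_not_mem (A := E) (B := V) (by omega)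
    exact ⟨z, hE.2 z hz, hzV, fun x hx => hEc x (hVE hx) z hz⟩
  · obtain ⟨v, hvV, hvE⟩ := SetLike.not_le_iff_exists.mp hVE
    have hv2 : v ^ 2 = 1 := hV.2 v hvV
    have hv1 : v ≠ 1 := by rintro rfl; exact hvE E.one_mem
    obtain ⟨w, hwV, hw⟩ : ∃ w ∈ V, w ∉ zpowers v := by
      apply exists_mem_not_mem
      have h2 := card_zpowers_le_two hv2
      omega
    have hw2 : w ^ 2 = 1 := hV.2 w hwV
    have hvw : v * w = w * v := hVc v hvV w hwV
    have hVeq : zpowers v ⊔ zpowers w = V := by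
      apply Subgroup.eq_of_le_of_card_ge
      · exact sup_le (Subgroup.zpowers_le.mpr hvV) (Subgroup.zpowers_le.mpr hwV)
      · rw [hV4, card_sup_zpowers hw2 _ hw, Nat.card_zpowers, orderOf_eq_prime hv2 hv1]
        intro p hp
        exact hVc p ((Subgroup.zpowers_le.mpr hvV) hp) w hwV
    have h4 := card_fix2 hE hE32 hv2 hw2 hvw
    obtain ⟨z, hz, hzV⟩ : ∃ z ∈ E ⊓ centralizer ({v} : Set X) ⊓ centralizer ({w} : Set X), z ∉ V := by
      by_contra h
      push Not at h
      have h5 : E ⊓ centralizer ({v} : Set X) ⊓ centralizer ({w} : Set X) = V :=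
        Subgroup.eq_of_le_of_card_ge (fun x hx => h x hx) (by omega)
      apply hvE
      rw [← h5] at hvV
      exact (Subgroup.mem_inf.mp (Subgroup.mem_inf.mp hvV).1).1
    obtain ⟨hz', hzw⟩ := Subgroup.mem_inf.mp hz
    obtain ⟨hzE, hzv⟩ := Subgroup.mem_inf.mp hz'
    rw [Subgroup.mem_centralizer_singleton_iff] at hzw hzv
    refine ⟨z, hE.2 z hzE, hzV, ?_⟩
    intro x hx
    have h6 : V ≤ centralizer ({z} : Set X) := by
      rw [← hVeq]
      refine sup_le ?_ ?_ <;> rw [Subgroup.zpowers_le, Subgroup.mem_centralizer_singleton_iff]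
      · exact hzv.symm
      · exact hzw.symm
    exact Subgroup.mem_centralizer_singleton_iff.mp (h6 hx)

end main

end H36.EightConn
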