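import Mathlib

set_option autoImplicit false

namespace H36.HS

open Subgroup

universe u

section general

variable {G : Type u} [Group G] [Finite G]

/-- the primes of `M` are in `π`, the index of `M ⊓ X` in `X` involves no prime of `π`. -/
def HallIn (π : Set ℕ) (M X : Subgroup G) : Prop :=
  (∀ p : ℕ, p.Prime → p ∣ Nat.card M → p ∈ π) ∧
    ∀ p : ℕ, p.Prime → p ∈ π → ¬ p ∣ M.relIndex X

theorem card_rel {H K : Subgroup G} (h : H ≤ K) : Nat.card H * H.relIndex K = Nat.card K := by
  rw [← relIndex_bot_left, ← relIndex_bot_left K, relIndex_mul_relIndex _ _ _ bot_le h]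

theorem card_rel' (H K : Subgroup G) :
    Nat.card (H ⊓ K : Subgroup G) * H.relIndex K = Nat.card K := by
  rw [← inf_relIndex_right, card_rel inf_le_right]

theorem rel_normal (H K : Subgroup G) [K.Normal] : H.relIndex K ∣ H.index := by
  have h1 : H.relIndex K * K.relIndex (H ⊔ K) = K.relIndex H * H.relIndex (H ⊔ K) := by
    rw [← inf_relIndex_right H K, relIndex_mul_relIndex _ _ _ inf_le_right le_sup_right,
      ← inf_relIndex_left H K, relIndex_mul_relIndex _ _ _ inf_le_left le_sup_left]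
  rw [relIndex_sup_right, mul_comm] at h1
  have h2 : K.relIndex H ≠ 0 :=
    (Nat.pos_of_dvd_of_pos (relIndex_dvd_card K H) Nat.card_pos).ne'
  have h3 := Nat.eq_of_mul_eq_mul_left (Nat.pos_of_ne_zero h2) h1
  rw [h3]
  exact relIndex_dvd_index_of_le le_sup_left

theorem rel_normalizes {M N W : Subgroup G} (hNW : N ≤ W)
    (hn : ∀ w ∈ W, ∀ x ∈ N, w * x * w⁻¹ ∈ N) : M.relIndex N ∣ M.relIndex W := by
  haveI : (N.subgroupOf W).Normal := by
    constructor
    intro x hx w
    rw [mem_subgroupOf] at hx ⊢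
    exact hn w w.2 x hx
  have := rel_normal (M.subgroupOf W) (N.subgroupOf W)
  rwa [relIndex_subgroupOf hNW] at this

theorem HallIn.mono {π : Set ℕ} {M W X : Subgroup G} (h : HallIn π M X) (h1 : M ≤ W)
    (h2 : W ≤ X) : HallIn π M W :=
  ⟨h.1, fun p hp hpπ hd => h.2 p hp hpπ
    (hd.trans (Dvd.intro _ (relIndex_mul_relIndex _ _ _ h1 h2)))⟩

theorem HallIn.upper {π : Set ℕ} {M W X : Subgroup G} (h : HallIn π M X) (h1 : M ≤ W)
    (h2 : W ≤ X) {p : ℕ} (hp : p.Prime) (hpπ : p ∈ π) : ¬ p ∣ W.relIndex X :=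
  fun hd => h.2 p hp hpπ (hd.trans (Dvd.intro_left _ (relIndex_mul_relIndex _ _ _ h1 h2)))

theorem HallIn.normal {π : Set ℕ} {M N W : Subgroup G} (h : HallIn π M W) (hNW : N ≤ W)
    (hn : ∀ w ∈ W, ∀ x ∈ N, w * x * w⁻¹ ∈ N) : HallIn π M N :=
  ⟨h.1, fun p hp hpπ hd => h.2 p hp hpπ (hd.trans (rel_normalizes hNW hn))⟩

/-- a Hall subgroup of a `π`-group is everything -/
theorem HallIn.eq {π : Set ℕ} {M W : Subgroup G} (h : HallIn π M W) (hMW : M ≤ W)
    (hW : ∀ p : ℕ, p.Prime → p ∣ Nat.card W → p ∈ π) : M = W := by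
  refine le_antisymm hMW ?_
  rw [← relIndex_eq_one]
  by_contra hne
  obtain ⟨p, hp, hd⟩ := Nat.exists_prime_and_dvd hne
  exact h.2 p hp (hW p hp (hd.trans (relIndex_dvd_card M W))) hd

theorem dvd_card_of_hall {π : Set ℕ} {M X : Subgroup G} (h : HallIn π M X) (hMX : M ≤ X)
    {p : ℕ} (hp : p.Prime) (hpπ : p ∈ π) {i : ℕ} (hd : p ^ i ∣ Nat.card X) :
    p ^ i ∣ Nat.card M := by
  rw [← card_rel hMX] at hd
  exact (Nat.Coprime.pow_left _ ((Nat.Prime.coprime_iff_not_dvd hp).2 (h.2 p hp hpπ))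
    ).dvd_of_dvd_mul_right hd

theorem conj_in_top {p : ℕ} [Fact p.Prime] {M P : Subgroup G} (hM : ¬ p ∣ M.index)
    (hP : IsPGroup p P) : ∃ g : G, ∀ x ∈ P, g * x * g⁻¹ ∈ M := by
  have h1 : ¬ p ∣ Nat.card (G ⧸ M) := by rwa [← index_eq_card]
  obtain ⟨q, hq⟩ := hP.nonempty_fixed_point_of_prime_not_dvd_card (G ⧸ M) h1
  obtain ⟨g, rfl⟩ := QuotientGroup.mk_surjective q
  refine ⟨g⁻¹, fun x hx => ?_⟩
  have h2 : ((⟨x, hx⟩ : P) • (g : G ⧸ M)) = g := hq ⟨x, hx⟩
  have h3 : ((x * g : G) : G ⧸ M) = (g : G ⧸ M) := h2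
  rw [eq_comm, QuotientGroup.eq] at h3
  rw [inv_inv]
  rwa [← mul_assoc] at h3

theorem conj_in {p : ℕ} [Fact p.Prime] {M X P : Subgroup G} (hM : ¬ p ∣ M.relIndex X)
    (hPX : P ≤ X) (hP : IsPGroup p P) : ∃ g ∈ X, ∀ x ∈ P, g * x * g⁻¹ ∈ M := by
  have h1 : IsPGroup p (P.subgroupOf X) := hP.comap_subtype
  obtain ⟨g, hg⟩ := conj_in_top (G := X) (M := M.subgroupOf X) hM h1
  refine ⟨g, g.2, fun x hx => ?_⟩
  have := hg ⟨x, hPX hx⟩ (by rw [mem_subgroupOf]; exact hx)
  rw [mem_subgroupOf] at this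
  exact this

end general

section perm

open Equiv Equiv.Perm

variable {α : Type u} [Fintype α] [DecidableEq α]

theorem card_inf_alt {H : Subgroup (Perm α)} {g : Perm α} (hg : g ∈ H) (hs : sign g = -1) :
    Nat.card H = 2 * Nat.card (H ⊓ alternatingGroup α : Subgroup (Perm α)) := by
  have h1 := card_rel' (alternatingGroup α) H
  rw [inf_comm] at h1
  have h2 : (alternatingGroup α).relIndex H = 2 := by
    rw [alternatingGroup_eq_sign_ker, relIndex_ker]
    have : H.map (sign : Perm α →* ℤˣ) = ⊤ := by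
      rw [eq_top_iff]
      intro x _
      rcases Int.units_eq_one_or x with rfl | rfl
      · exact one_mem _
      · exact ⟨g, hg, hs⟩
    rw [this]
    simp
  rw [h2] at h1
  omega

theorem card_alt (h : 2 ≤ Fintype.card α) :
    (Fintype.card α).factorial = 2 * Nat.card (alternatingGroup α) := by
  obtain ⟨a, b, hab⟩ := Fintype.exists_pair_of_one_lt_card (α := α) (by omega)
  have h1 := card_inf_alt (H := ⊤) (g := swap a b) (mem_top _) (sign_swap hab)
  rw [top_inf_eq, Nat.card_congr (topEquiv (G := Perm α)).toEquiv, Nat.card_eq_fintype_card,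
    Fintype.card_perm] at h1
  exact h1

/-- setwise stabiliser -/
def SS (S : Finset α) : Subgroup (Perm α) where
  carrier := {g | ∀ x, g x ∈ S ↔ x ∈ S}
  one_mem' := fun x => by simp
  mul_mem' := by
    intro a b ha hb x
    rw [Perm.mul_apply, ha, hb]
  inv_mem' := by
    intro a ha x
    have e : a (a⁻¹ x) = x := by simp
    have := ha (a⁻¹ x)
    rw [e] at this
    exact this.symm

theorem mem_SS {S : Finset α} {g : Perm α} : g ∈ SS S ↔ ∀ x, g x ∈ S ↔ x ∈ S := Iff.rfl

/-- stabiliser of the partition `{S, Sᶜ}` -/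
def PS (S : Finset α) : Subgroup (Perm α) where
  carrier := {g | ∀ x y, (g x ∈ S ↔ g y ∈ S) ↔ (x ∈ S ↔ y ∈ S)}
  one_mem' := fun x y => by simp
  mul_mem' := by
    intro a b ha hb x y
    simp only [Perm.mul_apply]
    rw [ha, hb]
  inv_mem' := by
    intro a ha x y
    have e : ∀ x, a (a⁻¹ x) = x := fun x => by simp
    have := ha (a⁻¹ x) (a⁻¹ y)
    rw [e, e] at this
    exact this.symm

theorem mem_PS {S : Finset α} {g : Perm α} :
    g ∈ PS S ↔ ∀ x y, (g x ∈ S ↔ g y ∈ S) ↔ (x ∈ S ↔ y ∈ S) := Iff.rfl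

theorem SS_le_PS (S : Finset α) : SS S ≤ PS S := by
  intro g hg x y
  rw [hg, hg]

theorem PS_or {S : Finset α} {g : Perm α} (hg : g ∈ PS S) :
    (∀ x, g x ∈ S ↔ x ∈ S) ∨ (∀ x, g x ∈ S ↔ x ∉ S) := by
  by_cases hS : ∃ a, (g a ∈ S ↔ a ∈ S)
  · left
    obtain ⟨a, ha⟩ := hS
    intro x
    have := hg x a
    tauto
  · right
    push Not at hS
    intro x
    have := hS x
    tauto

theorem PS_card_of_swap {S : Finset α} {g : Perm α} (hg : ∀ x, g x ∈ S ↔ x ∉ S) :
    S.card = Fintype.card α - S.card := by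
  rw [← Finset.card_compl]
  have : Sᶜ = S.map g.symm.toEmbedding := by
    ext x
    simp only [Finset.mem_compl, Finset.mem_map, Equiv.coe_toEmbedding]
    constructor
    · intro hx
      exact ⟨g x, (hg x).2 hx, by simp⟩
    · rintro ⟨y, hy, rfl⟩ h
      exact ((hg (g.symm y)).1 (by simpa using hy)) h
  rw [this, Finset.card_map]

theorem PS_eq_SS {S : Finset α} (h : S.card ≠ Fintype.card α - S.card) : PS S = SS S := by
  refine le_antisymm (fun g hg => ?_) (SS_le_PS S)
  rcases PS_or hg with h1 | h1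
  · exact h1
  · exact absurd (PS_card_of_swap h1) h

theorem card_SS (S : Finset α) :
    Nat.card (SS S) = S.card.factorial * (Fintype.card α - S.card).factorial := by
  have h1 := DomMulAct.stabilizer_card (f := fun x : α => decide (x ∈ S))
  have h2 : Nat.card (SS S) =
      Fintype.card {g : Perm α // (fun x : α => decide (x ∈ S)) ∘ g = fun x : α => decide (x ∈ S)} := by
    rw [← Nat.card_eq_fintype_card]
    refine Nat.card_congr (Equiv.subtypeEquivRight (fun g => ?_))
    rw [mem_SS, funext_iff]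
    simp
  rw [h2, h1, Fintype.prod_bool]
  congr 2
  · simp
  · have : Fintype.card {a // decide (a ∈ S) = false} = Fintype.card {a // ¬ a ∈ S} :=
      Fintype.card_congr (Equiv.subtypeEquivRight (fun a => by simp))
    rw [this, Fintype.card_subtype_compl]
    simp

/-- `SS S` contains an odd permutation -/
theorem SS_odd {S : Finset α} (h : 3 ≤ Fintype.card α) : ∃ g ∈ SS S, sign g = -1 := by
  rcases Nat.lt_or_ge 1 S.card with h1 | h1
  · obtain ⟨a, ha, b, hb, hab⟩ := Finset.one_lt_card.1 h1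
    refine ⟨swap a b, fun x => ?_, sign_swap hab⟩
    by_cases hxa : x = a
    · subst hxa; simp [ha, hb]
    · by_cases hxb : x = b
      · subst hxb; simp [ha, hb]
      · rw [swap_apply_of_ne_of_ne hxa hxb]
  · have h2 : 1 < Sᶜ.card := by rw [Finset.card_compl]; omega
    obtain ⟨a, ha, b, hb, hab⟩ := Finset.one_lt_card.1 h2
    rw [Finset.mem_compl] at ha hb
    refine ⟨swap a b, fun x => ?_, sign_swap hab⟩
    by_cases hxa : x = a
    · subst hxa; simp [ha, hb]
    · by_cases hxb : x = b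
      · subst hxb; simp [ha, hb]
      · rw [swap_apply_of_ne_of_ne hxa hxb]

/-- index of a subgroup containing an odd permutation -/
theorem rel_alt {W : Subgroup (Perm α)} (h3 : 2 ≤ Fintype.card α) {g : Perm α} (hg : g ∈ W)
    (hs : sign g = -1) :
    (W ⊓ alternatingGroup α : Subgroup (Perm α)).relIndex (alternatingGroup α) = W.index := by
  have h1 := card_inf_alt hg hs
  have h2 := card_rel (inf_le_right : W ⊓ alternatingGroup α ≤ alternatingGroup α)
  have h4 := card_alt h3
  have h5 := card_mul_index W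
  rw [Nat.card_eq_fintype_card (α := Perm α), Fintype.card_perm, h4, ← h2, h1] at h5
  have h6 : 0 < Nat.card (W ⊓ alternatingGroup α : Subgroup (Perm α)) := Nat.card_pos
  have h7 : (2 * Nat.card (W ⊓ alternatingGroup α : Subgroup (Perm α))) * W.index =
    (2 * Nat.card (W ⊓ alternatingGroup α : Subgroup (Perm α))) *
      (W ⊓ alternatingGroup α : Subgroup (Perm α)).relIndex (alternatingGroup α) := by
    rw [h5]; ring
  exact (Nat.eq_of_mul_eq_mul_left (by omega) h7).symm

theorem index_SS (S : Finset α) : (SS S).index = (Fintype.card α).choose S.card := by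
  have h1 := card_mul_index (SS S)
  rw [Nat.card_eq_fintype_card (α := Perm α), Fintype.card_perm, card_SS] at h1
  have h2 : S.card ≤ Fintype.card α := Finset.card_le_univ S
  have h3 := Nat.choose_mul_factorial_mul_factorial h2
  have h4 : 0 < S.card.factorial * (Fintype.card α - S.card).factorial :=
    Nat.mul_pos (Nat.factorial_pos _) (Nat.factorial_pos _)
  rw [← h3, mul_assoc ((Fintype.card α).choose _), mul_comm ((Fintype.card α).choose _)] at h1
  exact Nat.eq_of_mul_eq_mul_left h4 h1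

end perm

end H36.HS
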