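import Cfsg.Agent.Lib.H36.HSodd

set_option autoImplicit false

namespace H36.HS

open Subgroup Equiv Equiv.Perm

universe u

theorem pg_sup {G : Type u} [Group G] {p : ℕ} {H K : Subgroup G} (hH : IsPGroup p H)
    (hK : IsPGroup p K) (hc : ∀ h ∈ H, ∀ k ∈ K, h * k = k * h) :
    IsPGroup p (H ⊔ K : Subgroup G) := by
  refine hH.to_sup_of_normal_right' hK ?_
  intro h hh
  rw [mem_normalizer_iff]
  intro k
  have e : ∀ x ∈ K, h * x * h⁻¹ = x := fun x hx => by rw [hc h hh x hx]; group
  constructor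
  · intro hk
    rw [e k hk]
    exact hk
  · intro hk
    have h1 := e _ hk
    have h2 : h * k * h⁻¹ = k := by
      have h3 : h * (h * k * h⁻¹) = h * k * h⁻¹ * h := hc h hh _ hk
      have h4 : h * (h * k * h⁻¹) = h * k := by
        rw [h3]; group
      exact mul_left_cancel h4
    rwa [h2] at hk

variable {α : Type u} [Fintype α] [DecidableEq α]

theorem mul_comm_of_off {F : Finset α} {g d : Perm α} (hg : ∀ x, x ∉ F → g x = x)
    (hd : ∀ x, x ∈ F → d x = x) : g * d = d * g := by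
  refine (Disjoint.commute ?_ : Commute g d)
  intro x
  by_cases hx : x ∈ F
  · exact Or.inr (hd x hx)
  · exact Or.inl (hg x hx)

theorem exists_cyc {D : Finset α} (hD : 2 ≤ D.card) : ∃ d : Perm α, d.IsCycle ∧ d.support = D := by
  obtain ⟨f, hf, hfs⟩ := D.exists_cycleOn
  have hnt : (D : Set α).Nontrivial := by
    obtain ⟨a, ha, b, hb, hab⟩ := Finset.one_lt_card.1 (show 1 < D.card by omega)
    exact ⟨a, ha, b, hb, hab⟩
  refine ⟨f, ?_, ?_⟩
  · rw [isCycle_iff_exists_isCycleOn]
    refine ⟨D, hnt, hf, ?_⟩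
    intro x hx
    exact hfs (mem_support.2 hx)
  · refine Finset.Subset.antisymm hfs ?_
    intro x hx
    exact mem_support.2 (hf.apply_ne hnt hx)

/-- cover by `p`-cycles -/
theorem cover_odd {p : ℕ} (hp : p.Prime) (hp2 : p ≠ 2) : ∀ (k : ℕ) (F : Finset α), F.card = k →
    ∃ E : Subgroup (Perm α), IsPGroup p E ∧ E ≤ alternatingGroup α ∧
      (∀ g ∈ E, ∀ x, x ∉ F → g x = x) ∧ ∃ T ⊆ F, T.card < p ∧ ∀ x ∈ F, x ∉ T →
        ∃ d ∈ E, d.IsCycle ∧ d.support.card = p ∧ x ∈ d.support := by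
  intro k
  induction k using Nat.strong_induction_on with
  | _ k ih =>
  intro F hF
  by_cases hk : k < p
  · refine ⟨⊥, IsPGroup.of_bot, bot_le, ?_, F, subset_rfl, by omega, ?_⟩
    · intro g hg x _
      rw [mem_bot] at hg
      rw [hg]; rfl
    · intro x hx hx'
      exact absurd hx hx'
  · obtain ⟨D, hDF, hDc⟩ := Finset.exists_subset_card_eq (s := F) (n := p) (by omega)
    obtain ⟨d, hdc, hds⟩ := exists_cyc (D := D) (by rw [hDc]; exact hp.two_le)
    have hpos := hp.pos
    obtain ⟨E, hE, hEA, hEF, T, hTF, hTc, hT⟩ := ih (F \ D).card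
      (by rw [Finset.card_sdiff_of_subset hDF]; omega) (F \ D) rfl
    have hd : IsPGroup p (zpowers d) :=
      IsPGroup.of_card (n := 1) (by rw [Nat.card_zpowers, hdc.orderOf, hds, hDc, pow_one])
    have hdoff : ∀ x, x ∉ D → d x = x := by
      intro x hx
      rw [← hds] at hx
      exact notMem_support.1 hx
    have hfix : ∀ g ∈ zpowers d, ∀ x, x ∉ D → g x = x := by
      rintro _ ⟨j, rfl⟩ x hx
      exact zpow_apply_eq_self_of_apply_eq_self (hdoff x hx) j
    refine ⟨E ⊔ zpowers d, pg_sup hE hd ?_, sup_le hEA ?_, ?_, T, hTF.trans Finset.sdiff_subset,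
      hTc, ?_⟩
    · intro g hg c hc
      refine mul_comm_of_off (F := F \ D) (hEF g hg) ?_
      intro x hx
      exact hfix c hc x (Finset.mem_sdiff.1 hx).2
    · rw [zpowers_le, mem_alternatingGroup, hdc.sign, hds, hDc]
      rw [(hp.odd_of_ne_two hp2).neg_one_pow]
      simp
    · intro g hg
      have hle : E ⊔ zpowers d ≤ fixingSubgroup (Perm α) (((F : Finset α) : Set α)ᶜ) := by
        refine sup_le ?_ ?_
        · intro k hk
          rw [mem_fixingSubgroup_iff]
          intro x hx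
          refine hEF k hk x (fun hxF => hx ?_)
          simpa using (Finset.mem_sdiff.1 hxF).1
        · intro k hk
          rw [mem_fixingSubgroup_iff]
          intro x hx
          refine hfix k hk x (fun hxF => hx ?_)
          simpa using hDF hxF
      intro x hx
      exact (mem_fixingSubgroup_iff (Perm α)).1 (hle hg) x (by simpa using hx)
    · intro x hx hxT
      by_cases hxD : x ∈ D
      · exact ⟨d, (le_sup_right : zpowers d ≤ _) (mem_zpowers d), hdc, by rw [hds, hDc], by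
          rw [hds]; exact hxD⟩
      · obtain ⟨c, hcE, hc1, hc2, hc3⟩ := hT x (Finset.mem_sdiff.2 ⟨hx, hxD⟩) hxT
        exact ⟨c, (le_sup_left : E ≤ _) hcE, hc1, hc2, hc3⟩

/-- all even involutions (and 1) supported on the four-set `B` are in `M` -/
def KB (M : Subgroup (Perm α)) (B : Finset α) : Prop :=
  B.card = 4 ∧ ∀ g : Perm α, (∀ x, x ∉ B → g x = x) → g * g = 1 → sign g = 1 → g ∈ M

theorem KB.mono {M N : Subgroup (Perm α)} {B : Finset α} (h : KB M B) (hMN : M ≤ N) : KB N B :=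
  ⟨h.1, fun g h1 h2 h3 => hMN (h.2 g h1 h2 h3)⟩

theorem KB.map {M : Subgroup (Perm α)} {B : Finset α} (h : KB M B) {m : Perm α} (hm : m ∈ M) :
    KB M (B.map m.toEmbedding) := by
  refine ⟨by rw [Finset.card_map]; exact h.1, ?_⟩
  intro g hg1 hg2 hg3
  have h1 : m⁻¹ * g * m ∈ M := by
    refine h.2 _ ?_ ?_ ?_
    · intro x hx
      have : m x ∉ B.map m.toEmbedding := by
        rw [Finset.mem_map]
        rintro ⟨b, hb, hbx⟩
        exact hx (by rw [← m.injective hbx]; exact hb)
      rw [Perm.mul_apply, Perm.mul_apply, hg1 _ this]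
      simp
    · have : m⁻¹ * g * m * (m⁻¹ * g * m) = m⁻¹ * (g * g) * m := by group
      rw [this, hg2]; group
    · rw [Equiv.Perm.sign_mul, Equiv.Perm.sign_mul, hg3, Equiv.Perm.sign_inv, mul_one]
      rcases Int.units_eq_one_or (sign m) with h | h <;> rw [h] <;> simp
  have h2 : g = m * (m⁻¹ * g * m) * m⁻¹ := by group
  rw [h2]
  exact M.mul_mem (M.mul_mem hm h1) (M.inv_mem hm)

theorem three_dvd {M : Subgroup (Perm α)} {x : Perm α} (hx : x ∈ M) (h3 : x ^ 3 = 1)
    (h1 : x ≠ 1) : 3 ∣ Nat.card M := by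
  have : orderOf x = 3 := orderOf_eq_prime h3 h1
  have h := Subgroup.orderOf_dvd_natCard M hx
  rwa [this] at h

theorem off_mem {B : Finset α} {g : Perm α} (hg : ∀ x, x ∉ B → g x = x) (x : α) :
    g x ∈ B ↔ x ∈ B := by
  constructor
  · intro h
    by_contra hx
    rw [hg x hx] at h
    exact hx h
  · intro h
    by_contra hx
    have h1 := hg _ hx
    have h2 : g x = x := g.injective h1
    rw [h2] at hx
    exact hx h

theorem off_sub {B : Finset α} {g : Perm α} (hg : ∀ x, x ∉ B → g x = x) :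
    ∃ g' : Perm {x // x ∈ B}, ofSubtype g' = g ∧ sign g' = sign g := by
  have h2 : ∀ x, g x ≠ x → x ∈ B := fun x hx => by
    by_contra h; exact hx (hg x h)
  refine ⟨g.subtypePerm (off_mem hg), ofSubtype_subtypePerm _ h2, ?_⟩
  convert sign_subtypePerm g (off_mem hg) h2

set_option maxRecDepth 100000 in
theorem k4a : ∀ g k : Perm (Fin 4), g * g = 1 → k * k = 1 → sign g = 1 → sign k = 1 →
    g * k = k * g := by
  decide

theorem klein_comm {B : Finset α} (hB : B.card = 4) {g k : Perm α} (hg : ∀ x, x ∉ B → g x = x)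
    (hg2 : g * g = 1) (hgs : sign g = 1) (hk : ∀ x, x ∉ B → k x = x)
    (hk2 : k * k = 1) (hks : sign k = 1) : g * k = k * g := by
  obtain ⟨g', rfl, hg's⟩ := off_sub hg
  obtain ⟨k', rfl, hk's⟩ := off_sub hk
  have e : {x // x ∈ B} ≃ Fin 4 := Finset.equivFinOfCardEq hB
  have h1 : g' * g' = 1 := by
    rw [← map_mul, ← map_one (ofSubtype : Perm {x // x ∈ B} →* Perm α)] at hg2
    exact ofSubtype_injective hg2
  have h2 : k' * k' = 1 := by
    rw [← map_mul, ← map_one (ofSubtype : Perm {x // x ∈ B} →* Perm α)] at hk2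
    exact ofSubtype_injective hk2
  have h3 := k4a (e.permCongrHom g') (e.permCongrHom k') (by rw [← map_mul, h1, map_one])
    (by rw [← map_mul, h2, map_one])
    (by rw [Equiv.permCongrHom_coe, sign_permCongr, hg's, hgs])
    (by rw [Equiv.permCongrHom_coe, sign_permCongr, hk's, hks])
  rw [← map_mul, ← map_mul] at h3
  rw [← map_mul, ← map_mul, e.permCongrHom.injective h3]

/-- the Klein four-group on a four-set -/
def klein (B : Finset α) (hB : B.card = 4) : Subgroup (Perm α) where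
  carrier := {g | (∀ x, x ∉ B → g x = x) ∧ g * g = 1 ∧ sign g = 1}
  one_mem' := ⟨fun _ _ => rfl, one_mul 1, map_one _⟩
  mul_mem' := by
    rintro g k ⟨hg1, hg2, hg3⟩ ⟨hk1, hk2, hk3⟩
    refine ⟨fun x hx => by rw [Perm.mul_apply, hk1 x hx, hg1 x hx], ?_, by
      rw [map_mul, hg3, hk3, one_mul]⟩
    have hc := klein_comm hB hg1 hg2 hg3 hk1 hk2 hk3
    rw [mul_assoc, ← mul_assoc k, ← hc, mul_assoc g, hk2, mul_one, hg2]
  inv_mem' := by
    rintro g ⟨hg1, hg2, hg3⟩
    have : g⁻¹ = g := inv_eq_of_mul_eq_one_left hg2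
    rw [this]
    exact ⟨hg1, hg2, hg3⟩

theorem mem_klein {B : Finset α} {hB : B.card = 4} {g : Perm α} :
    g ∈ klein B hB ↔ (∀ x, x ∉ B → g x = x) ∧ g * g = 1 ∧ sign g = 1 := Iff.rfl

theorem klein_pg {B : Finset α} (hB : B.card = 4) : IsPGroup 2 (klein B hB) := by
  intro g
  refine ⟨1, ?_⟩
  rw [pow_one, pow_two]
  exact Subtype.ext g.2.2.1

/-- cover by Klein four-groups -/
theorem cover_two : ∀ (k : ℕ) (F : Finset α), F.card = k →
    ∃ E : Subgroup (Perm α), IsPGroup 2 E ∧ E ≤ alternatingGroup α ∧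
      (∀ g ∈ E, ∀ x, x ∉ F → g x = x) ∧ ∃ T ⊆ F, T.card < 4 ∧ ∀ x ∈ F, x ∉ T →
        ∃ B : Finset α, KB E B ∧ x ∈ B := by
  intro k
  induction k using Nat.strong_induction_on with
  | _ k ih =>
  intro F hF
  by_cases hk : k < 4
  · refine ⟨⊥, IsPGroup.of_bot, bot_le, ?_, F, subset_rfl, by omega, ?_⟩
    · intro g hg x _
      rw [mem_bot] at hg
      rw [hg]; rfl
    · intro x hx hx'
      exact absurd hx hx'
  · obtain ⟨D, hDF, hDc⟩ := Finset.exists_subset_card_eq (s := F) (n := 4) (by omega)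
    obtain ⟨E, hE, hEA, hEF, T, hTF, hTc, hT⟩ := ih (F \ D).card
      (by rw [Finset.card_sdiff_of_subset hDF]; omega) (F \ D) rfl
    have hd : IsPGroup 2 (klein D hDc) := klein_pg hDc
    have hfix : ∀ g ∈ klein D hDc, ∀ x, x ∉ D → g x = x := fun g hg => hg.1
    refine ⟨E ⊔ klein D hDc, pg_sup hE hd ?_, sup_le hEA ?_, ?_, T, hTF.trans Finset.sdiff_subset,
      hTc, ?_⟩
    · intro g hg c hc
      refine mul_comm_of_off (F := F \ D) (hEF g hg) ?_
      intro x hx
      exact hfix c hc x (Finset.mem_sdiff.1 hx).2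
    · intro g hg
      rw [mem_alternatingGroup]
      exact hg.2.2
    · intro g hg
      have hle : E ⊔ klein D hDc ≤ fixingSubgroup (Perm α) (((F : Finset α) : Set α)ᶜ) := by
        refine sup_le ?_ ?_
        · intro k hk
          rw [mem_fixingSubgroup_iff]
          intro x hx
          refine hEF k hk x (fun hxF => hx ?_)
          simpa using (Finset.mem_sdiff.1 hxF).1
        · intro k hk
          rw [mem_fixingSubgroup_iff]
          intro x hx
          refine hfix k hk x (fun hxF => hx ?_)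
          simpa using hDF hxF
      intro x hx
      exact (mem_fixingSubgroup_iff (Perm α)).1 (hle hg) x (by simpa using hx)
    · intro x hx hxT
      by_cases hxD : x ∈ D
      · refine ⟨D, ⟨hDc, fun g h1 h2 h3 => ?_⟩, hxD⟩
        exact (le_sup_right : klein D hDc ≤ _) ⟨h1, h2, h3⟩
      · obtain ⟨B, hB, hxB⟩ := hT x (Finset.mem_sdiff.2 ⟨hx, hxD⟩) hxT
        exact ⟨B, hB.mono le_sup_left, hxB⟩

end H36.HS
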