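import Cfsg.Agent.Lib.H36.HSc

set_option autoImplicit false

namespace H36.HS

open Subgroup Equiv Equiv.Perm

universe u

variable {α : Type u} [Fintype α] [DecidableEq α]

theorem comm_swap {s : Perm α} {a b : α} (ha : s a = a) (hb : s b = b) :
    s * swap a b = swap a b * s := by
  rw [mul_swap_eq_swap_mul, ha, hb]

theorem comm_swap2 {a b c d : α} (hac : a ≠ c) (had : a ≠ d) (hbc : b ≠ c) (hbd : b ≠ d) :
    swap a b * swap c d = swap c d * swap a b :=
  comm_swap (swap_apply_of_ne_of_ne hac.symm hbc.symm) (swap_apply_of_ne_of_ne had.symm hbd.symm)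

theorem tc_pow {a b c : α} (hab : a ≠ b) (hac : a ≠ c) (hbc : b ≠ c) :
    (swap a b * swap a c) ^ 3 = 1 := by
  have h := (isThreeCycle_swap_mul_swap_same hab hac hbc).orderOf
  rw [← h]; exact pow_orderOf_eq_one _

theorem gen3 {M : Subgroup (Perm α)} {a b c : α} (hab : a ≠ b) (hac : a ≠ c) (hbc : b ≠ c)
    {s t : Perm α} (hsa : s a = a) (hsb : s b = b) (hsc : s c = c) (hta : t a = a)
    (htb : t b = b) (htc : t c = c) (h6 : (s * t) ^ 6 = 1) (hu : swap a b * s ∈ M)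
    (hv : swap a c * t ∈ M) : 3 ∣ Nat.card M := by
  set X := swap a b * swap a c with hX
  have hX3 : X ^ 3 = 1 := tc_pow hab hac hbc
  have h1 : swap a b * s * (swap a c * t) = X * (s * t) := by
    rw [hX, mul_assoc, ← mul_assoc s, comm_swap hsa hsc]
    simp only [mul_assoc]
  have h2 : Commute X (s * t) := by
    have e1 : s * t * swap a b = swap a b * (s * t) :=
      comm_swap (by rw [Perm.mul_apply, hta, hsa]) (by rw [Perm.mul_apply, htb, hsb])
    have e2 : s * t * swap a c = swap a c * (s * t) :=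
      comm_swap (by rw [Perm.mul_apply, hta, hsa]) (by rw [Perm.mul_apply, htc, hsc])
    show X * (s * t) = s * t * X
    rw [hX, ← mul_assoc (s * t), e1, mul_assoc (swap a b), mul_assoc (swap a b), e2]
  have h3 : (X * (s * t)) ^ 2 ∈ M := by
    rw [← h1]; exact M.pow_mem (M.mul_mem hu hv) 2
  refine three_dvd h3 ?_ ?_
  · rw [← pow_mul, h2.mul_pow]
    show X ^ 6 * (s * t) ^ 6 = 1
    rw [h6, mul_one, show 6 = 3 * 2 from rfl, pow_mul, hX3, one_pow]
  · intro h4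
    rw [h2.mul_pow] at h4
    have h5 : X ^ 2 = X⁻¹ := by
      rw [eq_inv_iff_mul_eq_one, ← pow_succ]; exact hX3
    rw [h5, inv_mul_eq_one] at h4
    have h6 : X c = c := by
      rw [h4, pow_two, Perm.mul_apply, Perm.mul_apply, Perm.mul_apply, htc, hsc, htc, hsc]
    rw [hX, Perm.mul_apply, swap_apply_right, swap_apply_left] at h6
    exact hbc h6

theorem dbl_mem {M : Subgroup (Perm α)} {B : Finset α} (hB : KB M B) {a b c d : α} (ha : a ∈ B)
    (hb : b ∈ B) (hc : c ∈ B) (hd : d ∈ B) (hab : a ≠ b) (hcd : c ≠ d) (hac : a ≠ c)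
    (had : a ≠ d) (hbc : b ≠ c) (hbd : b ≠ d) : swap a b * swap c d ∈ M := by
  refine hB.2 _ ?_ ?_ ?_
  · intro x hx
    have h1 : x ≠ a := fun h => hx (h ▸ ha)
    have h2 : x ≠ b := fun h => hx (h ▸ hb)
    have h3 : x ≠ c := fun h => hx (h ▸ hc)
    have h4 : x ≠ d := fun h => hx (h ▸ hd)
    rw [Perm.mul_apply, swap_apply_of_ne_of_ne h3 h4, swap_apply_of_ne_of_ne h1 h2]
  · have h := comm_swap2 (a := a) (b := b) (c := c) (d := d) hac had hbc hbd
    rw [mul_assoc, ← mul_assoc (swap c d), ← h, mul_assoc (swap a b), swap_mul_self, mul_one,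
      swap_mul_self]
  · rw [map_mul, sign_swap hab, sign_swap hcd]; rfl

theorem KB_eq {M : Subgroup (Perm α)} (h3 : ¬ 3 ∣ Nat.card M) {B B' : Finset α} (hB : KB M B)
    (hB' : KB M B') {x : α} (hx : x ∈ B) (hx' : x ∈ B') : B = B' := by
  by_contra hne
  apply h3
  have hc1 := Finset.card_sdiff_add_card_inter B B'
  have hc2 := Finset.card_sdiff_add_card_inter B' B
  rw [Finset.inter_comm B' B] at hc2
  have hpos : 0 < (B ∩ B').card := Finset.card_pos.2 ⟨x, Finset.mem_inter.2 ⟨hx, hx'⟩⟩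
  rw [hB.1] at hc1
  rw [hB'.1] at hc2
  have hlt : (B ∩ B').card ≠ 4 := by
    intro h4
    have e1 : B ∩ B' = B := Finset.eq_of_subset_of_card_le Finset.inter_subset_left (by
      rw [h4, hB.1])
    have e2 : B ∩ B' = B' := Finset.eq_of_subset_of_card_le Finset.inter_subset_right (by
      rw [h4, hB'.1])
    exact hne (e1.symm.trans e2)
  have hcases : (B ∩ B').card = 1 ∨ (B ∩ B').card = 2 ∨ (B ∩ B').card = 3 := by omega
  rcases hcases with h | h | h
  · obtain ⟨a, ha⟩ := Finset.card_eq_one.1 h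
    obtain ⟨b, c, d, hbc, hbd, hcd, hS⟩ := Finset.card_eq_three.1 (show (B \ B').card = 3 by omega)
    obtain ⟨b', c', d', hbc', hbd', hcd', hS'⟩ := Finset.card_eq_three.1
      (show (B' \ B).card = 3 by omega)
    have ma : a ∈ B ∩ B' := by rw [ha]; simp
    have mb : b ∈ B \ B' := by rw [hS]; simp
    have mc : c ∈ B \ B' := by rw [hS]; simp
    have md : d ∈ B \ B' := by rw [hS]; simp
    have mb' : b' ∈ B' \ B := by rw [hS']; simp
    have mc' : c' ∈ B' \ B := by rw [hS']; simp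
    have md' : d' ∈ B' \ B := by rw [hS']; simp
    rw [Finset.mem_inter] at ma
    rw [Finset.mem_sdiff] at mb mc md mb' mc' md'
    have ne1 : ∀ {u v : α}, u ∈ B → v ∉ B → u ≠ v := fun h1 h2 h3 => h2 (h3 ▸ h1)
    have ne2 : ∀ {u v : α}, u ∈ B' → v ∉ B' → u ≠ v := fun h1 h2 h3 => h2 (h3 ▸ h1)
    refine gen3 (a := a) (b := b) (c := b') (s := swap c d) (t := swap c' d') (ne2 ma.2 mb.2)
      (ne1 ma.1 mb'.2) (ne1 mb.1 mb'.2) ?_ ?_ ?_ ?_ ?_ ?_ ?_ ?_ ?_
    · exact swap_apply_of_ne_of_ne (ne2 ma.2 mc.2) (ne2 ma.2 md.2)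
    · exact swap_apply_of_ne_of_ne hbc hbd
    · exact swap_apply_of_ne_of_ne (ne2 mb'.1 mc.2) (ne2 mb'.1 md.2)
    · exact swap_apply_of_ne_of_ne (ne1 ma.1 mc'.2) (ne1 ma.1 md'.2)
    · exact swap_apply_of_ne_of_ne (ne1 mb.1 mc'.2) (ne1 mb.1 md'.2)
    · exact swap_apply_of_ne_of_ne hbc' hbd'
    · have hcm : Commute (swap c d) (swap c' d') :=
        comm_swap2 (ne1 mc.1 mc'.2) (ne1 mc.1 md'.2) (ne1 md.1 mc'.2) (ne1 md.1 md'.2)
      rw [hcm.mul_pow, show 6 = 2 * 3 from rfl, pow_mul, pow_mul, pow_two, pow_two,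
        swap_mul_self, swap_mul_self, one_pow, one_mul]
    · exact dbl_mem hB ma.1 mb.1 mc.1 md.1 (ne2 ma.2 mb.2) hcd (ne2 ma.2 mc.2) (ne2 ma.2 md.2)
        hbc hbd
    · exact dbl_mem hB' ma.2 mb'.1 mc'.1 md'.1 (ne1 ma.1 mb'.2) hcd' (ne1 ma.1 mc'.2)
        (ne1 ma.1 md'.2) hbc' hbd'
  · obtain ⟨a, b, hab, hI⟩ := Finset.card_eq_two.1 h
    obtain ⟨c, d, hcd, hS⟩ := Finset.card_eq_two.1 (show (B \ B').card = 2 by omega)
    obtain ⟨c', d', hcd', hS'⟩ := Finset.card_eq_two.1 (show (B' \ B).card = 2 by omega)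
    have ma : a ∈ B ∩ B' := by rw [hI]; simp
    have mb : b ∈ B ∩ B' := by rw [hI]; simp
    have mc : c ∈ B \ B' := by rw [hS]; simp
    have md : d ∈ B \ B' := by rw [hS]; simp
    have mc' : c' ∈ B' \ B := by rw [hS']; simp
    have md' : d' ∈ B' \ B := by rw [hS']; simp
    rw [Finset.mem_inter] at ma mb
    rw [Finset.mem_sdiff] at mc md mc' md'
    have ne1 : ∀ {u v : α}, u ∈ B → v ∉ B → u ≠ v := fun h1 h2 h3 => h2 (h3 ▸ h1)
    have ne2 : ∀ {u v : α}, u ∈ B' → v ∉ B' → u ≠ v := fun h1 h2 h3 => h2 (h3 ▸ h1)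
    refine gen3 (a := a) (b := c) (c := c') (s := swap b d) (t := swap b d') (ne2 ma.2 mc.2)
      (ne1 ma.1 mc'.2) (ne1 mc.1 mc'.2) ?_ ?_ ?_ ?_ ?_ ?_ ?_ ?_ ?_
    · exact swap_apply_of_ne_of_ne hab (ne2 ma.2 md.2)
    · exact swap_apply_of_ne_of_ne (ne2 mb.2 mc.2).symm hcd
    · exact swap_apply_of_ne_of_ne (ne1 mb.1 mc'.2).symm (ne2 mc'.1 md.2)
    · exact swap_apply_of_ne_of_ne hab (ne1 ma.1 md'.2)
    · exact swap_apply_of_ne_of_ne (ne2 mb.2 mc.2).symm (ne1 mc.1 md'.2)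
    · exact swap_apply_of_ne_of_ne (ne1 mb.1 mc'.2).symm hcd'
    · rw [show 6 = 3 * 2 from rfl, pow_mul, tc_pow (ne2 mb.2 md.2) (ne1 mb.1 md'.2)
        (ne1 md.1 md'.2), one_pow]
    · exact dbl_mem hB ma.1 mc.1 mb.1 md.1 (ne2 ma.2 mc.2) (ne2 mb.2 md.2) hab (ne2 ma.2 md.2)
        (ne2 mb.2 mc.2).symm hcd
    · exact dbl_mem hB' ma.2 mc'.1 mb.2 md'.1 (ne1 ma.1 mc'.2) (ne1 mb.1 md'.2) hab
        (ne1 ma.1 md'.2) (ne1 mb.1 mc'.2).symm hcd'
  · obtain ⟨a, b, c, hab, hac, hbc, hI⟩ := Finset.card_eq_three.1 h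
    obtain ⟨d, hS⟩ := Finset.card_eq_one.1 (show (B \ B').card = 1 by omega)
    obtain ⟨d', hS'⟩ := Finset.card_eq_one.1 (show (B' \ B).card = 1 by omega)
    have ma : a ∈ B ∩ B' := by rw [hI]; simp
    have mb : b ∈ B ∩ B' := by rw [hI]; simp
    have mc : c ∈ B ∩ B' := by rw [hI]; simp
    have md : d ∈ B \ B' := by rw [hS]; simp
    have md' : d' ∈ B' \ B := by rw [hS']; simp
    rw [Finset.mem_inter] at ma mb mc
    rw [Finset.mem_sdiff] at md md'
    have ne1 : ∀ {u v : α}, u ∈ B → v ∉ B → u ≠ v := fun h1 h2 h3 => h2 (h3 ▸ h1)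
    have ne2 : ∀ {u v : α}, u ∈ B' → v ∉ B' → u ≠ v := fun h1 h2 h3 => h2 (h3 ▸ h1)
    refine gen3 (a := c) (b := d) (c := d') (s := swap a b) (t := swap a b) (ne2 mc.2 md.2)
      (ne1 mc.1 md'.2) (ne1 md.1 md'.2) ?_ ?_ ?_ ?_ ?_ ?_ ?_ ?_ ?_
    · exact swap_apply_of_ne_of_ne hac.symm hbc.symm
    · exact swap_apply_of_ne_of_ne (ne2 ma.2 md.2).symm (ne2 mb.2 md.2).symm
    · exact swap_apply_of_ne_of_ne (ne1 ma.1 md'.2).symm (ne1 mb.1 md'.2).symm
    · exact swap_apply_of_ne_of_ne hac.symm hbc.symm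
    · exact swap_apply_of_ne_of_ne (ne2 ma.2 md.2).symm (ne2 mb.2 md.2).symm
    · exact swap_apply_of_ne_of_ne (ne1 ma.1 md'.2).symm (ne1 mb.1 md'.2).symm
    · rw [swap_mul_self, one_pow]
    · exact dbl_mem hB mc.1 md.1 ma.1 mb.1 (ne2 mc.2 md.2) hab hac.symm hbc.symm
        (ne2 ma.2 md.2).symm (ne2 mb.2 md.2).symm
    · exact dbl_mem hB' mc.2 md'.1 ma.2 mb.2 (ne1 mc.1 md'.2) hab hac.symm hbc.symm
        (ne1 ma.1 md'.2).symm (ne1 mb.1 md'.2).symm

theorem no3_false {M : Subgroup (Perm α)} (h3 : ¬ 3 ∣ Nat.card M) {c : Perm α} (hcM : c ∈ M)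
    (hc : c.IsCycle) (hq : c.support.card.Prime) (h5 : 5 ≤ c.support.card) {T : Finset α}
    (hT : T.card < 4) (hcov : ∀ x, x ∉ T → ∃ B, KB M B ∧ x ∈ B) : False := by
  have hord : orderOf c = c.support.card := hc.orderOf
  have hcyc : ∀ i : ℕ, 0 < i → i < c.support.card →
      (c ^ i).IsCycle ∧ (c ^ i).support = c.support := by
    intro i hi hiq
    constructor
    · exact hc.isCycle_pow_pos_of_lt_prime_order (by rw [hord]; exact hq) i hi (by rwa [hord])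
    · exact hc.support_pow_of_pos_of_lt_orderOf hi (by rwa [hord])
  obtain ⟨x, hx, hxT⟩ : ∃ x ∈ c.support, x ∉ T := by
    by_contra h
    push Not at h
    have := Finset.card_le_card (show c.support ⊆ T from h)
    omega
  obtain ⟨B, hB, hxB⟩ := hcov x hxT
  obtain ⟨y, hyB, hyx⟩ : ∃ y ∈ B, y ≠ x :=
    Finset.exists_mem_ne (by rw [hB.1]; omega) x
  obtain ⟨i, hi0, hiq, y', hy'1, hy'2⟩ : ∃ i : ℕ, 0 < i ∧ i < c.support.card ∧
      ∃ y' ∈ B, (c ^ i) y' ∈ B := by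
    by_cases hyc : y ∈ c.support
    · rw [mem_support] at hx hyc
      obtain ⟨i, hi⟩ := hc.exists_pow_eq hx hyc
      have h1 : (c ^ (i % c.support.card)) x = y := by
        rw [← hord, pow_mod_orderOf]; exact hi
      refine ⟨i % c.support.card, ?_, Nat.mod_lt _ hq.pos, x, hxB, by rw [h1]; exact hyB⟩
      rcases Nat.eq_zero_or_pos (i % c.support.card) with h | h
      · rw [h] at h1; exact absurd h1.symm hyx
      · exact h
    · refine ⟨1, one_pos, hq.one_lt, y, hyB, ?_⟩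
      rw [notMem_support] at hyc
      rw [pow_one, hyc]; exact hyB
  obtain ⟨hgc, hgs⟩ := hcyc i hi0 hiq
  have hmap := hB.map (M.pow_mem hcM i)
  have heq : B = B.map (c ^ i).toEmbedding :=
    KB_eq h3 hB hmap hy'2 (Finset.mem_map.2 ⟨y', hy'1, rfl⟩)
  have hinv : ∀ z ∈ B, (c ^ i) z ∈ B := by
    intro z hz
    rw [heq]
    exact Finset.mem_map.2 ⟨z, hz, rfl⟩
  have hsub : c.support ⊆ B := by
    intro z hz
    exact cycle_inv hgc hinv hxB (by rw [hgs]; exact hx) (by rw [hgs]; exact hz)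
  have := Finset.card_le_card hsub
  rw [hB.1] at this
  omega

theorem conj_cycle {d g : Perm α} (hd : d.IsCycle) : (g * d * g⁻¹).IsCycle := hd.conj

theorem cover_conj {π : Set ℕ} {M : Subgroup (Perm α)} (hM : HallIn π M (alternatingGroup α))
    {p : ℕ} (hp : p.Prime) (hpπ : p ∈ π) (hp2 : p ≠ 2) :
    ∃ T : Finset α, T.card < p ∧ ∀ x, x ∉ T →
      ∃ d ∈ M, d.IsCycle ∧ d.support.card = p ∧ x ∈ d.support := by
  haveI : Fact p.Prime := ⟨hp⟩
  obtain ⟨E, hE, hEA, -, T, -, hTc, hT⟩ := cover_odd hp hp2 (Finset.univ : Finset α).card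
    (Finset.univ : Finset α) rfl
  obtain ⟨g, -, hg⟩ := conj_in (hM.2 p hp hpπ) hEA hE
  refine ⟨T.map g.toEmbedding, by rwa [Finset.card_map], fun x hx => ?_⟩
  obtain ⟨d, hdE, hd1, hd2, hd3⟩ := hT (g⁻¹ x) (Finset.mem_univ _) (fun h => hx (by
    rw [Finset.mem_map]; exact ⟨_, h, by simp⟩))
  refine ⟨g * d * g⁻¹, hg d hdE, hd1.conj, ?_, ?_⟩
  · rw [card_support_conj]; exact hd2
  · rw [mem_support] at hd3 ⊢
    intro h
    apply hd3
    rw [Perm.mul_apply, Perm.mul_apply] at h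
    have : d (g⁻¹ x) = g⁻¹ x := by
      rw [eq_inv_iff_eq]; exact h
    exact this

theorem cover_conj2 {π : Set ℕ} {M : Subgroup (Perm α)} (hM : HallIn π M (alternatingGroup α))
    (hpπ : 2 ∈ π) : ∃ T : Finset α, T.card < 4 ∧ ∀ x, x ∉ T → ∃ B, KB M B ∧ x ∈ B := by
  haveI : Fact (Nat.Prime 2) := ⟨Nat.prime_two⟩
  obtain ⟨E, hE, hEA, -, T, -, hTc, hT⟩ := cover_two (Finset.univ : Finset α).card
    (Finset.univ : Finset α) rfl
  obtain ⟨g, -, hg⟩ := conj_in (hM.2 2 Nat.prime_two hpπ) hEA hE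
  refine ⟨T.map g.toEmbedding, by rwa [Finset.card_map], fun x hx => ?_⟩
  obtain ⟨B, hB, hxB⟩ := hT (g⁻¹ x) (Finset.mem_univ _) (fun h => hx (by
    rw [Finset.mem_map]; exact ⟨_, h, by simp⟩))
  refine ⟨B.map g.toEmbedding, ⟨by rw [Finset.card_map]; exact hB.1, ?_⟩, ?_⟩
  · intro k hk1 hk2 hk3
    have h1 : g⁻¹ * k * g ∈ E := by
      refine hB.2 _ ?_ ?_ ?_
      · intro x hx
        have : g x ∉ B.map g.toEmbedding := by
          rw [Finset.mem_map]
          rintro ⟨b, hb, hbx⟩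
          exact hx (by rw [← g.injective hbx]; exact hb)
        rw [Perm.mul_apply, Perm.mul_apply, hk1 _ this]
        simp
      · have : g⁻¹ * k * g * (g⁻¹ * k * g) = g⁻¹ * (k * k) * g := by group
        rw [this, hk2]; group
      · rw [Equiv.Perm.sign_mul, Equiv.Perm.sign_mul, hk3, Equiv.Perm.sign_inv, mul_one]
        rcases Int.units_eq_one_or (sign g) with h | h <;> rw [h] <;> simp
    have h2 : k = g * (g⁻¹ * k * g) * g⁻¹ := by group
    rw [h2]
    exact hg _ h1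
  · rw [Finset.mem_map]; exact ⟨_, hxB, by simp⟩

/-- two primes of `π` up to `n` force `2, 3 ∈ π` -/
theorem two_three {π : Set ℕ} {M : Subgroup (Perm α)} (hM : HallIn π M (alternatingGroup α))
    {p q : ℕ} (hp : p.Prime) (hq : q.Prime) (hpπ : p ∈ π) (hqπ : q ∈ π) (hpq : p < q)
    (hqn : q ≤ Fintype.card α) : 2 ∈ π ∧ 3 ∈ π := by
  have hq2 : q ≠ 2 := by have := hp.two_le; omega
  obtain ⟨T, hTc, hT⟩ := cover_conj hM hq hqπ hq2
  obtain ⟨x, hx⟩ : ∃ x, x ∉ T := by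
    by_contra h
    push Not at h
    have : T = Finset.univ := Finset.eq_univ_iff_forall.2 h
    rw [this, Finset.card_univ] at hTc
    omega
  obtain ⟨c, hcM, hc1, hc2, -⟩ := hT x hx
  have h2 : 2 ∈ π := by
    by_contra h2
    have hp2 : p ≠ 2 := fun h => h2 (h ▸ hpπ)
    obtain ⟨T', hTc', hT'⟩ := cover_conj hM hp hpπ hp2
    obtain ⟨z, hz, hzT⟩ : ∃ z ∈ c.support, z ∉ T' := by
      by_contra h
      push Not at h
      have := Finset.card_le_card (show c.support ⊆ T' from h)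
      omega
    obtain ⟨d, hdM, hd1, hd2, hd3⟩ := hT' z hzT
    obtain ⟨x0, hx0, hx0'⟩ : ∃ z ∈ c.support, z ∉ d.support := by
      by_contra h
      push Not at h
      have := Finset.card_le_card (show c.support ⊆ d.support from h)
      omega
    exact odd_false (fun h => h2 (hM.1 2 Nat.prime_two h)) hcM hc1 (by rw [hc2]; exact hq)
      (TV.cycle hdM hd1) hd3 hz hx0 hx0' (by rw [hd2]; exact hp.two_le)
  refine ⟨h2, ?_⟩
  by_contra h3
  have hq3 : q ≠ 3 := fun h => h3 (h ▸ hqπ)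
  have hq5 : 5 ≤ q := by
    have := hp.two_le
    by_contra h
    have h4 : q = 4 := by omega
    rw [h4] at hq
    exact absurd hq (by norm_num)
  obtain ⟨T', hTc', hT'⟩ := cover_conj2 hM h2
  exact no3_false (fun h => h3 (hM.1 3 Nat.prime_three h)) hcM hc1 (by rw [hc2]; exact hq)
    (by rw [hc2]; exact hq5) hTc' hT'

end H36.HS
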