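import Cfsg.Agent.Lib.H36.HSd

set_option autoImplicit false

namespace H36.HS

open Subgroup Equiv Equiv.Perm

universe u v

variable {α : Type u} [Fintype α] [DecidableEq α]

/-- the `3`-cycle on `x, y, z` lies in `M` -/
def R (M : Subgroup (Perm α)) (x y z : α) : Prop :=
  x ≠ y ∧ y ≠ z ∧ x ≠ z ∧ swap x y * swap y z ∈ M

theorem R.rot {M : Subgroup (Perm α)} {x y z : α} (h : R M x y z) : R M z x y := by
  obtain ⟨h1, h2, h3, h4⟩ := h
  refine ⟨h3.symm, h1, h2.symm, ?_⟩
  rw [mul_swap_eq_swap_mul, swap_apply_right, swap_apply_of_ne_of_ne h3.symm h2.symm,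
    swap_comm x z] at h4
  exact h4

theorem R.rev {M : Subgroup (Perm α)} {x y z : α} (h : R M x y z) : R M z y x := by
  obtain ⟨h1, h2, h3, h4⟩ := h
  refine ⟨h2.symm, h1.symm, h3.symm, ?_⟩
  have := M.inv_mem h4
  rw [mul_inv_rev, swap_inv, swap_inv] at this
  rw [swap_comm z y, swap_comm y x]
  exact this

theorem R.s12 {M : Subgroup (Perm α)} {x y z : α} (h : R M x y z) : R M y x z := h.rev.rot.rot

theorem R.s23 {M : Subgroup (Perm α)} {x y z : α} (h : R M x y z) : R M x z y := h.rev.rot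

theorem R.map {M : Subgroup (Perm α)} {x y z : α} (h : R M x y z) {g : Perm α} (hg : g ∈ M) :
    R M (g x) (g y) (g z) := by
  obtain ⟨h1, h2, h3, h4⟩ := h
  refine ⟨g.injective.ne h1, g.injective.ne h2, g.injective.ne h3, ?_⟩
  rw [swap_apply_apply, swap_apply_apply]
  have : g * swap x y * g⁻¹ * (g * swap y z * g⁻¹) = g * (swap x y * swap y z) * g⁻¹ := by group
  rw [this]
  exact M.mul_mem (M.mul_mem hg h4) (M.inv_mem hg)

/-- apply the cycle `x → y → z → x` -/
theorem R.cyc {M : Subgroup (Perm α)} {x y z : α} (h : R M x y z) :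
    ∃ g ∈ M, g x = y ∧ g y = z ∧ g z = x ∧ ∀ w, w ≠ x → w ≠ y → w ≠ z → g w = w := by
  obtain ⟨h1, h2, h3, h4⟩ := h
  refine ⟨_, h4, ?_, ?_, ?_, ?_⟩
  · rw [Perm.mul_apply, swap_apply_of_ne_of_ne h1 h3, swap_apply_left]
  · rw [Perm.mul_apply, swap_apply_left, swap_apply_of_ne_of_ne h3.symm h2.symm]
  · rw [Perm.mul_apply, swap_apply_right, swap_apply_right]
  · intro w hx hy hz
    rw [Perm.mul_apply, swap_apply_of_ne_of_ne hy hz, swap_apply_of_ne_of_ne hx hy]

/-- the class relation -/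
def rl (M : Subgroup (Perm α)) (x y : α) : Prop := x = y ∨ ∃ z, R M x y z

theorem rl.symm {M : Subgroup (Perm α)} {x y : α} (h : rl M x y) : rl M y x := by
  rcases h with h | ⟨z, h⟩
  · exact Or.inl h.symm
  · exact Or.inr ⟨z, h.s12⟩

theorem rl.trans {M : Subgroup (Perm α)} {x y w : α} (h : rl M x y) (h' : rl M y w) :
    rl M x w := by
  rcases h with rfl | ⟨z, h⟩
  · exact h'
  · rcases h' with rfl | ⟨u, h'⟩
    · exact Or.inr ⟨z, h⟩
    · by_cases hxw : x = w
      · exact Or.inl hxw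
      · by_cases hxu : x = u
        · subst hxu
          exact Or.inr ⟨y, h'.rot.s23⟩
        · obtain ⟨g, hg, h1, -, -, h2⟩ := h'.cyc
          have h3 := h.map hg
          rw [h1, h2 x h.1 hxw hxu] at h3
          exact Or.inr ⟨_, h3⟩

theorem rl.all {M : Subgroup (Perm α)} {x y z : α} (hxy : rl M x y) (hyz : rl M y z)
    (h1 : x ≠ y) (h2 : y ≠ z) (h3 : x ≠ z) : R M x y z := by
  rcases hxy with h | ⟨u, hu⟩
  · exact absurd h h1
  · by_cases huz : u = z
    · rw [← huz]; exact hu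
    · have huy : rl M u y := Or.inr ⟨x, hu.rev⟩
      have hzu : rl M u z := huy.trans hyz
      rcases hzu with h | ⟨v, hv⟩
      · exact absurd h huz
      · by_cases hvx : v = x
        · subst hvx
          obtain ⟨g, hg, e1, e2, e3, e4⟩ := hv.s12.cyc
          have h5 := hu.map hg
          rw [e3, e4 y h2 hu.2.1 h1.symm, e2] at h5
          exact h5.rev
        · by_cases hvy : v = y
          · subst hvy
            obtain ⟨g, hg, e1, e2, e3, e4⟩ := hv.s12.cyc
            have h5 := hu.map hg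
            rw [e3, e4 x h3 hu.2.2.1 h1, e2] at h5
            exact h5.s23
          · obtain ⟨g, hg, e1, e2, e3, e4⟩ := hv.cyc
            have h5 := hu.map hg
            rw [e1, e4 x hu.2.2.1 h3 (Ne.symm hvx), e4 y hu.2.1 h2 (Ne.symm hvy)] at h5
            exact h5

theorem rl.map {M : Subgroup (Perm α)} {x y : α} (h : rl M x y) {g : Perm α} (hg : g ∈ M) :
    rl M (g x) (g y) := by
  rcases h with h | ⟨z, h⟩
  · exact Or.inl (by rw [h])
  · exact Or.inr ⟨_, h.map hg⟩

theorem rl.map_iff {M : Subgroup (Perm α)} {x y : α} {g : Perm α} (hg : g ∈ M) :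
    rl M (g x) (g y) ↔ rl M x y := by
  refine ⟨fun h => ?_, fun h => h.map hg⟩
  have := h.map (M.inv_mem hg)
  simpa using this

theorem alt_le {M : Subgroup (Perm α)} {C : Finset α}
    (h : ∀ x ∈ C, ∀ y ∈ C, ∀ z ∈ C, x ≠ y → y ≠ z → x ≠ z → R M x y z) :
    (alternatingGroup {x // x ∈ C}).map (ofSubtype : Perm {x // x ∈ C} →* Perm α) ≤ M := by
  rw [map_le_iff_le_comap, ← closure_three_cycles_eq_alternating, closure_le]
  intro σ hσ
  obtain ⟨a, ha⟩ : ∃ a, a ∈ σ.support := by
    have h1 : σ.support.card = 3 := IsThreeCycle.card_support hσ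
    have h2 : σ.support.Nonempty := by rw [← Finset.card_pos]; omega
    exact h2
  have h2 := (IsThreeCycle.eq_swap_mul_swap_iff_mem_support hσ).2 ha
  have h3 : orderOf σ = 3 := IsThreeCycle.orderOf hσ
  have hab : a ≠ σ a := fun h => mem_support.1 ha h.symm
  have hbc : σ a ≠ σ (σ a) := fun h => hab (σ.injective h)
  have hac : a ≠ σ (σ a) := by
    intro h
    apply hab
    have h5 : (σ ^ 3) a = a := by rw [← h3, pow_orderOf_eq_one]; rfl
    have h6 : (σ ^ 3) a = σ (σ (σ a)) := rfl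
    rw [h6, ← h] at h5
    exact h5.symm
  show ofSubtype σ ∈ M
  rw [h2, map_mul, ofSubtype_swap_eq, ofSubtype_swap_eq]
  exact (h a a.2 _ (σ a).2 _ (σ (σ a)).2 (fun e => hab (Subtype.ext e))
    (fun e => hbc (Subtype.ext e)) (fun e => hac (Subtype.ext e))).2.2.2

theorem mem_of_alt {M : Subgroup (Perm α)} {C : Finset α}
    (h : ∀ x ∈ C, ∀ y ∈ C, ∀ z ∈ C, x ≠ y → y ≠ z → x ≠ z → R M x y z) {g : Perm α}
    (hg : ∀ x, x ∉ C → g x = x) (hs : sign g = 1) : g ∈ M := by
  obtain ⟨g', rfl, hg'⟩ := off_sub hg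
  exact alt_le h ⟨g', by rw [SetLike.mem_coe, mem_alternatingGroup, hg', hs], rfl⟩

theorem alt_dvd {M : Subgroup (Perm α)} {C : Finset α}
    (h : ∀ x ∈ C, ∀ y ∈ C, ∀ z ∈ C, x ≠ y → y ≠ z → x ≠ z → R M x y z) (h2 : 2 ≤ C.card) :
    C.card.factorial ∣ 2 * Nat.card M := by
  have h1 := card_alt (α := {x // x ∈ C}) (by rwa [Fintype.card_coe])
  rw [Fintype.card_coe] at h1
  rw [h1]
  refine mul_dvd_mul_left 2 ?_
  rw [← card_map_of_injective (ofSubtype_injective (p := fun x => x ∈ C))]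
  exact card_dvd_of_le (alt_le h)

section WS

variable {ι : Type v}

/-- permutations preserving the fibres of `f` -/
def WSf (f : α → ι) : Subgroup (Perm α) where
  carrier := {g | ∀ x y, f (g x) = f (g y) ↔ f x = f y}
  one_mem' := fun x y => by simp
  mul_mem' := by
    intro a b ha hb x y
    simp only [Perm.mul_apply]
    rw [ha, hb]
  inv_mem' := by
    intro a ha x y
    have e : ∀ x, a (a⁻¹ x) = x := fun x => by simp
    have := ha (a⁻¹ x) (a⁻¹ y)
    rw [e, e] at this
    exact this.symm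

theorem mem_WSf {f : α → ι} {g : Perm α} : g ∈ WSf f ↔ ∀ x y, f (g x) = f (g y) ↔ f x = f y :=
  Iff.rfl

/-- the action on the fibres, as an endomorphism -/
noncomputable def wsHom (f : α → ι) (hf : Function.Surjective f) : WSf f →* Function.End ι where
  toFun g := fun i => f (g.1 (Function.surjInv hf i))
  map_one' := by
    funext i
    show f ((1 : Perm α) (Function.surjInv hf i)) = i
    rw [Perm.one_apply, Function.surjInv_eq hf]
  map_mul' := by
    intro g h
    funext i
    show f (g.1 (h.1 (Function.surjInv hf i))) =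
      f (g.1 (Function.surjInv hf (f (h.1 (Function.surjInv hf i)))))
    rw [g.2, Function.surjInv_eq hf]

theorem wsHom_apply (f : α → ι) (hf : Function.Surjective f) (g : WSf f) (x : α) :
    (wsHom f hf g : ι → ι) (f x) = f (g.1 x) := by
  show f (g.1 (Function.surjInv hf (f x))) = f (g.1 x)
  rw [g.2, Function.surjInv_eq hf]

theorem card_WSf [Fintype ι] [DecidableEq ι] (f : α → ι) (hf : Function.Surjective f) :
    Nat.card (WSf f) ∣ (Fintype.card ι).factorial *
      ∏ i, (Fintype.card {a // f a = i}).factorial := by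
  set φ : WSf f →* Perm ι := (wsHom f hf).toHomPerm with hφ
  have h1 : Nat.card (WSf f) = Nat.card φ.ker * Nat.card φ.range := by
    rw [← index_ker, card_mul_index]
  have h2 : Nat.card φ.range ∣ (Fintype.card ι).factorial := by
    have := card_subgroup_dvd_card φ.range
    rwa [Nat.card_eq_fintype_card (α := Perm ι), Fintype.card_perm] at this
  have h3 : Nat.card φ.ker = ∏ i, (Fintype.card {a // f a = i}).factorial := by
    rw [← DomMulAct.stabilizer_card f, ← Nat.card_eq_fintype_card]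
    have hmem : ∀ g : {g : Perm α // f ∘ g = f}, g.1 ∈ WSf f := by
      intro g x y
      have h4 : ∀ x, f (g.1 x) = f x := fun x => congrFun g.2 x
      rw [h4, h4]
    refine Nat.card_congr ⟨fun g => ⟨g.1.1, ?_⟩, fun g => ⟨⟨g.1, hmem g⟩, ?_⟩, fun g => rfl, fun g => rfl⟩
    · funext x
      have h4 : φ g.1 = 1 := g.2
      have h5 : (φ g.1 : Perm ι) (f x) = f (g.1.1 x) := wsHom_apply f hf g.1 x
      rw [h4] at h5
      exact h5.symm
    · rw [MonoidHom.mem_ker]
      ext i
      obtain ⟨x, rfl⟩ := hf i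
      have h5 : (φ ⟨g.1, hmem g⟩ : Perm ι) (f x) = f (g.1 x) := wsHom_apply f hf ⟨g.1, hmem g⟩ x
      rw [h5]
      exact congrFun g.2 x
  rw [h1, h3, mul_comm]
  exact mul_dvd_mul_right h2 _

theorem prime_dvd_WSf [Fintype ι] [DecidableEq ι] {f : α → ι} (hf : Function.Surjective f) {p : ℕ}
    (hp : p.Prime) (hd : p ∣ Nat.card (WSf f)) :
    p ≤ Fintype.card ι ∨ ∃ i, p ≤ Fintype.card {a // f a = i} := by
  have h1 := hd.trans (card_WSf f hf)
  rcases (Nat.Prime.dvd_mul hp).1 h1 with h | h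
  · exact Or.inl ((Nat.Prime.dvd_factorial hp).1 h)
  · obtain ⟨i, -, hi⟩ := (Prime.dvd_finset_prod_iff hp.prime _).1 h
    exact Or.inr ⟨i, (Nat.Prime.dvd_factorial hp).1 hi⟩

end WS

theorem PS_eq_WSf (S : Finset α) : PS S = WSf (fun x : α => decide (x ∈ S)) := by
  ext g
  rw [mem_PS, mem_WSf]
  simp only [decide_eq_decide]

end H36.HS
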