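import Mathlib

set_option autoImplicit false

namespace H36.HS

open Nat

/-- no carries -/
theorem nc {p N r : ℕ} (hp : p.Prime) (h : ¬ p ∣ (N + r).choose r) {i : ℕ} (hi : 1 ≤ i) :
    r % p ^ i + N % p ^ i < p ^ i := by
  haveI : Fact p.Prime := ⟨hp⟩
  have hv : padicValNat p ((N + r).choose r) = 0 := padicValNat.eq_zero_of_not_dvd h
  rw [padicValNat_choose' (b := max (log p (N + r)) i + 1) (by omega)] at hv
  rw [Finset.card_eq_zero, Finset.filter_eq_empty_iff] at hv
  have := hv (x := i) (by simp; omega)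
  omega

theorem dvd_of_pow {a b : ℕ} (h : ∀ p i : ℕ, p.Prime → 1 ≤ i → p ^ i ∣ a → p ^ i ∣ b) : a ∣ b := by
  rw [Nat.dvd_iff_prime_pow_dvd_dvd]
  intro p k hp hk
  rcases Nat.eq_zero_or_pos k with rfl | hk0
  · simp
  · exact h p k hp hk0 hk

theorem mod_of_dvd_add {a b q : ℕ} (hb : 1 ≤ b) (hbq : b ≤ q) (h : q ∣ a + b) :
    a % q = q - b := by
  obtain ⟨c, hc⟩ := h
  have hc0 : 1 ≤ c := by
    rcases Nat.eq_zero_or_pos c with rfl | h
    · simp at hc; omega
    · exact h
  have : a = (q - b) + q * (c - 1) := by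
    obtain ⟨d, rfl⟩ : ∃ d, c = d + 1 := ⟨c - 1, by omega⟩
    simp only [Nat.add_sub_cancel]
    have : q * (d + 1) = q * d + q := by ring
    omega
  rw [this, Nat.add_mul_mod_self_left, Nat.mod_eq_of_lt]
  omega

theorem ax1 {x y q : ℕ} (h : x + y < q) (hy : y = q - 1) : x = 0 := by omega
theorem ax1' {x y q : ℕ} (h : x + y < q) (hx : x = q - 1) : y = 0 := by omega
theorem ax2 {x y q : ℕ} (h3 : 3 ≤ q) (h : x + y < q) (hy : y = q - 2) : x < 2 := by omega
theorem ax3 {x y : ℕ} (h : y + x = 0) : x = 0 := by omega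
theorem ax4 {x y : ℕ} (h : y + x = 1) : x < 2 := by omega

theorem poly {l s t : ℤ} (hl : 1 ≤ l) (hs : 1 ≤ s) (ht : 1 ≤ t)
    (h6 : 2 * l * l + l = ((l + 1) * (s + 1) - 1) * ((l + 1) * t - 1)) : s = 1 := by
  have h9 : (l + 1) * (s + 1) * t - (s + 1) - t = 2 * l - 1 := by
    have h10 : (l + 1) * ((l + 1) * (s + 1) * t - (s + 1) - t) = (l + 1) * (2 * l - 1) := by
      linear_combination -h6
    exact mul_left_cancel₀ (by omega) h10
  have ht2 : t = 1 := by
    by_contra hne
    have htz2 : 2 ≤ t := by omega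
    have h1 : (s + 1 - 2) * ((l + 1) * t - 1) ≥ 0 := by
      apply mul_nonneg
      · linarith
      · have : 0 ≤ l * t := by positivity
        linarith [this, show (l + 1) * t = l * t + t by ring]
    have h2 : (l + 1) * (s + 1) * t - (s + 1) - t ≥ 2 * ((l + 1) * t - 1) - t := by
      have : (l + 1) * (s + 1) * t - (s + 1) - t - (2 * ((l + 1) * t - 1) - t)
        = (s + 1 - 2) * ((l + 1) * t - 1) := by ring
      linarith
    have h3 : l * t ≥ l * 2 := mul_le_mul_of_nonneg_left htz2 (by linarith)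
    have h4 : (l + 1) * t = l * t + t := by ring
    linarith
  rw [ht2] at h9
  have h14 : (s - 1) * l = 0 := by linear_combination h9
  rcases mul_eq_zero.1 h14 with h15 | h15
  · linarith
  · omega

theorem nt1 {N r : ℕ} (hr : 1 ≤ r) (hrN : r < N)
    (h : ∀ p : ℕ, p.Prime → p ≤ N → ¬ p ∣ (N + r).choose r) :
    (r = 1 ∧ (N + 1).Prime) ∨ (N = 4 ∧ r = 3) := by
  -- (a) N + 1 is prime
  have hN1 : (N + 1).Prime := by
    by_contra hnp
    have : N + 1 ∣ r := by
      apply dvd_of_pow
      intro p i hp hi hd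
      have hpN : p ≤ N := by
        have h1 : p ∣ N + 1 := (dvd_pow_self p (by omega)).trans hd
        have h2 : p ≤ N + 1 := Nat.le_of_dvd (by omega) h1
        rcases Nat.lt_or_ge p (N + 1) with h3 | h3
        · omega
        · exact absurd (by rwa [show N + 1 = p by omega]) hnp
      have h1 := nc hp (h p hp hpN) hi
      have h2 : 1 ≤ p ^ i := Nat.one_le_pow _ _ hp.pos
      have h3 := mod_of_dvd_add (le_refl 1) h2 hd
      exact Nat.dvd_of_mod_eq_zero (ax1 h1 h3)
    have := Nat.le_of_dvd (by omega) this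
    omega
  rcases Nat.lt_or_ge r 2 with h2 | h2
  · exact Or.inl ⟨by omega, hN1⟩
  right
  have hn : (N + r).Prime := by
    by_contra hnp
    have : N + r ∣ r := by
      apply dvd_of_pow
      intro p i hp hi hd
      have hpN : p ≤ N := by
        have h1 : p ∣ N + r := (dvd_pow_self p (by omega)).trans hd
        obtain ⟨c, hc⟩ := h1
        have : c ≠ 1 := by
          rintro rfl
          exact hnp (by rw [hc, mul_one]; exact hp)
        have : c ≠ 0 := by rintro rfl; omega
        have : p * 2 ≤ p * c := Nat.mul_le_mul_left p (by omega)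
        omega
      have h1 := nc hp (h p hp hpN) hi
      have h4 : (N + r) % p ^ i = 0 := Nat.mod_eq_zero_of_dvd hd
      rw [Nat.add_mod, Nat.mod_eq_of_lt (by rwa [add_comm])] at h4
      exact Nat.dvd_of_mod_eq_zero (ax3 h4)
    have := Nat.le_of_dvd (by omega) this
    omega
  have hNe : N % 2 = 0 := by
    rcases hN1.eq_two_or_odd with h3 | h3 <;> omega
  have hro : r % 2 = 1 := by
    rcases hn.eq_two_or_odd with h3 | h3 <;> omega
  -- r + 1 ∣ N
  have hdN : r + 1 ∣ N := by
    apply dvd_of_pow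
    intro p i hp hi hd
    have hpN : p ≤ N := by
      have h1 : p ∣ r + 1 := (dvd_pow_self p (by omega)).trans hd
      have := Nat.le_of_dvd (by omega) h1
      omega
    have h1 := nc hp (h p hp hpN) hi
    have h2 : 1 ≤ p ^ i := Nat.one_le_pow _ _ hp.pos
    have h3 := mod_of_dvd_add (le_refl 1) h2 hd
    exact Nat.dvd_of_mod_eq_zero (ax1' h1 h3)
  obtain ⟨s, hs⟩ := hdN
  obtain ⟨k, hk⟩ : ∃ k, r + 1 = 2 * k := ⟨(r + 1) / 2, by omega⟩
  have hk2 : 2 ≤ k := by omega
  have hs1 : 1 ≤ s := by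
    rcases Nat.eq_zero_or_pos s with rfl | h3
    · simp at hs; omega
    · exact h3
  have hpow2 : ∀ p i : ℕ, p.Prime → 1 ≤ i → p ^ i ≠ 2 → 3 ≤ p ^ i := by
    intro p i hp hi hne
    have : 2 ^ 1 ≤ p ^ i := (Nat.pow_le_pow_left hp.two_le 1).trans
      (Nat.pow_le_pow_right hp.pos hi)
    omega
  have hrr : ∀ q : ℕ, r % q < 2 → q ∣ r * (r - 1) := by
    intro q hq
    rcases Nat.lt_or_ge (r % q) 1 with h3 | h3
    · exact Dvd.dvd.mul_right (Nat.dvd_of_mod_eq_zero (by omega)) _
    · refine Dvd.dvd.mul_left ?_ _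
      have h5 : r % q = 1 := by omega
      have := Nat.dvd_sub_mod (n := q) r
      rwa [h5] at this
  -- N + 2 ∣ r (r - 1)
  have hd2 : N + 2 ∣ r * (r - 1) := by
    apply dvd_of_pow
    intro p i hp hi hd
    have hpN : p ≤ N := by
      have h1 : p ∣ N + 2 := (dvd_pow_self p (by omega)).trans hd
      obtain ⟨c, hc⟩ := h1
      have h3 : c ≠ 0 := by rintro rfl; omega
      have h4 : c ≠ 1 := by
        rintro rfl
        rw [mul_one] at hc
        rcases hp.eq_two_or_odd with h5 | h5 <;> omega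
      have : p * 2 ≤ p * c := Nat.mul_le_mul_left p (by omega)
      omega
    rcases eq_or_ne (p ^ i) 2 with h3 | h3
    · rw [h3]
      refine Dvd.dvd.mul_left ?_ _
      omega
    · have h4 := hpow2 p i hp hi h3
      have h1 := nc hp (h p hp hpN) hi
      have h5 := mod_of_dvd_add (by omega : 1 ≤ 2) (by omega) hd
      exact hrr _ (ax2 h4 h1 h5)
  have hd3 : N + r - 1 ∣ r * (r - 1) := by
    apply dvd_of_pow
    intro p i hp hi hd
    have hpN : p ≤ N := by
      have h1 : p ∣ N + r - 1 := (dvd_pow_self p (by omega)).trans hd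
      obtain ⟨c, hc⟩ := h1
      have h3 : c ≠ 0 := by rintro rfl; omega
      have h4 : c ≠ 1 := by
        rintro rfl
        rw [mul_one] at hc
        rcases hp.eq_two_or_odd with h5 | h5 <;> omega
      have : p * 2 ≤ p * c := Nat.mul_le_mul_left p (by omega)
      omega
    have h1 := nc hp (h p hp hpN) hi
    have h4 : 2 ≤ p ^ i := by
      calc 2 = 2 ^ 1 := rfl
        _ ≤ p ^ 1 := Nat.pow_le_pow_left hp.two_le 1
        _ ≤ p ^ i := Nat.pow_le_pow_right hp.pos hi
    have h5 : (N + r) % p ^ i = 1 := by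
      obtain ⟨c, hc⟩ := hd
      rw [show N + r = 1 + p ^ i * c by omega, Nat.add_mul_mod_self_left,
        Nat.mod_eq_of_lt (by omega)]
    rw [Nat.add_mod, Nat.mod_eq_of_lt (by rwa [add_comm])] at h5
    exact hrr _ (ax4 h5)
  -- translate
  have hr' : r = 2 * k - 1 := by omega
  have hNk : N = 2 * k * s := by rw [hs, hk]
  have e1 : k * s + 1 ∣ (2 * k - 1) * (k - 1) := by
    have h3 : 2 * (k * s + 1) ∣ 2 * ((2 * k - 1) * (k - 1)) := by
      have h4 : N + 2 = 2 * (k * s + 1) := by rw [hNk]; ring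
      have h5 : r * (r - 1) = 2 * ((2 * k - 1) * (k - 1)) := by
        rw [hr', show 2 * k - 1 - 1 = 2 * (k - 1) by omega]; ring
      rw [← h4, ← h5]; exact hd2
    exact Nat.dvd_of_mul_dvd_mul_left (by norm_num) h3
  have e2 : k * (s + 1) - 1 ∣ (2 * k - 1) * (k - 1) := by
    have h3 : 2 * (k * (s + 1) - 1) ∣ 2 * ((2 * k - 1) * (k - 1)) := by
      have h4 : N + r - 1 = 2 * (k * (s + 1) - 1) := by
        rw [hNk]
        have : 2 * k * s = 2 * (k * s) := by ring
        have h7 : k * (s + 1) = k * s + k := by ring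
        omega
      have h5 : r * (r - 1) = 2 * ((2 * k - 1) * (k - 1)) := by
        rw [hr', show 2 * k - 1 - 1 = 2 * (k - 1) by omega]; ring
      rw [← h4, ← h5]; exact hd3
    exact Nat.dvd_of_mul_dvd_mul_left (by norm_num) h3
  -- s = 1
  have hs' : s = 1 := by
    obtain ⟨B, hB⟩ := e2
    obtain ⟨l, rfl⟩ : ∃ l, k = l + 1 := ⟨k - 1, by omega⟩
    have h3 : (2 * (l + 1) - 1) * (l + 1 - 1) = 2 * l * l + l := by
      rw [show 2 * (l + 1) - 1 = 2 * l + 1 by omega, Nat.add_sub_cancel]; ring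
    rw [h3] at hB
    -- (l+1) ∣ B + 1
    have h4 : (l + 1) ∣ B + 1 := by
      have h5 : ((l : ℤ) + 1) ∣ (B : ℤ) + 1 := by
        have h6 : (2 * l * l + l : ℤ) = ((l + 1) * (s + 1) - 1) * B := by
          have h7 : (((l + 1) * (s + 1) - 1 : ℕ) : ℤ) = (l + 1) * (s + 1) - 1 := by
            rw [Nat.cast_sub]
            · push_cast; ring
            · nlinarith
          rw [← h7]; exact_mod_cast hB
        refine ⟨(s + 1) * B - (2 * l - 1), ?_⟩
        linear_combination h6
      exact_mod_cast h5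
    obtain ⟨t, ht⟩ := h4
    have ht1 : 1 ≤ t := by
      rcases Nat.eq_zero_or_pos t with rfl | h5
      · simp at ht
      · exact h5
    have hl : 1 ≤ l := by omega
    -- over ℤ
    have h6 : (2 * l * l + l : ℤ) = ((l + 1) * (s + 1) - 1) * ((l + 1) * t - 1) := by
      have h7 : (((l + 1) * (s + 1) - 1 : ℕ) : ℤ) = (l + 1) * (s + 1) - 1 := by
        rw [Nat.cast_sub]
        · push_cast; ring
        · nlinarith
      have h8 : (B : ℤ) = (l + 1) * t - 1 := by
        have : ((B + 1 : ℕ) : ℤ) = ((l + 1) * t : ℕ) := by rw [ht]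
        push_cast at this; linarith
      rw [← h7, ← h8]; exact_mod_cast hB
    have hlz : (1 : ℤ) ≤ l := by exact_mod_cast hl
    have hsz : (1 : ℤ) ≤ s := by exact_mod_cast hs1
    have htz : (1 : ℤ) ≤ t := by exact_mod_cast ht1
    have := poly hlz hsz htz h6
    exact_mod_cast this
  subst hs'
  -- k + 1 ∣ 6
  have h6 : k + 1 ∣ 6 := by
    rw [mul_one] at e1
    have : ((k : ℤ) + 1) ∣ 6 := by
      have h3 : ((k : ℤ) + 1) ∣ (2 * k - 1) * (k - 1) := by
        have h4 : (((2 * k - 1) * (k - 1) : ℕ) : ℤ) = (2 * k - 1) * (k - 1) := by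
          rw [Nat.cast_mul, Nat.cast_sub (by omega), Nat.cast_sub (by omega)]
          push_cast; ring
        rw [← h4]; exact_mod_cast e1
      obtain ⟨c, hc⟩ := h3
      exact ⟨c - (2 * k - 5), by linear_combination hc⟩
    exact_mod_cast this
  have hk6 : k + 1 ≤ 6 := Nat.le_of_dvd (by norm_num) h6
  have hk7 : k = 2 ∨ k = 5 := by
    have : k ≤ 5 := by omega
    interval_cases k <;> simp_all <;> omega
  rcases hk7 with rfl | rfl
  · omega
  · exfalso
    have hN : N = 10 := by omega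
    have hr9 : r = 9 := by omega
    subst hN; subst hr9
    have := nc Nat.prime_two (h 2 Nat.prime_two (by norm_num)) (i := 4) (by norm_num)
    norm_num at this

end H36.HS
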