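import Cfsg.Agent.Lib.H36.HSnt

set_option autoImplicit false

namespace H36.HS

open Nat

/-- digit sum -/
def ds (p n : ℕ) : ℕ := (p.digits n).sum

theorem ds_le (p n : ℕ) : ds p n ≤ n := Nat.digit_sum_le p n

theorem leg {p : ℕ} (hp : p.Prime) (n : ℕ) : (p - 1) * padicValNat p n ! + ds p n = n := by
  haveI : Fact p.Prime := ⟨hp⟩
  have := sub_one_mul_padicValNat_factorial (p := p) n
  have h2 := ds_le p n
  unfold ds at *
  omega

theorem ds_add {p : ℕ} (hp : p.Prime) (a b : ℕ) : ds p (a + b) ≤ ds p a + ds p b := by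
  haveI : Fact p.Prime := ⟨hp⟩
  have h1 := leg hp a
  have h2 := leg hp b
  have h3 := leg hp (a + b)
  have h4 : padicValNat p a ! + padicValNat p b ! ≤ padicValNat p (a + b) ! := by
    rw [← padicValNat.mul (Nat.factorial_ne_zero _) (Nat.factorial_ne_zero _)]
    exact padicValNat_dvd_iff_le (Nat.factorial_ne_zero _) |>.1
      ((pow_padicValNat_dvd).trans (Nat.factorial_mul_factorial_dvd_factorial_add a b))
  have h5 := Nat.mul_le_mul_left (p - 1) h4
  rw [Nat.mul_add] at h5
  omega

theorem ds_step {p : ℕ} (hp : p.Prime) {n : ℕ} (hn : 0 < n) : ds p n = n % p + ds p (n / p) := by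
  unfold ds
  rw [Nat.digits_def' hp.one_lt hn]
  simp

theorem ds_zero (p : ℕ) : ds p 0 = 0 := by simp [ds]

theorem ds_pmul {p : ℕ} (hp : p.Prime) (n : ℕ) : ds p (p * n) = ds p n := by
  rcases Nat.eq_zero_or_pos n with rfl | h
  · simp
  · rw [ds_step hp (Nat.mul_pos hp.pos h), Nat.mul_mod_right, Nat.mul_div_cancel_left _ hp.pos,
      zero_add]

theorem ds_smul {p : ℕ} (hp : p.Prime) (d k : ℕ) : ds p (d * k) ≤ d * ds p k := by
  induction d with
  | zero => simp [ds_zero]
  | succ d ih =>
    rw [Nat.succ_mul, Nat.succ_mul]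
    exact (ds_add hp _ _).trans (Nat.add_le_add_right ih _)

theorem ds_mul {p : ℕ} (hp : p.Prime) (m k : ℕ) : ds p (m * k) ≤ ds p m * ds p k := by
  induction m using Nat.strong_induction_on with
  | _ m ih =>
    rcases Nat.eq_zero_or_pos m with rfl | h
    · simp [ds_zero]
    · have h1 : m / p < m := Nat.div_lt_self h hp.one_lt
      have h2 := ih _ h1
      have h3 : m * k = p * (m / p * k) + m % p * k := by
        conv_lhs => rw [← Nat.div_add_mod m p]
        ring
      rw [h3, ds_step hp h]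
      refine (ds_add hp _ _).trans ?_
      rw [ds_pmul hp]
      have h4 := ds_smul hp (m % p) k
      calc ds p (m / p * k) + ds p (m % p * k) ≤ ds p (m / p) * ds p k + m % p * ds p k :=
            Nat.add_le_add h2 h4
        _ = (m % p + ds p (m / p)) * ds p k := by ring

theorem ds_eq {p : ℕ} (hp : p.Prime) {m : ℕ} (h : ds p m = m) : m < p := by
  by_contra hc
  push Not at hc
  have hm : 0 < m := lt_of_lt_of_le hp.pos hc
  rw [ds_step hp hm] at h
  have h1 := ds_le p (m / p)
  have h2 := Nat.div_add_mod m p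
  have h3 : 1 ≤ m / p := (Nat.one_le_div_iff hp.pos).2 hc
  have h4 : 2 * (m / p) ≤ p * (m / p) := Nat.mul_le_mul_right _ hp.two_le
  omega

theorem ds_one {p : ℕ} (hp : p.Prime) {k : ℕ} (h : ds p k = 1) : ∃ a, k = p ^ a := by
  induction k using Nat.strong_induction_on with
  | _ k ih =>
    rcases Nat.eq_zero_or_pos k with rfl | hk
    · simp [ds_zero] at h
    · rw [ds_step hp hk] at h
      have h2 := Nat.div_add_mod k p
      rcases Nat.eq_zero_or_pos (k % p) with h0 | h0
      · rw [h0, zero_add] at h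
        obtain ⟨a, ha⟩ := ih _ (Nat.div_lt_self hk hp.one_lt) h
        refine ⟨a + 1, ?_⟩
        rw [h0, ha] at h2
        rw [pow_succ']; omega
      · have h3 : ds p (k / p) = 0 := by omega
        have h4 : k / p = 0 := by
          by_contra h5
          have h6 := leg hp (k / p)
          rw [h3, add_zero] at h6
          have h7 : padicValNat p (k / p)! ≠ 0 := by
            rintro h8; rw [h8, mul_zero] at h6; omega
          haveI : Fact p.Prime := ⟨hp⟩
          have h8 := sub_one_mul_padicValNat_factorial_lt_of_ne_zero (p := p) h5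
          omega
        refine ⟨0, ?_⟩
        rw [h4] at h2
        simp at h2
        simp; omega

theorem key {p m k : ℕ} (hp : p.Prime)
    (h : padicValNat p (m * k)! ≤ padicValNat p m ! + m * padicValNat p k !) :
    ds p k ≤ 1 ∨ m < p := by
  have h1 := leg hp (m * k)
  have h2 := leg hp m
  have h3 := leg hp k
  have h4 := Nat.mul_le_mul_left (p - 1) h
  rw [Nat.mul_add] at h4
  have h5 : m * ((p - 1) * padicValNat p k ! + ds p k) = m * k := by rw [h3]
  have h6 : (p - 1) * (m * padicValNat p k !) + m * ds p k = m * k := by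
    rw [← h5]; ring
  have h7 := ds_mul hp m k
  -- m * ds k + ds m ≤ ds m * ds k + m
  have h8 : m * ds p k + ds p m ≤ ds p m * ds p k + m := by omega
  by_contra hc
  push Not at hc
  obtain ⟨hc1, hc2⟩ := hc
  have h9 : ds p m < m := by
    rcases lt_or_eq_of_le (ds_le p m) with h | h
    · exact h
    · have := ds_eq hp h; omega
  obtain ⟨t, ht⟩ : ∃ t, ds p k = t + 2 := ⟨ds p k - 2, by omega⟩
  obtain ⟨u, hu⟩ : ∃ u, m = ds p m + u + 1 := ⟨m - ds p m - 1, by omega⟩
  generalize ds p m = x at *
  rw [ht, hu] at h8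
  nlinarith

theorem pow3 {c : ℕ} (hc : 4 ≤ c) (j : ℕ) : 2 ^ c + 1 ≠ 3 ^ j := by
  intro h
  have h8 : 3 ^ j % 16 = 1 := by
    rw [← h]
    obtain ⟨d, rfl⟩ : ∃ d, c = 4 + d := ⟨c - 4, by omega⟩
    rw [pow_add]; omega
  have hj : j % 4 = 0 := by
    have h1 : 3 ^ j % 16 = 3 ^ (j % 4) % 16 := by
      conv_lhs => rw [← Nat.div_add_mod j 4, pow_add, pow_mul, Nat.mul_mod, Nat.pow_mod]
      norm_num
    have h2 : ∀ x < 4, 3 ^ x % 16 = 1 → x = 0 := by decide
    exact h2 _ (Nat.mod_lt _ (by norm_num)) (by rw [← h1]; exact h8)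
  obtain ⟨i, rfl⟩ : ∃ i, j = 4 * i := ⟨j / 4, by omega⟩
  have h5 : 3 ^ (4 * i) % 5 = 1 := by
    rw [pow_mul, Nat.pow_mod]; norm_num
  rw [← h] at h5
  have h6 : 5 ∣ 2 ^ c := by omega
  have := Nat.Prime.dvd_of_dvd_pow (by norm_num) h6
  omega

theorem nt2 {m k : ℕ} (hm : 2 ≤ m) (hk : 3 ≤ k)
    (h : ∀ p : ℕ, p.Prime → p ≤ k →
      padicValNat p (m * k)! ≤ padicValNat p m ! + m * padicValNat p k !) : m = 2 ∧ k = 4 := by
  have hk0 : ∀ p : ℕ, p.Prime → ds p k ≤ 1 → ∃ a, k = p ^ a := by
    intro p hp h1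
    refine ds_one hp (le_antisymm h1 ?_)
    by_contra h2
    have h3 : ds p k = 0 := by omega
    have h6 := leg hp k
    haveI : Fact p.Prime := ⟨hp⟩
    have h8 := sub_one_mul_padicValNat_factorial_lt_of_ne_zero (p := p) (n := k) (by omega)
    omega
  obtain ⟨a, ha⟩ : ∃ a, k = 2 ^ a := by
    rcases key Nat.prime_two (h 2 Nat.prime_two (by omega)) with h1 | h1
    · exact hk0 2 Nat.prime_two h1
    · omega
  have hm2 : m = 2 := by
    rcases key Nat.prime_three (h 3 Nat.prime_three (by omega)) with h1 | h1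
    · exfalso
      obtain ⟨b, hb⟩ := hk0 3 Nat.prime_three h1
      have ha0 : a ≠ 0 := by rintro rfl; simp at ha; omega
      have h2 : 2 ∣ 3 ^ b := by rw [← hb, ha]; exact dvd_pow_self 2 ha0
      have := Nat.Prime.dvd_of_dvd_pow Nat.prime_two h2
      omega
    · omega
  refine ⟨hm2, ?_⟩
  subst hm2
  -- no carries for odd primes
  have hnc : ∀ p : ℕ, p.Prime → p ≤ k → p ≠ 2 → ¬ p ∣ (k + k).choose k := by
    intro p hp hpk hp2 hd
    haveI : Fact p.Prime := ⟨hp⟩
    have h1 := h p hp hpk
    have h2 : padicValNat p 2 ! = 0 := by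
      apply padicValNat.eq_zero_of_not_dvd
      rw [hp.dvd_factorial]
      have := hp.two_le
      omega
    rw [h2, zero_add] at h1
    have h3 : (k + k).choose k * k ! * k ! = (k + k)! := by
      have := Nat.choose_mul_factorial_mul_factorial (Nat.le_add_left k k)
      rwa [Nat.add_sub_cancel] at this
    have h4 : padicValNat p (k + k)! =
        padicValNat p ((k + k).choose k) + padicValNat p k ! + padicValNat p k ! := by
      rw [← h3, padicValNat.mul, padicValNat.mul]
      · exact (Nat.choose_pos (Nat.le_add_left k k)).ne'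
      · exact Nat.factorial_ne_zero _
      · exact mul_ne_zero (Nat.choose_pos (Nat.le_add_left k k)).ne' (Nat.factorial_ne_zero _)
      · exact Nat.factorial_ne_zero _
    rw [show 2 * k = k + k by ring, h4] at h1
    have h5 : 1 ≤ padicValNat p ((k + k).choose k) :=
      one_le_padicValNat_of_dvd (Nat.choose_pos (Nat.le_add_left k k)).ne' hd
    omega
  have hmod : ∀ p i : ℕ, p.Prime → p ≤ k → p ≠ 2 → 1 ≤ i → 2 * (k % p ^ i) < p ^ i := by
    intro p i hp hpk hp2 hi
    have := nc hp (hnc p hp hpk hp2) hi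
    omega
  have ha2 : 2 ≤ a := by
    by_contra hc
    have : a = 0 ∨ a = 1 := by omega
    rcases this with rfl | rfl <;> simp at ha <;> omega
  -- a is even
  have hae : a % 2 = 0 := by
    have h1 := hmod 3 1 Nat.prime_three (by omega) (by norm_num) le_rfl
    rw [pow_one] at h1
    by_contra hc
    have h2 : a = 2 * (a / 2) + 1 := by omega
    rw [ha, h2, pow_succ, pow_mul, Nat.mul_mod, Nat.pow_mod] at h1
    norm_num at h1
  rcases Nat.lt_or_ge a 6 with h6 | h6
  · have : a = 2 ∨ a = 4 := by omega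
    rcases this with rfl | rfl
    · simpa using ha
    · exfalso
      have h1 := hmod 3 2 Nat.prime_three (by omega) (by norm_num) (by norm_num)
      rw [ha] at h1
      norm_num at h1
  · exfalso
    obtain ⟨c, rfl⟩ : ∃ c, a = c + 1 := ⟨a - 1, by omega⟩
    -- a prime factor of 2^c + 1 different from 3
    have hex : ∃ r : ℕ, r.Prime ∧ r ∣ 2 ^ c + 1 ∧ r ≠ 3 := by
      by_contra hno
      push Not at hno
      have h1 : 2 ^ c + 1 = 3 ^ (2 ^ c + 1).primeFactorsList.length := by
        apply Nat.eq_prime_pow_of_unique_prime_dvd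
        · positivity
        · intro d hd hdd
          exact hno d hd hdd
      exact pow3 (by omega) _ h1
    obtain ⟨r, hr, hrd, hr3⟩ := hex
    have hpc : 1 ≤ 2 ^ c := Nat.one_le_two_pow
    have hk2 : k = 2 * 2 ^ c := by rw [ha, pow_succ']
    have hr2 : r ≠ 2 := by
      rintro rfl
      have : 2 ∣ 2 ^ c := dvd_pow_self 2 (by omega)
      omega
    have hrk : r ≤ k := by
      have := Nat.le_of_dvd (by omega) hrd
      omega
    have h1 := hmod r 1 hr hrk hr2 le_rfl
    rw [pow_one] at h1
    have hr1 := hr.two_le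
    have h2 : r ∣ k + 2 := by
      have : k + 2 = 2 * (2 ^ c + 1) := by omega
      rw [this]; exact Dvd.dvd.mul_left hrd _
    have h3 := mod_of_dvd_add (by norm_num : 1 ≤ 2) (by omega) h2
    have : r ≠ 4 := by rintro rfl; exact absurd hr (by norm_num)
    omega

end H36.HS
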