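import Cfsg.Agent.Lib.H36.HSe
import Cfsg.Agent.Lib.H36.HSnt
import Cfsg.Agent.Lib.H36.HSnt2

set_option autoImplicit false

namespace H36.HS

open Subgroup Equiv Equiv.Perm

universe u v

variable {α : Type u} [Fintype α] [DecidableEq α]

/-- the primes of `π` up to `n` are `2` and `3` -/
def P23 (n : ℕ) (π : Set ℕ) : Prop := ∀ r : ℕ, r.Prime → r ≤ n → (r ∈ π ↔ r = 2 ∨ r = 3)

theorem prime_small {r k : ℕ} (hr : r.Prime) (hk : r ≤ k) (hk4 : k ≤ 4) : r = 2 ∨ r = 3 := by
  have := hr.two_le
  rcases (show r = 2 ∨ r = 3 ∨ r = 4 by omega) with h | h | h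
  · exact Or.inl h
  · exact Or.inr h
  · rw [h] at hr; exact absurd hr (by norm_num)

/-- the `3`-cycle equivalence -/
def rs (M : Subgroup (Perm α)) : Setoid α where
  r := rl M
  iseqv := ⟨fun _ => Or.inl rfl, rl.symm, rl.trans⟩

theorem trans_case {π : Set ℕ} {M : Subgroup (Perm α)} (hMA : M ≤ alternatingGroup α)
    (hM : HallIn π M (alternatingGroup α)) (h2 : 2 ∈ π) (h3 : 3 ∈ π)
    (hr : ∃ r : ℕ, r.Prime ∧ r ≤ Fintype.card α ∧ r ∉ π)
    (htr : ∀ x y : α, ∃ g ∈ M, g x = y) :
    Fintype.card α = 8 ∧ P23 8 π ∧ ∃ Γ : Finset α, Γ.card = 4 ∧ M = PS Γ ⊓ alternatingGroup α := by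
  classical
  obtain ⟨r, hrp, hrn, hrπ⟩ := hr
  have hn5 : 4 ≤ Fintype.card α := by
    by_contra h
    rcases prime_small hrp hrn (by omega) with h1 | h1
    · exact hrπ (h1 ▸ h2)
    · exact hrπ (h1 ▸ h3)
  -- a three-cycle in M
  obtain ⟨T, hTc, hT⟩ := cover_conj hM Nat.prime_three h3 (by norm_num)
  obtain ⟨x0, hx0⟩ : ∃ x, x ∉ T := by
    by_contra h
    push Not at h
    have : T = Finset.univ := Finset.eq_univ_iff_forall.2 h
    rw [this, Finset.card_univ] at hTc
    omega
  obtain ⟨c, hcM, hc1, hc2, -⟩ := hT x0 hx0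
  have hc3 : c.IsThreeCycle := card_support_eq_three_iff.1 hc2
  obtain ⟨a, ha⟩ : ∃ a, a ∈ c.support := by
    have h2 : c.support.Nonempty := by rw [← Finset.card_pos]; omega
    exact h2
  have hceq := (IsThreeCycle.eq_swap_mul_swap_iff_mem_support hc3).2 ha
  have hab : a ≠ c a := fun h => mem_support.1 ha h.symm
  have hbc : c a ≠ c (c a) := fun h => hab (c.injective h)
  have hac : a ≠ c (c a) := by
    intro h
    apply hab
    have h5 : (c ^ 3) a = a := by rw [← hc3.orderOf, pow_orderOf_eq_one]; rfl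
    have h6 : (c ^ 3) a = c (c (c a)) := rfl
    rw [h6, ← h] at h5
    exact h5.symm
  have hR : R M a (c a) (c (c a)) := ⟨hab, hbc, hac, by rw [← hceq]; exact hcM⟩
  -- classes
  let ι := Quotient (rs M)
  letI : DecidableEq ι := Classical.decEq _
  letI : Fintype ι := Fintype.ofFinite ι
  let f : α → ι := fun x => Quotient.mk (rs M) x
  have hfs : Function.Surjective f := Quotient.mk_surjective
  have hf : ∀ x y, f x = f y ↔ rl M x y := fun x y => Quotient.eq
  set k := Fintype.card {x // f x = f a} with hk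
  have hfib : ∀ i, Fintype.card {x // f x = i} = k := by
    intro i
    obtain ⟨y, rfl⟩ := hfs i
    obtain ⟨g, hg, hgy⟩ := htr a y
    rw [hk]
    symm
    refine Fintype.card_congr ⟨fun x => ⟨g x.1, ?_⟩, fun x => ⟨g⁻¹ x.1, ?_⟩, ?_, ?_⟩
    · rw [hf, ← hgy, rl.map_iff hg, ← hf]; exact x.2
    · rw [hf, ← rl.map_iff hg, ← hf, hgy]
      have : g (g⁻¹ x.1) = x.1 := by simp
      rw [this]; exact x.2
    · intro x; simp
    · intro x; simp
  have hCcard : (Finset.univ.filter (fun x => f x = f a)).card = k := by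
    rw [hk, Fintype.card_subtype]
  set C := Finset.univ.filter (fun x => f x = f a) with hC
  have hCR : ∀ x ∈ C, ∀ y ∈ C, ∀ z ∈ C, x ≠ y → y ≠ z → x ≠ z → R M x y z := by
    intro x hx y hy z hz h1 h2 h3
    rw [hC, Finset.mem_filter] at hx hy hz
    exact rl.all ((hf _ _).1 (hx.2.trans hy.2.symm)) ((hf _ _).1 (hy.2.trans hz.2.symm)) h1 h2 h3
  have hk3 : 3 ≤ k := by
    rw [← hCcard]
    have h1 : ({a, c a, c (c a)} : Finset α).card = 3 :=
      Finset.card_eq_three.2 ⟨_, _, _, hab, hac, hbc, rfl⟩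
    rw [← h1]
    refine Finset.card_le_card ?_
    intro x hx
    rw [hC, Finset.mem_filter]
    refine ⟨Finset.mem_univ _, ?_⟩
    rw [hf]
    simp only [Finset.mem_insert, Finset.mem_singleton] at hx
    rcases hx with rfl | rfl | rfl
    · exact Or.inl rfl
    · exact Or.inr ⟨_, hR.s12⟩
    · exact Or.inr ⟨_, hR.rot⟩
  have hkπ : ∀ p : ℕ, p.Prime → p ≤ k → p ∈ π := by
    intro p hp hpk
    by_cases hp2 : p = 2
    · rw [hp2]; exact h2
    · have h4 := alt_dvd hCR (by omega)
      rw [hCcard] at h4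
      have h5 : p ∣ 2 * Nat.card M := ((Nat.Prime.dvd_factorial hp).2 hpk).trans h4
      rcases (Nat.Prime.dvd_mul hp).1 h5 with h6 | h6
      · exact absurd ((Nat.prime_dvd_prime_iff_eq hp Nat.prime_two).1 h6) hp2
      · exact hM.1 p hp h6
  have hnmk : Fintype.card α = Fintype.card ι * k := by
    rw [← Fintype.card_congr (Equiv.sigmaFiberEquiv f), Fintype.card_sigma]
    rw [Finset.sum_congr rfl (fun i _ => hfib i), Finset.sum_const, Finset.card_univ, smul_eq_mul]
  have hm2 : 2 ≤ Fintype.card ι := by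
    rcases Nat.lt_or_ge (Fintype.card ι) 2 with h | h
    · exfalso
      have : Fintype.card ι = 1 := by
        rcases Nat.eq_zero_or_pos (Fintype.card ι) with h0 | h0
        · rw [h0, zero_mul] at hnmk; omega
        · omega
      rw [this, one_mul] at hnmk
      exact hrπ (hkπ r hrp (by omega))
    · exact h
  have hMW : M ≤ WSf f := by
    intro g hg x y
    rw [hf, hf, rl.map_iff hg]
  have hodd : swap a (c a) ∈ WSf f := by
    intro x y
    have h4 : ∀ x, f (swap a (c a) x) = f x := by
      intro x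
      have h5 : f a = f (c a) := by rw [hf]; exact Or.inr ⟨_, hR⟩
      by_cases h6 : x = a
      · rw [h6, swap_apply_left, h5]
      · by_cases h7 : x = c a
        · rw [h7, swap_apply_right, h5]
        · rw [swap_apply_of_ne_of_ne h6 h7]
    rw [h4, h4]
  have hup : ∀ p : ℕ, p.Prime → p ∈ π → ¬ p ∣ (WSf f).index := by
    intro p hp hpπ
    rw [← rel_alt (by omega) hodd (sign_swap hab)]
    exact hM.upper (le_inf hMW hMA) inf_le_right hp hpπ
  have hcardW := card_WSf f hfs
  rw [Finset.prod_congr rfl (fun i _ => by rw [hfib i]), Finset.prod_const, Finset.card_univ]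
    at hcardW
  have hcm := card_mul_index (WSf f)
  rw [Nat.card_eq_fintype_card (α := Perm α), Fintype.card_perm, hnmk] at hcm
  have hmk := nt2 hm2 hk3 (by
    intro p hp hpk
    haveI : Fact p.Prime := ⟨hp⟩
    rw [← hcm, padicValNat.mul Nat.card_pos.ne' index_ne_zero_of_finite,
      padicValNat.eq_zero_of_not_dvd (hup p hp (hkπ p hp hpk)), add_zero]
    have h6 : (Fintype.card ι).factorial * k.factorial ^ Fintype.card ι ≠ 0 :=
      (Nat.mul_pos (Nat.factorial_pos _) (pow_pos (Nat.factorial_pos _) _)).ne'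
    have h7 := (padicValNat_dvd_iff_le (p := p) h6).1
      ((pow_padicValNat_dvd (p := p) (n := Nat.card (WSf f))).trans hcardW)
    rw [padicValNat.mul (Nat.factorial_pos _).ne' (pow_pos (Nat.factorial_pos _) _).ne',
      padicValNat.pow] at h7
    exact h7)
  obtain ⟨hm, hk4⟩ := hmk
  have hsmall : ∀ p : ℕ, p.Prime → p ∣ Nat.card (WSf f) → p = 2 ∨ p = 3 := by
    intro p hp hd
    rcases prime_dvd_WSf hfs hp hd with h | ⟨i, h⟩
    · exact prime_small hp h (by omega)
    · rw [hfib i] at h
      exact prime_small hp h (by omega)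
  have hn8 : Fintype.card α = 8 := by rw [hnmk, hm, hk4]
  refine ⟨hn8, ?_, C, by omega, ?_⟩
  · intro p hp hp8
    constructor
    · intro hpπ
      have h6 : p ∣ Nat.card (WSf f) * (WSf f).index := by
        rw [hcm, ← hnmk, hn8]
        exact (Nat.Prime.dvd_factorial hp).2 hp8
      rcases (Nat.Prime.dvd_mul hp).1 h6 with h7 | h7
      · exact hsmall p hp h7
      · exact absurd h7 (hup p hp hpπ)
    · rintro (h | h)
      · rw [h]; exact h2
      · rw [h]; exact h3
  · have hPS : PS C = WSf f := by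
      ext g
      rw [mem_PS, mem_WSf]
      have h6 : ∀ x y, (x ∈ C ↔ y ∈ C) ↔ f x = f y := by
        intro x y
        rw [hC, Finset.mem_filter, Finset.mem_filter]
        simp only [Finset.mem_univ, true_and]
        have h7 : ∀ i j l : ι, i ≠ j → l ≠ i → l ≠ j → False := by
          intro i j l hij hli hlj
          have : ({l, i, j} : Finset ι).card = 3 :=
            Finset.card_eq_three.2 ⟨_, _, _, hli, hlj, hij, rfl⟩
          have h8 := Finset.card_le_univ ({l, i, j} : Finset ι)
          omega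
        constructor
        · intro h
          by_cases h9 : f x = f a
          · rw [h9, h.1 h9]
          · have h10 : f y ≠ f a := fun e => h9 (h.2 e)
            by_contra h11
            exact h7 (f x) (f y) (f a) h11 (Ne.symm h9) (Ne.symm h10)
        · intro h; rw [h]
      constructor
      · intro h x y
        rw [← h6, ← h6]; exact h x y
      · intro h x y
        rw [h6, h6]; exact h x y
    refine HallIn.eq (hM.mono (le_inf (hPS ▸ hMW) hMA) inf_le_right) (le_inf (hPS ▸ hMW) hMA) ?_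
    intro p hp hd
    have h6 : p ∣ Nat.card (WSf f) := by
      rw [← hPS]; exact hd.trans (card_dvd_of_le inf_le_left)
    rcases hsmall p hp h6 with h | h
    · rw [h]; exact h2
    · rw [h]; exact h3

end H36.HS
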