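import Cfsg.Agent.Lib.H36.HSf

set_option autoImplicit false

namespace H36.HS

open Subgroup Equiv Equiv.Perm

universe u v

/-- conclusion of the classification -/
def Concl {α : Type u} [Fintype α] [DecidableEq α] (n : ℕ) (π : Set ℕ) (M : Subgroup (Perm α)) :
    Prop :=
  ∃ Γ : Finset α, M = PS Γ ⊓ alternatingGroup α ∧
    ((n.Prime ∧ (∀ r : ℕ, r.Prime → r ≤ n → (r ∈ π ↔ r < n)) ∧ Γ.card = 1) ∨
     (n = 7 ∧ P23 n π ∧ Γ.card = 3) ∨ (n = 8 ∧ P23 n π ∧ Γ.card = 4))

/-- elements of the alternating group fixing `Γ` pointwise -/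
def XA {α : Type u} [Fintype α] [DecidableEq α] (Γ : Finset α) : Subgroup (Perm α) :=
  (alternatingGroup {x // x ∉ Γ}).map (ofSubtype : Perm {x // x ∉ Γ} →* Perm α)

variable {α : Type u} [Fintype α] [DecidableEq α]

theorem mem_XA {Γ : Finset α} {g : Perm α} : g ∈ XA Γ ↔ (∀ x ∈ Γ, g x = x) ∧ sign g = 1 := by
  constructor
  · rintro ⟨g', hg', rfl⟩
    refine ⟨fun x hx => ofSubtype_apply_of_not_mem g' (by simpa using hx), ?_⟩
    rw [sign_ofSubtype]
    exact hg'
  · rintro ⟨h1, h2⟩
    have h3 : ∀ x, g x ∉ Γ ↔ x ∉ Γ := by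
      intro x
      rw [not_iff_not]
      exact ⟨fun h => by
        have := g.injective (h1 _ h)
        rwa [this] at h, fun h => by rwa [h1 x h]⟩
    have h4 : ∀ x, g x ≠ x → x ∉ Γ := fun x hx hx' => hx (h1 x hx')
    refine ⟨g.subtypePerm h3, ?_, ofSubtype_subtypePerm h3 h4⟩
    rw [SetLike.mem_coe, mem_alternatingGroup, sign_subtypePerm g h3 h4]
    exact h2

theorem XA_normal {Γ : Finset α} {w : Perm α} (hw : w ∈ SS Γ) {x : Perm α} (hx : x ∈ XA Γ) :
    w * x * w⁻¹ ∈ XA Γ := by
  rw [mem_XA] at hx ⊢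
  refine ⟨fun y hy => ?_, ?_⟩
  · have h1 : w⁻¹ y ∈ Γ := ((SS Γ).inv_mem hw y).2 hy
    rw [Perm.mul_apply, Perm.mul_apply, hx.1 _ h1]
    simp
  · rw [Equiv.Perm.sign_mul, Equiv.Perm.sign_mul, hx.2, Equiv.Perm.sign_inv, mul_one]
    rcases Int.units_eq_one_or (sign w) with h | h <;> rw [h] <;> simp

theorem hall_sub {π : Set ℕ} {M : Subgroup (Perm α)} {Γ : Finset α}
    (hM : HallIn π M (SS Γ ⊓ alternatingGroup α)) :
    HallIn π (M.comap (ofSubtype : Perm {x // x ∉ Γ} →* Perm α) ⊓ alternatingGroup {x // x ∉ Γ})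
      (alternatingGroup {x // x ∉ Γ}) := by
  have h1 : HallIn π M (XA Γ) := by
    refine hM.normal ?_ ?_
    · intro g hg
      rw [mem_XA] at hg
      refine ⟨fun x => ?_, hg.2⟩
      exact ⟨fun h => by
        have := g.injective (hg.1 _ h)
        rwa [this] at h, fun h => by rwa [hg.1 x h]⟩
    · intro w hw x hx
      exact XA_normal hw.1 hx
  constructor
  · intro p hp hd
    refine h1.1 p hp (hd.trans ?_)
    rw [← card_map_of_injective (ofSubtype_injective (p := fun x => x ∉ Γ))]
    refine card_dvd_of_le ?_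
    rw [map_le_iff_le_comap]
    exact inf_le_left
  · intro p hp hpπ
    rw [inf_relIndex_right, relIndex_comap]
    exact h1.2 p hp hpπ

theorem SS_compl (S : Finset α) : SS Sᶜ = SS S := by
  ext g
  rw [mem_SS, mem_SS]
  simp only [Finset.mem_compl, not_iff_not]

theorem invariant_set {M : Subgroup (Perm α)} (h : ¬ ∀ x y : α, ∃ g ∈ M, g x = y) :
    ∃ Γ : Finset α, M ≤ SS Γ ∧ 1 ≤ Γ.card ∧ 2 * Γ.card ≤ Fintype.card α := by
  classical
  push Not at h
  obtain ⟨x, y, hxy⟩ := h
  set O : Finset α := Finset.univ.filter (fun z => ∃ g ∈ M, g x = z) with hO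
  have hMO : M ≤ SS O := by
    intro g hg z
    rw [hO, Finset.mem_filter, Finset.mem_filter]
    simp only [Finset.mem_univ, true_and]
    constructor
    · rintro ⟨k, hk, hkx⟩
      refine ⟨g⁻¹ * k, M.mul_mem (M.inv_mem hg) hk, ?_⟩
      rw [Perm.mul_apply, hkx]; simp
    · rintro ⟨k, hk, hkx⟩
      refine ⟨g * k, M.mul_mem hg hk, ?_⟩
      rw [Perm.mul_apply, hkx]
  have hx : x ∈ O := by
    rw [hO, Finset.mem_filter]; exact ⟨Finset.mem_univ _, 1, M.one_mem, rfl⟩
  have hy : y ∉ O := by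
    rw [hO, Finset.mem_filter]
    rintro ⟨-, g, hg, hgx⟩
    exact hxy g hg hgx
  have h1 : 1 ≤ O.card := Finset.card_pos.2 ⟨x, hx⟩
  have h2 : 1 ≤ Oᶜ.card := Finset.card_pos.2 ⟨y, Finset.mem_compl.2 hy⟩
  have h3 := Finset.card_compl O
  by_cases h4 : 2 * O.card ≤ Fintype.card α
  · exact ⟨O, hMO, h1, h4⟩
  · exact ⟨Oᶜ, by rw [SS_compl]; exact hMO, h2, by omega⟩

theorem eq_PS {π : Set ℕ} {M : Subgroup (Perm α)} {Γ : Finset α}
    (hM : HallIn π M (SS Γ ⊓ alternatingGroup α)) (hMS : M ≤ SS Γ ⊓ alternatingGroup α)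
    (hne : Γ.card ≠ Fintype.card α - Γ.card)
    (hprime : ∀ p : ℕ, p.Prime → p ≤ Γ.card ∨ p ≤ Fintype.card α - Γ.card → p ∈ π) :
    M = PS Γ ⊓ alternatingGroup α := by
  rw [PS_eq_SS hne]
  refine HallIn.eq hM hMS ?_
  intro p hp hd
  have h1 := hd.trans (card_dvd_of_le (inf_le_left : SS Γ ⊓ alternatingGroup α ≤ SS Γ))
  rw [card_SS] at h1
  rcases (Nat.Prime.dvd_mul hp).1 h1 with h | h
  · exact hprime p hp (Or.inl ((Nat.Prime.dvd_factorial hp).1 h))
  · exact hprime p hp (Or.inr ((Nat.Prime.dvd_factorial hp).1 h))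

theorem classify : ∀ (n : ℕ) (α : Type u) [Fintype α] [DecidableEq α], Fintype.card α = n →
    ∀ (π : Set ℕ) (M : Subgroup (Perm α)), M ≤ alternatingGroup α →
    HallIn π M (alternatingGroup α) → 2 ∈ π → 3 ∈ π →
    (∃ r : ℕ, r.Prime ∧ r ≤ n ∧ r ∉ π) → Concl n π M := by
  intro n
  induction n using Nat.strong_induction_on with
  | _ n ih =>
  intro α _ _ hn π M hMA hM h2 h3 hr
  by_cases htr : ∀ x y : α, ∃ g ∈ M, g x = y
  · obtain ⟨h8, hP, Γ, hΓ, hMΓ⟩ := trans_case hMA hM h2 h3 (by rw [hn]; exact hr) htr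
    refine ⟨Γ, hMΓ, Or.inr (Or.inr ⟨by omega, ?_, hΓ⟩)⟩
    have : n = 8 := by omega
    rw [this]; exact hP
  · obtain ⟨Γ, hMΓ, hρ1, hρ2⟩ := invariant_set htr
    obtain ⟨r, hrp, hrn, hrπ⟩ := hr
    have hn4 : 4 ≤ n := by
      by_contra h
      rcases prime_small hrp hrn (by omega) with h1 | h1
      · exact hrπ (h1 ▸ h2)
      · exact hrπ (h1 ▸ h3)
    set ρ := Γ.card with hρ
    obtain ⟨N, hN⟩ : ∃ N, n = N + ρ := ⟨n - ρ, by omega⟩
    rw [hn, hN] at hρ2
    have hMW : M ≤ SS Γ ⊓ alternatingGroup α := le_inf hMΓ hMA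
    have hMin : HallIn π M (SS Γ ⊓ alternatingGroup α) := hM.mono hMW inf_le_right
    obtain ⟨o, ho, hos⟩ := SS_odd (S := Γ) (by omega)
    have hC : ∀ p : ℕ, p.Prime → p ∈ π → ¬ p ∣ (N + ρ).choose ρ := by
      intro p hp hpπ
      have h4 := hM.upper hMW inf_le_right hp hpπ
      rw [rel_alt (by omega) ho hos, index_SS, hn, hN] at h4
      exact h4
    have hρN : ρ < N := by
      rcases Nat.lt_or_ge ρ N with h | h
      · exact h
      · exfalso
        have h5 : N = ρ := by omega
        apply hC 2 Nat.prime_two h2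
        rw [h5, ← two_mul]
        exact Nat.two_dvd_centralBinom_of_one_le hρ1
    by_cases hall : ∀ p : ℕ, p.Prime → p ≤ N → p ∈ π
    · have heq : M = PS Γ ⊓ alternatingGroup α := by
        refine eq_PS hMin hMW (by omega) ?_
        intro p hp h
        exact hall p hp (by omega)
      rcases nt1 hρ1 hρN (fun p hp hpN => hC p hp (hall p hp hpN)) with ⟨h4, h5⟩ | ⟨h4, h5⟩
      · refine ⟨Γ, heq, Or.inl ⟨by rw [hN, h4]; exact h5, ?_, h4⟩⟩
        intro p hp hpn
        constructor
        · intro hpπ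
          rcases Nat.lt_or_ge p n with h6 | h6
          · exact h6
          · exfalso
            have h7 : r = n := by
              rcases Nat.lt_or_ge r n with h8 | h8
              · exact absurd (hall r hrp (by omega)) hrπ
              · omega
            have h8 : p = n := by omega
            exact hrπ (by rw [h7, ← h8]; exact hpπ)
        · intro hpn'
          exact hall p hp (by omega)
      · refine ⟨Γ, heq, Or.inr (Or.inl ⟨by omega, ?_, h5⟩)⟩
        intro p hp hpn
        constructor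
        · intro hpπ
          by_contra hne
          have h6 : ¬ p ≤ 4 := fun h => hne (prime_small hp h le_rfl)
          have h7 : p = 5 ∨ p = 7 := by
            rcases (show p = 5 ∨ p = 6 ∨ p = 7 by omega) with h | h | h
            · exact Or.inl h
            · rw [h] at hp; exact absurd hp (by norm_num)
            · exact Or.inr h
          apply hC p hp hpπ
          rw [h4, h5]
          rcases h7 with h | h
          · rw [h]; decide
          · rw [h]; decide
        · rintro (h | h)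
          · rw [h]; exact h2
          · rw [h]; exact h3
    · exfalso
      push Not at hall
      obtain ⟨s, hsp, hsN, hsπ⟩ := hall
      have hβ : Fintype.card {x // x ∉ Γ} = N := by
        rw [Fintype.card_subtype_compl, Fintype.card_coe, hn]
        omega
      obtain ⟨Δ, -, hcs⟩ := ih N (by omega) {x // x ∉ Γ} hβ π _ inf_le_right (hall_sub hMin) h2 h3
        ⟨s, hsp, hsN, hsπ⟩
      rcases hcs with ⟨hNp, hNπ, -⟩ | ⟨hN7, -, -⟩ | ⟨hN8, -, -⟩
      · haveI : Fact N.Prime := ⟨hNp⟩
        have hNC : ¬ N ∣ (N + ρ).choose ρ := by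
          have h4 := Choose.choose_modEq_choose_mod_mul_choose_div_nat (p := N) (n := N + ρ) (k := ρ)
          have e1 : (N + ρ) % N = ρ := by
            rw [Nat.add_mod_left, Nat.mod_eq_of_lt hρN]
          have e2 : ρ % N = ρ := Nat.mod_eq_of_lt hρN
          have e3 : (N + ρ) / N = 1 := by
            rw [Nat.add_div_left _ hNp.pos, Nat.div_eq_of_lt hρN]
          have e4 : ρ / N = 0 := Nat.div_eq_of_lt hρN
          rw [e1, e2, e3, e4, Nat.choose_self, Nat.choose_zero_right, mul_one] at h4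
          intro h5
          have h6 : 0 ≡ 1 [MOD N] := ((Nat.modEq_zero_iff_dvd.2 h5).symm).trans h4
          have h7 := (Nat.modEq_iff_dvd' (Nat.zero_le 1)).1 h6
          exact hNp.one_lt.ne' (Nat.dvd_one.1 h7)
        rcases nt1 hρ1 hρN (fun p hp hpN => by
          rcases Nat.lt_or_ge p N with h | h
          · exact hC p hp ((hNπ p hp hpN).2 h)
          · have : p = N := by omega
            rw [this]; exact hNC) with ⟨h4, h5⟩ | ⟨h4, h5⟩
        · have h6 : N = 2 := by
            rcases hNp.eq_two_or_odd with h | h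
            · exact h
            · rcases h5.eq_two_or_odd with h' | h'
              · omega
              · omega
          omega
        · rw [h4] at hNp; exact absurd hNp (by norm_num)
      · have h4 := nc Nat.prime_two (hC 2 Nat.prime_two h2) (i := 3) (by norm_num)
        rw [hN7] at h4 hρN
        norm_num at h4
        omega
      · have h4 := nc Nat.prime_three (hC 3 Nat.prime_three h3) (i := 2) (by norm_num)
        rw [hN8] at h4 hρN
        norm_num at h4
        omega

end H36.HS
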