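import Cfsg.Agent.Lib.H36.HSg
import Cfsg.Prelude.Def_HallClasses

set_option autoImplicit false

namespace H36.HS

open Subgroup Equiv Equiv.Perm

universe u v

section general

variable {G : Type u} [Group G] [Finite G]

theorem hall_top {π : Set ℕ} {M : Subgroup G} : Cfsg.IsPiHall π M ↔ HallIn π M ⊤ := by
  unfold Cfsg.IsPiHall HallIn
  rw [relIndex_top_right]

theorem hall_sub_iff {π : Set ℕ} {M A : Subgroup G} (h : M ≤ A) :
    Cfsg.IsPiHall π (M.subgroupOf A) ↔ HallIn π M A := by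
  unfold Cfsg.IsPiHall HallIn
  rw [Nat.card_congr (subgroupOfEquivOfLe h).toEquiv]
  rfl

theorem map_sub {A : Subgroup G} (M : Subgroup A) : (M.map A.subtype).subgroupOf A = M := by
  rw [subgroupOf, comap_map_eq_self_of_injective A.subtype_injective]

theorem hall_map {π : Set ℕ} {A : Subgroup G} {M : Subgroup A} :
    Cfsg.IsPiHall π M ↔ HallIn π (M.map A.subtype) A := by
  rw [← hall_sub_iff (map_subtype_le M), map_sub]

theorem conj_map_eq {H K : Subgroup G} {g : G} :
    K = H.map (MulAut.conj g).toMonoidHom ↔ ∀ x, x ∈ H ↔ g * x * g⁻¹ ∈ K := by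
  constructor
  · rintro rfl x
    constructor
    · intro hx; exact ⟨x, hx, rfl⟩
    · rintro ⟨y, hy, hyx⟩
      have : y = x := (MulAut.conj g).injective hyx
      rwa [← this]
  · intro h
    ext y
    constructor
    · intro hy
      refine ⟨g⁻¹ * y * g, (h _).2 ?_, ?_⟩
      · have : g * (g⁻¹ * y * g) * g⁻¹ = y := by group
        rwa [this]
      · show g * (g⁻¹ * y * g) * g⁻¹ = y
        group
    · rintro ⟨x, hx, rfl⟩
      exact (h x).1 hx

/-- at most one prime of `π` divides the order: Hall `π`-subgroups are conjugate. -/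
theorem one_prime_conj {π : Set ℕ} (h1 : ∀ r s : ℕ, r.Prime → s.Prime → r ∈ π → s ∈ π →
    r ∣ Nat.card G → s ∣ Nat.card G → r = s) {H K : Subgroup G} (hH : Cfsg.IsPiHall π H)
    (hK : Cfsg.IsPiHall π K) : ∃ g : G, K = H.map (MulAut.conj g).toMonoidHom := by
  by_cases hp : ∃ p : ℕ, p.Prime ∧ p ∈ π ∧ p ∣ Nat.card G
  · obtain ⟨p, hp, hpπ, hpG⟩ := hp
    haveI : Fact p.Prime := ⟨hp⟩
    have hHp : IsPGroup p H := by
      refine IsPGroup.of_card (Nat.eq_prime_pow_of_unique_prime_dvd Nat.card_pos.ne' ?_)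
      intro d hd hdd
      exact h1 d p hd hp (hH.1 d hd hdd) hpπ (hdd.trans (card_subgroup_dvd_card H)) hpG
    obtain ⟨g, hg⟩ := conj_in_top (hK.2 p hp hpπ) hHp
    have hle : H.map (MulAut.conj g).toMonoidHom ≤ K := by
      rintro _ ⟨x, hx, rfl⟩
      exact hg x hx
    refine ⟨g, ?_⟩
    have h2 : Nat.card (H.map (MulAut.conj g).toMonoidHom) = Nat.card H :=
      card_map_of_injective (MulAut.conj g).injective
    have h3 : HallIn π (H.map (MulAut.conj g).toMonoidHom) ⊤ := by
      rw [← hall_top]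
      refine ⟨by rw [h2]; exact hH.1, ?_⟩
      intro q hq hqπ hd
      have h4 := card_mul_index (H.map (MulAut.conj g).toMonoidHom)
      have h5 := card_mul_index H
      rw [h2, ← h5] at h4
      rw [Nat.eq_of_mul_eq_mul_left Nat.card_pos h4] at hd
      exact hH.2 q hq hqπ hd
    exact (HallIn.eq (h3.mono hle le_top) hle hK.1).symm
  · push Not at hp
    have hb : ∀ L : Subgroup G, Cfsg.IsPiHall π L → L = ⊥ := by
      intro L hL
      rw [← card_eq_one]
      by_contra hne
      obtain ⟨p, hp', hd⟩ := Nat.exists_prime_and_dvd hne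
      exact hp p hp' (hL.1 p hp' hd) (hd.trans (card_subgroup_dvd_card L))
    refine ⟨1, ?_⟩
    rw [hb H hH, hb K hK, Subgroup.map_bot]

end general

section perm

variable {α : Type u} [Fintype α] [DecidableEq α]

theorem prime_dvd_card_perm {p : ℕ} (hp : p.Prime) {H : Subgroup (Perm α)}
    (hd : p ∣ Nat.card H) : p ≤ Fintype.card α := by
  have h1 := hd.trans (card_subgroup_dvd_card H)
  rw [Nat.card_eq_fintype_card (α := Perm α), Fintype.card_perm] at h1
  exact (Nat.Prime.dvd_factorial hp).1 h1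

theorem prime_dvd_index_perm {p : ℕ} (hp : p.Prime) {H : Subgroup (Perm α)}
    (hd : p ∣ H.index) : p ≤ Fintype.card α := by
  have h1 := hd.trans (index_dvd_card H)
  rw [Nat.card_eq_fintype_card (α := Perm α), Fintype.card_perm] at h1
  exact (Nat.Prime.dvd_factorial hp).1 h1

/-- all the information in the third case -/
theorem concl_of {π : Set ℕ} {M : Subgroup (Perm α)} (hMA : M ≤ alternatingGroup α)
    (hM : HallIn π M (alternatingGroup α))
    (h2 : ∃ r s : ℕ, r.Prime ∧ s.Prime ∧ r ≠ s ∧ r ∈ π ∧ s ∈ π ∧ r ≤ Fintype.card α ∧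
      s ≤ Fintype.card α)
    (hns : ∃ r : ℕ, r.Prime ∧ r ≤ Fintype.card α ∧ r ∉ π) :
    2 ∈ π ∧ 3 ∈ π ∧ 5 ≤ Fintype.card α ∧ Concl (Fintype.card α) π M := by
  have h23 : 2 ∈ π ∧ 3 ∈ π := by
    obtain ⟨r, s, hr, hs, hrs, hrπ, hsπ, hrn, hsn⟩ := h2
    rcases Nat.lt_or_gt_of_ne hrs with h | h
    · exact two_three hM hr hs hrπ hsπ h hsn
    · exact two_three hM hs hr hsπ hrπ h hrn
  refine ⟨h23.1, h23.2, ?_, classify _ α rfl π M hMA hM h23.1 h23.2 hns⟩
  obtain ⟨r, hrp, hrn, hrπ⟩ := hns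
  by_contra h
  rcases prime_small hrp hrn (by omega) with h1 | h1
  · exact hrπ (h1 ▸ h23.1)
  · exact hrπ (h1 ▸ h23.2)

/-- lifting from the alternating to the symmetric group, `2 ∈ π` -/
theorem lift_odd {π : Set ℕ} {W : Subgroup (Perm α)} (h2 : 2 ∈ π)
    (hM : HallIn π (W ⊓ alternatingGroup α) (alternatingGroup α)) (hn : 2 ≤ Fintype.card α)
    {g : Perm α} (hg : g ∈ W) (hs : sign g = -1) : Cfsg.IsPiHall π W := by
  refine ⟨?_, ?_⟩
  · intro p hp hd
    rw [card_inf_alt hg hs] at hd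
    rcases (Nat.Prime.dvd_mul hp).1 hd with h | h
    · rw [(Nat.prime_dvd_prime_iff_eq hp Nat.prime_two).1 h]; exact h2
    · exact hM.1 p hp h
  · intro p hp hpπ hd
    rw [← rel_alt hn hg hs] at hd
    exact hM.2 p hp hpπ hd

theorem PS_hall {π : Set ℕ} {Γ : Finset α} (h2 : 2 ∈ π)
    (hM : HallIn π (PS Γ ⊓ alternatingGroup α) (alternatingGroup α)) (hn : 3 ≤ Fintype.card α) :
    Cfsg.IsPiHall π (PS Γ) := by
  obtain ⟨o, ho, hos⟩ := SS_odd (S := Γ) hn
  exact lift_odd h2 hM (by omega) (SS_le_PS Γ ho) hos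

theorem alt_of_hall {π : Set ℕ} {M₀ : Subgroup (Perm α)} (h : Cfsg.IsPiHall π M₀) :
    HallIn π (M₀ ⊓ alternatingGroup α) (alternatingGroup α) := by
  have h1 : HallIn π M₀ (alternatingGroup α) := by
    refine (hall_top.1 h).normal le_top ?_
    intro w _ x hx
    exact (alternatingGroup.normal (α := α)).conj_mem x hx w
  refine ⟨fun p hp hd => h1.1 p hp (hd.trans (card_dvd_of_le inf_le_left)), ?_⟩
  intro p hp hpπ
  rw [inf_relIndex_right]
  exact h1.2 p hp hpπ

theorem hall_lift {π : Set ℕ} {M : Subgroup (Perm α)} (hMA : M ≤ alternatingGroup α)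
    (hM : HallIn π M (alternatingGroup α)) :
    ∃ M₀ : Subgroup (Perm α), Cfsg.IsPiHall π M₀ ∧ M = M₀ ⊓ alternatingGroup α := by
  by_cases h2 : 2 ∈ π
  · by_cases hall : ∀ r : ℕ, r.Prime → r ≤ Fintype.card α → r ∈ π
    · have h1 : M = alternatingGroup α := hM.eq hMA
        (fun p hp hd => hall p hp (prime_dvd_card_perm hp hd))
      refine ⟨⊤, ⟨fun p hp hd => hall p hp (prime_dvd_card_perm hp hd), ?_⟩, by
        rw [top_inf_eq]; exact h1⟩
      intro p hp _
      rw [index_top]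
      exact hp.one_lt.ne' ∘ Nat.dvd_one.1
    · push Not at hall
      by_cases htwo : ∃ r s : ℕ, r.Prime ∧ s.Prime ∧ r ≠ s ∧ r ∈ π ∧ s ∈ π ∧
        r ≤ Fintype.card α ∧ s ≤ Fintype.card α
      · obtain ⟨-, -, h5, Γ, hΓ, -⟩ := concl_of hMA hM htwo hall
        exact ⟨PS Γ, PS_hall h2 (hΓ ▸ hM) (by omega), hΓ⟩
      · have hone : ∀ p : ℕ, p.Prime → p ∈ π → p ≤ Fintype.card α → p = 2 := by
          intro p hp hpπ hpn
          by_contra hne
          exact htwo ⟨p, 2, hp, Nat.prime_two, hne, hpπ, h2, hpn, by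
            have := hp.two_le; omega⟩
        haveI : Fact (Nat.Prime 2) := ⟨Nat.prime_two⟩
        have hMp : IsPGroup 2 M := by
          refine IsPGroup.of_card (Nat.eq_prime_pow_of_unique_prime_dvd Nat.card_pos.ne' ?_)
          intro d hd hdd
          exact hone d hd (hM.1 d hd hdd) (prime_dvd_card_perm hd hdd)
        obtain ⟨P, hP⟩ := hMp.exists_le_sylow
        have hPπ : ∀ p : ℕ, p.Prime → p ∣ Nat.card (P : Subgroup (Perm α)) → p ∈ π := by
          intro p hp hd
          obtain ⟨k, hk⟩ := P.2.exists_card_eq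
          rw [hk] at hd
          rw [(Nat.prime_dvd_prime_iff_eq hp Nat.prime_two).1 (hp.dvd_of_dvd_pow hd)]
          exact h2
        refine ⟨P, ⟨hPπ, ?_⟩, ?_⟩
        · intro p hp hpπ hd
          have := hone p hp hpπ (prime_dvd_index_perm hp hd)
          rw [this] at hd
          exact P.not_dvd_index hd
        · refine HallIn.eq (hM.mono (le_inf hP hMA) inf_le_right) (le_inf hP hMA) ?_
          intro p hp hd
          exact hPπ p hp (hd.trans (card_dvd_of_le inf_le_left))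
  · refine ⟨M, ⟨hM.1, ?_⟩, (inf_eq_left.2 hMA).symm⟩
    intro p hp hpπ hd
    rw [← relIndex_mul_index hMA] at hd
    rcases (Nat.Prime.dvd_mul hp).1 hd with h | h
    · exact hM.2 p hp hpπ h
    · have h3 : p ∣ 2 := by
        refine h.trans ?_
        rw [alternatingGroup_eq_sign_ker, index_ker]
        have := card_subgroup_dvd_card (sign : Perm α →* ℤˣ).range
        rw [Nat.card_eq_fintype_card (α := ℤˣ)] at this
        simpa using this
      rw [(Nat.prime_dvd_prime_iff_eq hp Nat.prime_two).1 h3] at hpπ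
      exact h2 hpπ

end perm

end H36.HS
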