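import Cfsg.Agent.Lib.H36.HSh

set_option autoImplicit false

namespace H36.HS

open Subgroup Equiv Equiv.Perm

universe u v

variable {α : Type u} [Fintype α] [DecidableEq α]

theorem hall_SS_point {π : Set ℕ} (hn : (Fintype.card α).Prime)
    (h : ∀ r : ℕ, r.Prime → r ≤ Fintype.card α → (r ∈ π ↔ r < Fintype.card α)) {Γ : Finset α}
    (hΓ : Γ.card = 1) : Cfsg.IsPiHall π (SS Γ) := by
  have hn2 := hn.two_le
  constructor
  · intro p hp hd
    rw [card_SS, hΓ] at hd
    rcases (Nat.Prime.dvd_mul hp).1 hd with h1 | h1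
    · exact absurd (Nat.dvd_one.1 h1) hp.one_lt.ne'
    · have := (Nat.Prime.dvd_factorial hp).1 h1
      exact (h p hp (by omega)).2 (by omega)
  · intro p hp hpπ hd
    rw [index_SS, hΓ, Nat.choose_one_right] at hd
    have h1 := (Nat.prime_dvd_prime_iff_eq hp hn).1 hd
    have h2 := (h p hp h1.le).1 hpπ
    omega

theorem hall_SS_three {π : Set ℕ} (hn : Fintype.card α = 7) (h : P23 7 π) {Γ : Finset α}
    (hΓ : Γ.card = 3) : Cfsg.IsPiHall π (SS Γ) := by
  constructor
  · intro p hp hd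
    rw [card_SS, hΓ, hn] at hd
    rcases (Nat.Prime.dvd_mul hp).1 hd with h1 | h1
    · have := (Nat.Prime.dvd_factorial hp).1 h1
      exact (h p hp (by omega)).2 (prime_small hp this (by omega))
    · have := (Nat.Prime.dvd_factorial hp).1 h1
      exact (h p hp (by omega)).2 (prime_small hp this (by omega))
  · intro p hp hpπ hd
    have h7 := prime_dvd_index_perm hp hd
    rw [index_SS, hΓ, hn] at hd
    rcases (h p hp (by omega)).1 hpπ with h1 | h1
    · rw [h1] at hd; exact absurd hd (by decide)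
    · rw [h1] at hd; exact absurd hd (by decide)

theorem map_SS {g : Perm α} {S : Finset α} {x : Perm α} :
    x ∈ SS S ↔ g * x * g⁻¹ ∈ SS (S.map g.toEmbedding) := by
  have hm : ∀ y, g y ∈ S.map g.toEmbedding ↔ y ∈ S := by
    intro y
    rw [Finset.mem_map]
    constructor
    · rintro ⟨z, hz, hzy⟩
      rwa [← g.injective hzy]
    · intro h; exact ⟨y, h, rfl⟩
  rw [mem_SS, mem_SS]
  constructor
  · intro h y
    obtain ⟨z, rfl⟩ := g.surjective y
    have e : (g * x * g⁻¹) (g z) = g (x z) := by simp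
    rw [e, hm, hm, h]
  · intro h y
    have e : (g * x * g⁻¹) (g y) = g (x y) := by simp
    have := h (g y)
    rwa [e, hm, hm] at this

theorem map_PS {g : Perm α} {S : Finset α} {x : Perm α} :
    x ∈ PS S ↔ g * x * g⁻¹ ∈ PS (S.map g.toEmbedding) := by
  have hm : ∀ y, g y ∈ S.map g.toEmbedding ↔ y ∈ S := by
    intro y
    rw [Finset.mem_map]
    constructor
    · rintro ⟨z, hz, hzy⟩
      rwa [← g.injective hzy]
    · intro h; exact ⟨y, h, rfl⟩
  rw [mem_PS, mem_PS]
  constructor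
  · intro h y y'
    obtain ⟨z, rfl⟩ := g.surjective y
    obtain ⟨z', rfl⟩ := g.surjective y'
    have e : ∀ z, (g * x * g⁻¹) (g z) = g (x z) := fun z => by simp
    rw [e, e, hm, hm, hm, hm, h]
  · intro h y y'
    have e : ∀ y, (g * x * g⁻¹) (g y) = g (x y) := fun y => by simp
    have := h (g y) (g y')
    rwa [e, e, hm, hm, hm, hm] at this

/-- two sets of the same size are moved to each other -/
theorem exists_map {S T : Finset α} (h : S.card = T.card) :
    ∃ g : Perm α, S.map g.toEmbedding = T := by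
  have e1 : {x // x ∈ S} ≃ {x // x ∈ T} := Finset.equivOfCardEq h
  obtain ⟨g, hg⟩ : ∃ g : Perm α, ∀ x, x ∈ S ↔ g x ∈ T := by
    refine ⟨e1.extendSubtype, fun x => ?_⟩
    constructor
    · intro hx; exact e1.extendSubtype_mem x hx
    · intro hx
      by_contra hx'
      exact e1.extendSubtype_not_mem x hx' hx
  refine ⟨g, ?_⟩
  ext y
  rw [Finset.mem_map]
  constructor
  · rintro ⟨x, hx, rfl⟩
    exact (hg x).1 hx
  · intro hy
    refine ⟨g⁻¹ y, (hg _).2 ?_, by simp⟩
    have : g (g⁻¹ y) = y := by simp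
    rwa [this]

theorem PS_index_eight {Γ : Finset α} (hn : Fintype.card α = 8) (hΓ : Γ.card = 4) :
    (PS Γ).index ∣ 35 := by
  have hcc : Γ.card = Γᶜ.card := by rw [Finset.card_compl]; omega
  obtain ⟨t, ht⟩ := exists_map hcc
  have ht1 : ∀ x, x ∈ Γ → t x ∉ Γ := by
    intro x hx
    have : t x ∈ Γᶜ := by rw [← ht, Finset.mem_map]; exact ⟨x, hx, rfl⟩
    exact Finset.mem_compl.1 this
  have ht2 : ∀ x, x ∉ Γ → t x ∈ Γ := by
    intro x hx
    by_contra hx'
    rw [← Finset.mem_compl, ← ht, Finset.mem_map] at hx'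
    obtain ⟨z, hz, hzx⟩ := hx'
    exact hx (by rw [← t.injective hzx]; exact hz)
  have ht3 : ∀ x, t x ∈ Γ ↔ x ∉ Γ := fun x => ⟨fun h hx => ht1 x hx h, ht2 x⟩
  have htP : t ∈ PS Γ := by
    intro x y
    rw [ht3, ht3]; tauto
  have hrel : (SS Γ).relIndex (PS Γ) = 2 := by
    rw [relIndex, index_eq_two_iff]
    refine ⟨⟨t, htP⟩, ?_⟩
    rintro ⟨b, hb⟩
    rw [mem_subgroupOf, mem_subgroupOf]
    show Xor (b * t ∈ SS Γ) (b ∈ SS Γ)
    obtain ⟨x, hx⟩ : Γ.Nonempty := by rw [← Finset.card_pos]; omega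
    rcases PS_or hb with h | h
    · right
      refine ⟨h, fun h' => ?_⟩
      have h1 := h' x
      rw [Perm.mul_apply, h, ht3] at h1
      tauto
    · left
      refine ⟨fun y => ?_, fun h' => ?_⟩
      · rw [Perm.mul_apply, h, ht3]; tauto
      · have h1 := h' x
        rw [h] at h1
        tauto
  have h1 := relIndex_mul_index (SS_le_PS Γ)
  rw [hrel, index_SS, hΓ, hn, show Nat.choose 8 4 = 2 * 35 by decide] at h1
  rw [Nat.eq_of_mul_eq_mul_left (by norm_num) h1]

theorem card_PS_dvd (Γ : Finset α) (hne : Γ.Nonempty) (hne' : Γᶜ.Nonempty) {p : ℕ} (hp : p.Prime)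
    (hd : p ∣ Nat.card (PS Γ)) : p ≤ 2 ∨ p ≤ Γ.card ∨ p ≤ Fintype.card α - Γ.card := by
  rw [PS_eq_WSf] at hd
  have hs : Function.Surjective (fun x : α => decide (x ∈ Γ)) := by
    obtain ⟨a, ha⟩ := hne
    obtain ⟨b, hb⟩ := hne'
    rw [Finset.mem_compl] at hb
    intro t
    cases t
    · exact ⟨b, by simp [hb]⟩
    · exact ⟨a, by simp [ha]⟩
  rcases prime_dvd_WSf hs hp hd with h | ⟨i, h⟩
  · left; simpa using h
  · right
    cases i
    · right
      have : Fintype.card {a // decide (a ∈ Γ) = false} = Fintype.card {a // ¬ a ∈ Γ} :=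
        Fintype.card_congr (Equiv.subtypeEquivRight (fun a => by simp))
      rw [this, Fintype.card_subtype_compl] at h
      simpa using h
    · left
      simpa using h

theorem hall_PS_four {π : Set ℕ} (hn : Fintype.card α = 8) (h : P23 8 π) {Γ : Finset α}
    (hΓ : Γ.card = 4) : Cfsg.IsPiHall π (PS Γ) := by
  constructor
  · intro p hp hd
    have h8 := prime_dvd_card_perm hp hd
    have h1 : p ≤ 4 := by
      rcases card_PS_dvd Γ (by rw [← Finset.card_pos]; omega)
        (by rw [← Finset.card_pos, Finset.card_compl]; omega) hp hd with h1 | h1 | h1 <;> omega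
    exact (h p hp (by omega)).2 (prime_small hp h1 le_rfl)
  · intro p hp hpπ hd
    have h7 := prime_dvd_index_perm hp hd
    have h8 := hd.trans (PS_index_eight hn hΓ)
    rcases (h p hp (by omega)).1 hpπ with h1 | h1
    · rw [h1] at h8; exact absurd h8 (by norm_num)
    · rw [h1] at h8; exact absurd h8 (by norm_num)

/-- existence statement -/
theorem exists_hall_iff {π : Set ℕ}
    (h2 : ∃ r s : ℕ, r.Prime ∧ s.Prime ∧ r ≠ s ∧ r ∈ π ∧ s ∈ π ∧ r ≤ Fintype.card α ∧
      s ≤ Fintype.card α)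
    (hns : ∃ r : ℕ, r.Prime ∧ r ≤ Fintype.card α ∧ r ∉ π) :
    Cfsg.IsEPiGroup π (Perm α) ↔
      (((Fintype.card α).Prime ∧ ∀ r : ℕ, r.Prime → r ≤ Fintype.card α →
          (r ∈ π ↔ r < Fintype.card α)) ∨
       ((Fintype.card α = 7 ∨ Fintype.card α = 8) ∧ P23 (Fintype.card α) π)) := by
  constructor
  · rintro ⟨H, hH⟩
    obtain ⟨-, -, -, Γ, -, hc⟩ := concl_of inf_le_right (alt_of_hall hH) h2 hns
    rcases hc with ⟨h3, h4, -⟩ | ⟨h3, h4, -⟩ | ⟨h3, h4, -⟩
    · exact Or.inl ⟨h3, h4⟩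
    · exact Or.inr ⟨Or.inl h3, h4⟩
    · exact Or.inr ⟨Or.inr h3, h4⟩
  · rintro (⟨h3, h4⟩ | ⟨h3 | h3, h4⟩)
    · obtain ⟨Γ, -, hΓ⟩ := Finset.exists_subset_card_eq (s := (Finset.univ : Finset α)) (n := 1)
        (by rw [Finset.card_univ]; exact h3.one_lt.le)
      exact ⟨_, hall_SS_point h3 h4 hΓ⟩
    · obtain ⟨Γ, -, hΓ⟩ := Finset.exists_subset_card_eq (s := (Finset.univ : Finset α)) (n := 3)
        (by rw [Finset.card_univ]; omega)
      exact ⟨_, hall_SS_three h3 (h3 ▸ h4) hΓ⟩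
    · obtain ⟨Γ, -, hΓ⟩ := Finset.exists_subset_card_eq (s := (Finset.univ : Finset α)) (n := 4)
        (by rw [Finset.card_univ]; omega)
      exact ⟨_, hall_PS_four h3 (h3 ▸ h4) hΓ⟩

end H36.HS
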