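import Cfsg.Agent.Lib.H36.HSi

set_option autoImplicit false

namespace H36.HS

open Subgroup Equiv Equiv.Perm

universe u v

theorem all_prime_top {G : Type u} [Group G] [Finite G] {π : Set ℕ}
    (h : ∀ p : ℕ, p.Prime → p ∣ Nat.card G → p ∈ π) {H : Subgroup G} (hH : Cfsg.IsPiHall π H) :
    H = ⊤ :=
  HallIn.eq (hall_top.1 hH) le_top (fun p hp hd => h p hp (by rwa [card_top] at hd))

variable {α : Type u} [Fintype α] [DecidableEq α]

theorem map_mem {g : Perm α} {S : Finset α} {y : α} : g y ∈ S.map g.toEmbedding ↔ y ∈ S := by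
  rw [Finset.mem_map]
  constructor
  · rintro ⟨z, hz, hzy⟩
    rwa [← g.injective hzy]
  · intro h; exact ⟨y, h, rfl⟩

theorem exists_map_even {S T : Finset α} (h : S.card = T.card) (hn : 3 ≤ Fintype.card α) :
    ∃ g : Perm α, S.map g.toEmbedding = T ∧ sign g = 1 := by
  obtain ⟨g, hg⟩ := exists_map h
  rcases Int.units_eq_one_or (sign g) with hs | hs
  · exact ⟨g, hg, hs⟩
  · obtain ⟨o, ho, hos⟩ := SS_odd (S := S) hn
    refine ⟨g * o, ?_, by rw [Equiv.Perm.sign_mul, hs, hos]; rfl⟩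
    rw [← hg]
    ext y
    obtain ⟨x, rfl⟩ := (g * o).surjective y
    rw [map_mem]
    have : (g * o) x = g (o x) := rfl
    rw [this, map_mem, ho]

theorem R_PS_iff {Γ : Finset α} (hn : 4 ≤ Fintype.card α) {x y z : α} :
    R (PS Γ ⊓ alternatingGroup α) x y z ↔
      x ≠ y ∧ y ≠ z ∧ x ≠ z ∧ (x ∈ Γ ↔ y ∈ Γ) ∧ (y ∈ Γ ↔ z ∈ Γ) := by
  constructor
  · intro h
    refine ⟨h.1, h.2.1, h.2.2.1, ?_⟩
    obtain ⟨g, hg, h1, h2, h3, h4⟩ := h.cyc
    rcases PS_or hg.1 with h5 | h5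
    · have e1 := h5 x
      have e2 := h5 y
      rw [h1] at e1
      rw [h2] at e2
      exact ⟨e1.symm, e2.symm⟩
    · exfalso
      obtain ⟨w, hw⟩ : ∃ w, w ∉ ({x, y, z} : Finset α) := by
        by_contra hcon
        push Not at hcon
        have h6 : ({x, y, z} : Finset α) = Finset.univ := Finset.eq_univ_iff_forall.2 hcon
        have h7 : ({x, y, z} : Finset α).card = 3 :=
          Finset.card_eq_three.2 ⟨_, _, _, h.1, h.2.2.1, h.2.1, rfl⟩
        rw [h6, Finset.card_univ] at h7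
        omega
      simp only [Finset.mem_insert, Finset.mem_singleton, not_or] at hw
      have h6 := h5 w
      rw [h4 w hw.1 hw.2.1 hw.2.2] at h6
      tauto
  · rintro ⟨h1, h2, h3, h4, h5⟩
    refine ⟨h1, h2, h3, ⟨?_, ?_⟩⟩
    · have hkey : ∀ a b : α, (a ∈ Γ ↔ b ∈ Γ) → swap a b ∈ SS Γ := by
        intro a b hab w
        by_cases hwa : w = a
        · rw [hwa, swap_apply_left, hab]
        · by_cases hwb : w = b
          · rw [hwb, swap_apply_right, hab]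
          · rw [swap_apply_of_ne_of_ne hwa hwb]
      exact SS_le_PS Γ ((SS Γ).mul_mem (hkey x y h4) (hkey y z h5))
    · show swap x y * swap y z ∈ alternatingGroup α
      rw [mem_alternatingGroup, Equiv.Perm.sign_mul, sign_swap h1, sign_swap h2]
      rfl

theorem rl_PS_iff {Γ : Finset α} (hn : 4 ≤ Fintype.card α) (h1 : Γ.card = 1 ∨ 3 ≤ Γ.card)
    (h2 : 3 ≤ Γᶜ.card) {x y : α} :
    rl (PS Γ ⊓ alternatingGroup α) x y ↔ (x ∈ Γ ↔ y ∈ Γ) := by
  constructor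
  · rintro (h | ⟨z, h⟩)
    · rw [h]
    · exact ((R_PS_iff hn).1 h).2.2.2.1
  · intro h
    by_cases hxy : x = y
    · exact Or.inl hxy
    · right
      have key : ∀ S : Finset α, 3 ≤ S.card → x ∈ S → y ∈ S → ∃ z ∈ S, z ≠ x ∧ z ≠ y := by
        intro S hS hx hy
        have h3 : 0 < ((S.erase x).erase y).card := by
          rw [Finset.card_erase_of_mem (Finset.mem_erase.2 ⟨Ne.symm hxy, hy⟩),
            Finset.card_erase_of_mem hx]
          omega
        obtain ⟨z, hz⟩ := Finset.card_pos.1 h3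
        rw [Finset.mem_erase, Finset.mem_erase] at hz
        exact ⟨z, hz.2.2, hz.2.1, hz.1⟩
      by_cases hx : x ∈ Γ
      · have hy := h.1 hx
        have h3 : 3 ≤ Γ.card := by
          rcases h1 with h1 | h1
          · obtain ⟨a, ha⟩ := Finset.card_eq_one.1 h1
            rw [ha, Finset.mem_singleton] at hx hy
            exact absurd (hx.trans hy.symm) hxy
          · exact h1
        obtain ⟨z, hz, hzx, hzy⟩ := key Γ h3 hx hy
        refine ⟨z, (R_PS_iff hn).2 ⟨hxy, Ne.symm hzy, Ne.symm hzx, h, ?_⟩⟩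
        exact ⟨fun _ => hz, fun _ => hy⟩
      · have hy : y ∉ Γ := fun hy => hx (h.2 hy)
        obtain ⟨z, hz, hzx, hzy⟩ := key Γᶜ h2 (Finset.mem_compl.2 hx) (Finset.mem_compl.2 hy)
        rw [Finset.mem_compl] at hz
        refine ⟨z, (R_PS_iff hn).2 ⟨hxy, Ne.symm hzy, Ne.symm hzx, h, ?_⟩⟩
        exact ⟨fun h' => absurd h' hy, fun h' => absurd h' hz⟩

theorem rl_norm {M : Subgroup (Perm α)} {g : Perm α} (hg : ∀ m ∈ M, g * m * g⁻¹ ∈ M) {x y : α}
    (h : rl M x y) : rl M (g x) (g y) := by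
  rcases h with h | ⟨z, h1, h2, h3, h4⟩
  · exact Or.inl (by rw [h])
  · right
    refine ⟨g z, g.injective.ne h1, g.injective.ne h2, g.injective.ne h3, ?_⟩
    rw [swap_apply_apply, swap_apply_apply]
    have : g * swap x y * g⁻¹ * (g * swap y z * g⁻¹) = g * (swap x y * swap y z) * g⁻¹ := by group
    rw [this]
    exact hg _ h4

theorem PS_recover {Γ : Finset α} (hn : 4 ≤ Fintype.card α) (h1 : Γ.card = 1 ∨ 3 ≤ Γ.card)
    (h2 : 3 ≤ Γᶜ.card) {M₀ : Subgroup (Perm α)}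
    (h : M₀ ⊓ alternatingGroup α = PS Γ ⊓ alternatingGroup α) : M₀ ≤ PS Γ := by
  have hnorm : ∀ g ∈ M₀, ∀ m ∈ PS Γ ⊓ alternatingGroup α,
      g * m * g⁻¹ ∈ PS Γ ⊓ alternatingGroup α := by
    intro g hg m hm
    rw [← h] at hm ⊢
    exact ⟨M₀.mul_mem (M₀.mul_mem hg hm.1) (M₀.inv_mem hg),
      (alternatingGroup.normal (α := α)).conj_mem m hm.2 g⟩
  intro g hg x y
  rw [← rl_PS_iff hn h1 h2, ← rl_PS_iff hn h1 h2]
  constructor
  · intro h3
    have h4 := rl_norm (hnorm g⁻¹ (M₀.inv_mem hg)) h3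
    have e : ∀ x, g⁻¹ (g x) = x := fun x => by simp
    rwa [e, e] at h4
  · exact rl_norm (hnorm g hg)

theorem concl_sizes {π : Set ℕ} {n : ℕ} {c c' : ℕ}
    (h : ((n.Prime ∧ (∀ r : ℕ, r.Prime → r ≤ n → (r ∈ π ↔ r < n)) ∧ c = 1) ∨
     (n = 7 ∧ P23 n π ∧ c = 3) ∨ (n = 8 ∧ P23 n π ∧ c = 4)))
    (h' : ((n.Prime ∧ (∀ r : ℕ, r.Prime → r ≤ n → (r ∈ π ↔ r < n)) ∧ c' = 1) ∨
     (n = 7 ∧ P23 n π ∧ c' = 3) ∨ (n = 8 ∧ P23 n π ∧ c' = 4))) : c = c' := by
  have key : ∀ {n : ℕ}, n.Prime → (∀ r : ℕ, r.Prime → r ≤ n → (r ∈ π ↔ r < n)) →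
      n = 7 ∨ n = 8 → P23 n π → False := by
    intro n hn h1 h2 h3
    rcases h2 with h2 | h2
    · rw [h2] at h1 h3
      have h4 := (h3 5 (by norm_num) (by norm_num)).1
        ((h1 5 (by norm_num) (by norm_num)).2 (by norm_num))
      omega
    · rw [h2] at hn; exact absurd hn (by norm_num)
  rcases h with ⟨a1, a2, a3⟩ | ⟨a1, a2, a3⟩ | ⟨a1, a2, a3⟩ <;>
    rcases h' with ⟨b1, b2, b3⟩ | ⟨b1, b2, b3⟩ | ⟨b1, b2, b3⟩
  · omega
  · exact absurd (key a1 a2 (Or.inl b1) b2) id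
  · exact absurd (key a1 a2 (Or.inr b1) b2) id
  · exact absurd (key b1 b2 (Or.inl a1) a2) id
  · omega
  · omega
  · exact absurd (key b1 b2 (Or.inr a1) a2) id
  · omega
  · omega

theorem hall_eq_PS {π : Set ℕ}
    (h2 : ∃ r s : ℕ, r.Prime ∧ s.Prime ∧ r ≠ s ∧ r ∈ π ∧ s ∈ π ∧ r ≤ Fintype.card α ∧
      s ≤ Fintype.card α)
    (hns : ∃ r : ℕ, r.Prime ∧ r ≤ Fintype.card α ∧ r ∉ π) {H : Subgroup (Perm α)}
    (hH : Cfsg.IsPiHall π H) :
    ∃ Γ : Finset α, H = PS Γ ∧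
    (((Fintype.card α).Prime ∧ (∀ r : ℕ, r.Prime → r ≤ Fintype.card α →
      (r ∈ π ↔ r < Fintype.card α)) ∧ Γ.card = 1) ∨
     (Fintype.card α = 7 ∧ P23 (Fintype.card α) π ∧ Γ.card = 3) ∨
     (Fintype.card α = 8 ∧ P23 (Fintype.card α) π ∧ Γ.card = 4)) := by
  have hA := alt_of_hall hH
  obtain ⟨h2π, -, hn5, Γ, hΓ, hc⟩ := concl_of inf_le_right hA h2 hns
  refine ⟨Γ, ?_, hc⟩
  have hcc : Γᶜ.card = Fintype.card α - Γ.card := Finset.card_compl Γ
  have hle : H ≤ PS Γ := by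
    refine PS_recover (by omega) ?_ ?_ hΓ
    · rcases hc with ⟨-, -, h⟩ | ⟨-, -, h⟩ | ⟨-, -, h⟩ <;> omega
    · rcases hc with ⟨-, -, h⟩ | ⟨h0, -, h⟩ | ⟨h0, -, h⟩ <;> omega
  have hPS := PS_hall h2π (hΓ ▸ hA) (by omega)
  exact HallIn.eq ((hall_top.1 hH).mono hle le_top) hle hPS.1

theorem conj_S {π : Set ℕ} {H K : Subgroup (Perm α)} (hH : Cfsg.IsPiHall π H)
    (hK : Cfsg.IsPiHall π K) : ∃ g : Perm α, K = H.map (MulAut.conj g).toMonoidHom := by
  have hcard : ∀ p : ℕ, p.Prime → p ∣ Nat.card (Perm α) → p ≤ Fintype.card α := by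
    intro p hp hd
    rw [Nat.card_eq_fintype_card (α := Perm α), Fintype.card_perm] at hd
    exact (Nat.Prime.dvd_factorial hp).1 hd
  by_cases hall : ∀ r : ℕ, r.Prime → r ≤ Fintype.card α → r ∈ π
  · have h1 := all_prime_top (fun p hp hd => hall p hp (hcard p hp hd)) hH
    have h2 := all_prime_top (fun p hp hd => hall p hp (hcard p hp hd)) hK
    refine ⟨1, ?_⟩
    rw [conj_map_eq, h1, h2]
    intro x
    simp
  · push Not at hall
    by_cases htwo : ∃ r s : ℕ, r.Prime ∧ s.Prime ∧ r ≠ s ∧ r ∈ π ∧ s ∈ π ∧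
      r ≤ Fintype.card α ∧ s ≤ Fintype.card α
    · obtain ⟨Γ, rfl, hc⟩ := hall_eq_PS htwo hall hH
      obtain ⟨Γ', rfl, hc'⟩ := hall_eq_PS htwo hall hK
      obtain ⟨g, rfl⟩ := exists_map (concl_sizes hc hc')
      exact ⟨g, conj_map_eq.2 (fun x => map_PS)⟩
    · refine one_prime_conj ?_ hH hK
      intro r s hr hs hrπ hsπ hrd hsd
      by_contra hne
      exact htwo ⟨r, s, hr, hs, hne, hrπ, hsπ, hcard r hr hrd, hcard s hs hsd⟩

theorem conj_A {π : Set ℕ} {H K : Subgroup (alternatingGroup α)} (hH : Cfsg.IsPiHall π H)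
    (hK : Cfsg.IsPiHall π K) :
    ∃ g : alternatingGroup α, K = H.map (MulAut.conj g).toMonoidHom := by
  have hcard : ∀ p : ℕ, p.Prime → p ∣ Nat.card (alternatingGroup α) → p ≤ Fintype.card α := by
    intro p hp hd
    exact prime_dvd_card_perm hp hd
  by_cases hall : ∀ r : ℕ, r.Prime → r ≤ Fintype.card α → r ∈ π
  · have h1 := all_prime_top (fun p hp hd => hall p hp (hcard p hp hd)) hH
    have h2 := all_prime_top (fun p hp hd => hall p hp (hcard p hp hd)) hK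
    refine ⟨1, ?_⟩
    rw [conj_map_eq, h1, h2]
    intro x
    simp
  · push Not at hall
    by_cases htwo : ∃ r s : ℕ, r.Prime ∧ s.Prime ∧ r ≠ s ∧ r ∈ π ∧ s ∈ π ∧
      r ≤ Fintype.card α ∧ s ≤ Fintype.card α
    · obtain ⟨-, -, hn5, Γ, hΓ, hc⟩ := concl_of (map_subtype_le H) (hall_map.1 hH) htwo hall
      obtain ⟨-, -, -, Γ', hΓ', hc'⟩ := concl_of (map_subtype_le K) (hall_map.1 hK) htwo hall
      obtain ⟨g, hg, hgs⟩ := exists_map_even (concl_sizes hc hc') (by omega)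
      refine ⟨⟨g, hgs⟩, conj_map_eq.2 (fun x => ?_)⟩
      have e1 : ∀ (L : Subgroup (alternatingGroup α)) (Δ : Finset α),
          L.map (alternatingGroup α).subtype = PS Δ ⊓ alternatingGroup α →
          ∀ x : alternatingGroup α, x ∈ L ↔ (x : Perm α) ∈ PS Δ := by
        intro L Δ hL x
        have h1 : x ∈ L ↔ (x : Perm α) ∈ L.map (alternatingGroup α).subtype := by
          rw [mem_map]
          constructor
          · intro h; exact ⟨x, h, rfl⟩
          · rintro ⟨y, hy, hyx⟩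
            have : y = x := Subtype.ext hyx
            rwa [← this]
        rw [h1, hL]
        exact ⟨fun h => h.1, fun h => ⟨h, x.2⟩⟩
      rw [e1 H Γ hΓ, e1 K Γ' hΓ', ← hg]
      exact map_PS
    · refine one_prime_conj ?_ hH hK
      intro r s hr hs hrπ hsπ hrd hsd
      by_contra hne
      exact htwo ⟨r, s, hr, hs, hne, hrπ, hsπ, hcard r hr hrd, hcard s hs hsd⟩

theorem E_iff {π : Set ℕ} :
    Cfsg.IsEPiGroup π (Perm α) ↔ Cfsg.IsEPiGroup π (alternatingGroup α) := by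
  constructor
  · rintro ⟨H, hH⟩
    exact ⟨(H ⊓ alternatingGroup α).subgroupOf _, (hall_sub_iff inf_le_right).2 (alt_of_hall hH)⟩
  · rintro ⟨M, hM⟩
    obtain ⟨M₀, hM₀, -⟩ := hall_lift (map_subtype_le M) (hall_map.1 hM)
    exact ⟨M₀, hM₀⟩

end H36.HS
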