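import Cfsg.Agent.Lib.H36.HSj

set_option autoImplicit false

namespace H36.HS

open Subgroup Equiv Equiv.Perm

universe u v

section general

variable {G : Type u} [Group G] [Finite G]

theorem exists_maximal_pi {π : Set ℕ} {K : Subgroup G} (hK : Cfsg.IsPiSubgroup π K) :
    ∃ H : Subgroup G, Maximal (Cfsg.IsPiSubgroup π) H ∧ K ≤ H := by
  obtain ⟨H, hKH, hH⟩ := (Set.toFinite {H : Subgroup G | Cfsg.IsPiSubgroup π H}).exists_le_maximal hK
  exact ⟨H, hH, hKH⟩

theorem pi_conj {π : Set ℕ} {K : Subgroup G} (g : G) (hK : Cfsg.IsPiSubgroup π K) :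
    Cfsg.IsPiSubgroup π (K.map (MulAut.conj g).toMonoidHom) := by
  intro p hp hd
  rw [card_map_of_injective (MulAut.conj g).injective] at hd
  exact hK p hp hd

/-- `D_π` implies `E_π`, and every `π`-subgroup embeds in a conjugate. -/
theorem D_imp {π : Set ℕ} (h : Cfsg.IsDPiGroup π G) :
    ∃ H : Subgroup G, Cfsg.IsPiHall π H ∧
      ∀ K : Subgroup G, Cfsg.IsPiSubgroup π K → ∃ g : G, ∀ x ∈ K, g * x * g⁻¹ ∈ H := by
  have hbot : Cfsg.IsPiSubgroup π (⊥ : Subgroup G) := by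
    intro p hp hd
    rw [card_bot] at hd
    exact absurd (Nat.dvd_one.1 hd) hp.one_lt.ne'
  obtain ⟨H, hH, -⟩ := exists_maximal_pi hbot
  have key : ∀ K : Subgroup G, Cfsg.IsPiSubgroup π K → ∃ g : G, ∀ x ∈ K, g * x * g⁻¹ ∈ H := by
    intro K hK
    obtain ⟨L, hL, hKL⟩ := exists_maximal_pi hK
    obtain ⟨g, hg⟩ := h L H hL hH
    refine ⟨g, fun x hx => ?_⟩
    exact (conj_map_eq.1 hg x).1 (hKL hx)
  refine ⟨H, ⟨hH.1, ?_⟩, key⟩
  intro p hp hpπ
  haveI : Fact p.Prime := ⟨hp⟩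
  obtain ⟨P⟩ : Nonempty (Sylow p G) := inferInstance
  have hPπ : Cfsg.IsPiSubgroup π (P : Subgroup G) := by
    intro q hq hd
    obtain ⟨k, hk⟩ := P.2.exists_card_eq
    rw [hk] at hd
    rw [(Nat.prime_dvd_prime_iff_eq hq hp).1 (hq.dvd_of_dvd_pow hd)]
    exact hpπ
  obtain ⟨g, hg⟩ := key P hPπ
  have hle : (P : Subgroup G).map (MulAut.conj g).toMonoidHom ≤ H := by
    rintro _ ⟨x, hx, rfl⟩
    exact hg x hx
  have h1 : Nat.card (P : Subgroup G) ∣ Nat.card H := by
    have h0 : Nat.card ((P : Subgroup G).map (MulAut.conj g).toMonoidHom) =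
      Nat.card (P : Subgroup G) := card_map_of_injective (MulAut.conj g).injective
    rw [← h0]
    exact card_dvd_of_le hle
  obtain ⟨c, hc⟩ := h1
  intro hd
  apply P.not_dvd_index
  have h2 := card_mul_index H
  have h3 := card_mul_index (P : Subgroup G)
  rw [hc, mul_assoc, ← h3] at h2
  have h4 := Nat.eq_of_mul_eq_mul_left Nat.card_pos h2
  rw [← h4]
  exact hd.mul_left c

theorem D_of_all {π : Set ℕ} (h : ∀ p : ℕ, p.Prime → p ∣ Nat.card G → p ∈ π) :
    Cfsg.IsDPiGroup π G := by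
  have ht : Cfsg.IsPiSubgroup π (⊤ : Subgroup G) := by
    intro p hp hd
    rw [card_top] at hd
    exact h p hp hd
  intro H K hH hK
  have h1 : H = ⊤ := le_antisymm le_top (hH.2 ht le_top)
  have h2 : K = ⊤ := le_antisymm le_top (hK.2 ht le_top)
  refine ⟨1, ?_⟩
  rw [conj_map_eq, h1, h2]
  intro x
  simp

theorem D_of_one {π : Set ℕ} (h1 : ∀ r s : ℕ, r.Prime → s.Prime → r ∈ π → s ∈ π →
    r ∣ Nat.card G → s ∣ Nat.card G → r = s) : Cfsg.IsDPiGroup π G := by
  intro H K hH hK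
  have key : ∀ L : Subgroup G, Maximal (Cfsg.IsPiSubgroup π) L → Cfsg.IsPiHall π L := by
    intro L hL
    refine ⟨hL.1, ?_⟩
    intro p hp hpπ hd
    haveI : Fact p.Prime := ⟨hp⟩
    have hpG := hd.trans (index_dvd_card L)
    have hLp : IsPGroup p L := by
      refine IsPGroup.of_card (Nat.eq_prime_pow_of_unique_prime_dvd Nat.card_pos.ne' ?_)
      intro d hd hdd
      exact h1 d p hd hp (hL.1 d hd hdd) hpπ (hdd.trans (card_subgroup_dvd_card L)) hpG
    obtain ⟨P, hP⟩ := hLp.exists_le_sylow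
    have hPπ : Cfsg.IsPiSubgroup π (P : Subgroup G) := by
      intro q hq hd
      obtain ⟨k, hk⟩ := P.2.exists_card_eq
      rw [hk] at hd
      rw [(Nat.prime_dvd_prime_iff_eq hq hp).1 (hq.dvd_of_dvd_pow hd)]
      exact hpπ
    have h2 : L = P := le_antisymm hP (hL.2 hPπ hP)
    rw [h2] at hd
    exact P.not_dvd_index hd
  exact one_prime_conj h1 (key H hH) (key K hK)

end general

section perm

variable {α : Type u} [Fintype α] [DecidableEq α]

/-- the six-point configuration -/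
theorem six_false {Γ : Finset α} (hn : 4 ≤ Fintype.card α) (hc : Γ.card ≤ 4)
    (hc' : Fintype.card α - Γ.card ≤ 4)
    {a b c d e f w : α} {g : Perm α} (h1 : R (PS Γ ⊓ alternatingGroup α) a b c)
    (h2 : R (PS Γ ⊓ alternatingGroup α) d e f) (hg : g ∈ PS Γ)
    (hga : g a = d) (hgw : g w = w) (hnd : ({a, b, c, d, e, f} : Finset α).card = 6) : False := by
  obtain ⟨-, -, -, e1, e2⟩ := (R_PS_iff hn).1 h1
  obtain ⟨-, -, -, e3, e4⟩ := (R_PS_iff hn).1 h2
  have e5 : d ∈ Γ ↔ a ∈ Γ := by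
    rcases PS_or hg with h | h
    · rw [← hga]; exact h a
    · have := h w
      rw [hgw] at this
      tauto
  have key : ∀ S : Finset α, S.card ≤ 4 → a ∈ S → b ∈ S → c ∈ S → d ∈ S → e ∈ S → f ∈ S →
      False := by
    intro S hS ha hb hc hd he hf
    have h3 : ({a, b, c, d, e, f} : Finset α) ⊆ S := by
      intro x hx
      simp only [Finset.mem_insert, Finset.mem_singleton] at hx
      rcases hx with rfl | rfl | rfl | rfl | rfl | rfl <;> assumption
    have h4 := Finset.card_le_card h3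
    omega
  by_cases ha : a ∈ Γ
  · exact key Γ hc ha (e1.1 ha) (e2.1 (e1.1 ha)) (e5.2 ha) (e3.1 (e5.2 ha)) (e4.1 (e3.1 (e5.2 ha)))
  · have hb : b ∉ Γ := fun h => ha (e1.2 h)
    have hc1 : c ∉ Γ := fun h => hb (e2.2 h)
    have hd : d ∉ Γ := fun h => ha (e5.1 h)
    have he : e ∉ Γ := fun h => hd (e3.2 h)
    have hf : f ∉ Γ := fun h => he (e4.2 h)
    refine key Γᶜ (by rw [Finset.card_compl]; exact hc') ?_ ?_ ?_ ?_ ?_ ?_ <;>
      rw [Finset.mem_compl] <;> assumption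

theorem prime_dvd_alt (h4 : 4 ≤ Fintype.card α) {p : ℕ} (hp : p.Prime) :
    p ∣ Nat.card (alternatingGroup α) ↔ p ≤ Fintype.card α := by
  constructor
  · exact prime_dvd_card_perm hp
  · intro h
    have h1 := card_alt (α := α) (by omega)
    by_cases hp2 : p = 2
    · have h2 : Nat.factorial 4 ∣ (Fintype.card α).factorial := Nat.factorial_dvd_factorial h4
      rw [h1] at h2
      have h3 : Nat.factorial 4 = 2 * 12 := by decide
      rw [h3] at h2
      have h5 := Nat.dvd_of_mul_dvd_mul_left (by norm_num) h2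
      rw [hp2]
      exact (by norm_num : 2 ∣ 12).trans h5
    · have h2 := (Nat.Prime.dvd_factorial hp).2 h
      rw [h1] at h2
      rcases (Nat.Prime.dvd_mul hp).1 h2 with h3 | h3
      · exact absurd ((Nat.prime_dvd_prime_iff_eq hp Nat.prime_two).1 h3) hp2
      · exact h3

theorem same_side {Δ : Finset α} {a b : α} (hab : a ∈ Δ ↔ b ∈ Δ) : swap a b ∈ SS Δ := by
  intro w
  by_cases hwa : w = a
  · rw [hwa, swap_apply_left, hab]
  · by_cases hwb : w = b
    · rw [hwb, swap_apply_right, hab]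
    · rw [swap_apply_of_ne_of_ne hwa hwb]

/-- the pair stabiliser has no fixed point -/
theorem pair_moves {Δ : Finset α} (hΔ : Δ.card = 2) (hn : 5 ≤ Fintype.card α) (b : α) :
    ∃ x ∈ SS Δ ⊓ alternatingGroup α, x b ≠ b := by
  have hcc : 3 ≤ Δᶜ.card := by rw [Finset.card_compl]; omega
  by_cases hb : b ∈ Δ
  · obtain ⟨c, hc, hcb⟩ : ∃ c ∈ Δ, c ≠ b := Finset.exists_mem_ne (by omega) b
    obtain ⟨d, hd, e, he, hde⟩ := Finset.one_lt_card.1 (show 1 < Δᶜ.card by omega)
    rw [Finset.mem_compl] at hd he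
    refine ⟨swap b c * swap d e, ⟨(SS Δ).mul_mem (same_side (by tauto)) (same_side (by tauto)), ?_⟩,
      ?_⟩
    · show swap b c * swap d e ∈ alternatingGroup α
      rw [mem_alternatingGroup, Equiv.Perm.sign_mul, sign_swap hcb.symm, sign_swap hde]
      rfl
    · have h1 : b ≠ d := fun h => hd (h ▸ hb)
      have h2 : b ≠ e := fun h => he (h ▸ hb)
      rw [Perm.mul_apply, swap_apply_of_ne_of_ne h1 h2, swap_apply_left]
      exact hcb
  · have h1 : 2 ≤ (Δᶜ.erase b).card := by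
      rw [Finset.card_erase_of_mem (Finset.mem_compl.2 hb)]; omega
    obtain ⟨c, hc, d, hd, hcd⟩ := Finset.one_lt_card.1 (show 1 < (Δᶜ.erase b).card by omega)
    rw [Finset.mem_erase, Finset.mem_compl] at hc hd
    refine ⟨swap b c * swap c d, ⟨(SS Δ).mul_mem (same_side (by tauto)) (same_side (by tauto)), ?_⟩,
      ?_⟩
    · show swap b c * swap c d ∈ alternatingGroup α
      rw [mem_alternatingGroup, Equiv.Perm.sign_mul, sign_swap (Ne.symm hc.1), sign_swap hcd]
      rfl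
    · rw [Perm.mul_apply, swap_apply_of_ne_of_ne (Ne.symm hc.1) (Ne.symm hd.1), swap_apply_left]
      exact hc.1

/-- a `π`-subgroup of the alternating group is conjugate into `PS Γ` under `D_π` -/
theorem D_cases {π : Set ℕ} (hn : 5 ≤ Fintype.card α) (hD : Cfsg.IsDPiGroup π (alternatingGroup α))
    (h2 : ∃ r s : ℕ, r.Prime ∧ s.Prime ∧ r ≠ s ∧ r ∈ π ∧ s ∈ π ∧ r ≤ Fintype.card α ∧
      s ≤ Fintype.card α)
    (hns : ∃ r : ℕ, r.Prime ∧ r ≤ Fintype.card α ∧ r ∉ π) :
    ∃ c : ℕ, (((Fintype.card α).Prime ∧ (∀ r : ℕ, r.Prime → r ≤ Fintype.card α →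
      (r ∈ π ↔ r < Fintype.card α)) ∧ c = 1) ∨
     (Fintype.card α = 7 ∧ P23 (Fintype.card α) π ∧ c = 3) ∨
     (Fintype.card α = 8 ∧ P23 (Fintype.card α) π ∧ c = 4)) ∧
     ∀ K : Subgroup (Perm α), K ≤ alternatingGroup α → Cfsg.IsPiSubgroup π K →
      ∃ Γ : Finset α, Γ.card = c ∧ K ≤ PS Γ := by
  obtain ⟨H, hH, hcov⟩ := D_imp hD
  obtain ⟨-, -, -, Γ, hΓ, hc⟩ := concl_of (map_subtype_le H) (hall_map.1 hH) h2 hns
  refine ⟨Γ.card, hc, fun K hKA hK => ?_⟩
  obtain ⟨g, hg⟩ := hcov (K.subgroupOf (alternatingGroup α)) (by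
    intro p hp hd
    rw [Nat.card_congr (subgroupOfEquivOfLe hKA).toEquiv] at hd
    exact hK p hp hd)
  refine ⟨Γ.map (g⁻¹ : alternatingGroup α).1.toEmbedding, by rw [Finset.card_map], fun x hx => ?_⟩
  have h3 := hg ⟨x, hKA hx⟩ (by rw [mem_subgroupOf]; exact hx)
  have h4 : ((g * ⟨x, hKA hx⟩ * g⁻¹ : alternatingGroup α) : Perm α) ∈
      H.map (alternatingGroup α).subtype := ⟨_, h3, rfl⟩
  rw [hΓ] at h4
  have h5 := (map_PS (g := (g⁻¹ : alternatingGroup α).1)).1 h4.1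
  have e : (g⁻¹ : alternatingGroup α).1 * ((g * ⟨x, hKA hx⟩ * g⁻¹ : alternatingGroup α) : Perm α) *
      ((g⁻¹ : alternatingGroup α).1)⁻¹ = x := by
    show (g.1)⁻¹ * (g.1 * x * (g.1)⁻¹) * ((g.1)⁻¹)⁻¹ = x
    group
  rwa [e] at h5

theorem D_prime {π : Set ℕ} (hn : 5 ≤ Fintype.card α) 
    (hp : (Fintype.card α).Prime) (hπ : ∀ r : ℕ, r.Prime → r ≤ Fintype.card α →
      (r ∈ π ↔ r < Fintype.card α))
    (h : ∀ K : Subgroup (Perm α), K ≤ alternatingGroup α → Cfsg.IsPiSubgroup π K →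
      ∃ Γ : Finset α, Γ.card = 1 ∧ K ≤ PS Γ) : False := by
  obtain ⟨Δ, -, hΔ⟩ := Finset.exists_subset_card_eq (s := (Finset.univ : Finset α)) (n := 2)
    (by rw [Finset.card_univ]; omega)
  obtain ⟨Γ, hΓ, hle⟩ := h (SS Δ ⊓ alternatingGroup α) inf_le_right (by
    intro p hp' hd
    have h1 := hd.trans (card_dvd_of_le (inf_le_left : SS Δ ⊓ alternatingGroup α ≤ SS Δ))
    rw [card_SS, hΔ] at h1
    rcases (Nat.Prime.dvd_mul hp').1 h1 with h2 | h2
    · have := (Nat.Prime.dvd_factorial hp').1 h2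
      exact (hπ p hp' (by omega)).2 (by omega)
    · have := (Nat.Prime.dvd_factorial hp').1 h2
      exact (hπ p hp' (by omega)).2 (by omega))
  obtain ⟨b, hb⟩ := Finset.card_eq_one.1 hΓ
  obtain ⟨x, hx, hxb⟩ := pair_moves hΔ hn b
  have h1 := hle hx
  rw [PS_eq_SS (by omega)] at h1
  have h2 := h1 b
  rw [hb, Finset.mem_singleton, Finset.mem_singleton] at h2
  exact hxb (h2.2 rfl)

end perm

theorem D_seven {π : Set ℕ} (hπ : P23 7 π)
    (h : ∀ K : Subgroup (Perm (Fin 7)), K ≤ alternatingGroup (Fin 7) → Cfsg.IsPiSubgroup π K →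
      ∃ Γ : Finset (Fin 7), Γ.card = 3 ∧ K ≤ PS Γ) : False := by
  let f : Fin 7 → Fin 3 := fun x => if x < 3 then 0 else if x < 6 then 1 else 2
  have hf : Function.Surjective f := by decide
  obtain ⟨Γ, hΓ, hle⟩ := h (WSf f ⊓ alternatingGroup (Fin 7)) inf_le_right (by
    intro p hp hd
    have h1 := hd.trans (card_dvd_of_le
      (inf_le_left : WSf f ⊓ alternatingGroup (Fin 7) ≤ WSf f))
    have h2 : p ≤ 3 := by
      rcases prime_dvd_WSf hf hp h1 with h2 | ⟨i, h2⟩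
      · simpa using h2
      · have h3 : ∀ i, Fintype.card {a // f a = i} ≤ 3 := by decide
        exact h2.trans (h3 i)
    exact (hπ p hp (by omega)).2 (prime_small hp h2 (by norm_num)))
  have h1 : swap 0 1 * swap 1 2 ∈ WSf f ⊓ alternatingGroup (Fin 7) := by
    refine ⟨?_, ?_⟩
    · show ∀ x y, _
      decide
    · show swap 0 1 * swap 1 2 ∈ alternatingGroup (Fin 7)
      rw [mem_alternatingGroup]; decide
  have h2 : swap 4 3 * swap 3 5 ∈ WSf f ⊓ alternatingGroup (Fin 7) := by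
    refine ⟨?_, ?_⟩
    · show ∀ x y, _
      decide
    · show swap 4 3 * swap 3 5 ∈ alternatingGroup (Fin 7)
      rw [mem_alternatingGroup]; decide
  have h3 : swap 0 3 * swap 1 4 * swap 2 5 * swap 0 1 ∈ WSf f ⊓ alternatingGroup (Fin 7) := by
    refine ⟨?_, ?_⟩
    · show ∀ x y, _
      decide
    · show swap 0 3 * swap 1 4 * swap 2 5 * swap 0 1 ∈ alternatingGroup (Fin 7)
      rw [mem_alternatingGroup]; decide
  have e1 := hle h1
  have e2 := hle h2
  have e3 := hle h3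
  refine six_false (a := 0) (b := 1) (c := 2) (d := 4) (e := 3) (f := 5) (w := 6) (Γ := Γ)
    (by simp) (by omega) (by rw [hΓ]; simp) ⟨by decide, by decide, by decide, e1, h1.2⟩
    ⟨by decide, by decide, by decide, e2, h2.2⟩ e3 (by decide) (by decide) (by decide)

theorem D_eight {π : Set ℕ} (hπ : P23 8 π)
    (h : ∀ K : Subgroup (Perm (Fin 8)), K ≤ alternatingGroup (Fin 8) → Cfsg.IsPiSubgroup π K →
      ∃ Γ : Finset (Fin 8), Γ.card = 4 ∧ K ≤ PS Γ) : False := by
  let f : Fin 8 → Fin 3 := fun x => if x < 3 then 0 else if x < 6 then 1 else 2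
  have hf : Function.Surjective f := by decide
  obtain ⟨Γ, hΓ, hle⟩ := h (WSf f ⊓ alternatingGroup (Fin 8)) inf_le_right (by
    intro p hp hd
    have h1 := hd.trans (card_dvd_of_le
      (inf_le_left : WSf f ⊓ alternatingGroup (Fin 8) ≤ WSf f))
    have h2 : p ≤ 3 := by
      rcases prime_dvd_WSf hf hp h1 with h2 | ⟨i, h2⟩
      · simpa using h2
      · have h3 : ∀ i, Fintype.card {a // f a = i} ≤ 3 := by decide
        exact h2.trans (h3 i)
    exact (hπ p hp (by omega)).2 (prime_small hp h2 (by norm_num)))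
  have h1 : swap 0 1 * swap 1 2 ∈ WSf f ⊓ alternatingGroup (Fin 8) := by
    refine ⟨?_, ?_⟩
    · show ∀ x y, _
      decide
    · show swap 0 1 * swap 1 2 ∈ alternatingGroup (Fin 8)
      rw [mem_alternatingGroup]; decide
  have h2 : swap 4 3 * swap 3 5 ∈ WSf f ⊓ alternatingGroup (Fin 8) := by
    refine ⟨?_, ?_⟩
    · show ∀ x y, _
      decide
    · show swap 4 3 * swap 3 5 ∈ alternatingGroup (Fin 8)
      rw [mem_alternatingGroup]; decide
  have h3 : swap 0 3 * swap 1 4 * swap 2 5 * swap 0 1 ∈ WSf f ⊓ alternatingGroup (Fin 8) := by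
    refine ⟨?_, ?_⟩
    · show ∀ x y, _
      decide
    · show swap 0 3 * swap 1 4 * swap 2 5 * swap 0 1 ∈ alternatingGroup (Fin 8)
      rw [mem_alternatingGroup]; decide
  have e1 := hle h1
  have e2 := hle h2
  have e3 := hle h3
  refine six_false (a := 0) (b := 1) (c := 2) (d := 4) (e := 3) (f := 5) (w := 6) (Γ := Γ)
    (by simp) (by omega) (by rw [hΓ]; simp) ⟨by decide, by decide, by decide, e1, h1.2⟩
    ⟨by decide, by decide, by decide, e2, h2.2⟩ e3 (by decide) (by decide) (by decide)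

end H36.HS
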