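import Cfsg.Agent.Lib.H36.HSb

set_option autoImplicit false

namespace H36.HS

open Subgroup Equiv Equiv.Perm

universe u

variable {α : Type u} [Fintype α] [DecidableEq α]

/-- `M` has a subgroup transitive on `V` and trivial off `V` -/
def TV (M : Subgroup (Perm α)) (V : Finset α) : Prop :=
  ∃ K ≤ M, (∀ g ∈ K, ∀ x, x ∉ V → g x = x) ∧ ∀ x ∈ V, ∀ y ∈ V, ∃ g ∈ K, g x = y

theorem TV.map {M : Subgroup (Perm α)} {V : Finset α} (h : TV M V) {g : Perm α} (hg : g ∈ M) :
    TV M (V.map g.toEmbedding) := by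
  obtain ⟨K, hKM, h1, h2⟩ := h
  refine ⟨K.map (MulAut.conj g).toMonoidHom, ?_, ?_, ?_⟩
  · rintro _ ⟨k, hk, rfl⟩
    exact M.mul_mem (M.mul_mem hg (hKM hk)) (M.inv_mem hg)
  · rintro _ ⟨k, hk, rfl⟩ x hx
    have : g⁻¹ x ∉ V := by
      intro h; apply hx
      rw [Finset.mem_map]
      exact ⟨_, h, by simp⟩
    have h3 := h1 k hk _ this
    show (g * k * g⁻¹) x = x
    rw [Perm.mul_apply, Perm.mul_apply, h3]
    simp
  · intro x hx y hy
    rw [Finset.mem_map] at hx hy
    obtain ⟨a, ha, rfl⟩ := hx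
    obtain ⟨b, hb, rfl⟩ := hy
    obtain ⟨k, hk, hkab⟩ := h2 a ha b hb
    refine ⟨g * k * g⁻¹, ⟨k, hk, rfl⟩, ?_⟩
    simp [Perm.mul_apply, hkab]

theorem TV.union {M : Subgroup (Perm α)} {V W : Finset α} (h : TV M V) (h' : TV M W)
    {z : α} (hzV : z ∈ V) (hzW : z ∈ W) : TV M (V ∪ W) := by
  obtain ⟨K, hKM, h1, h2⟩ := h
  obtain ⟨L, hLM, h3, h4⟩ := h'
  refine ⟨K ⊔ L, sup_le hKM hLM, ?_, ?_⟩
  · intro g hg
    have : K ⊔ L ≤ fixingSubgroup (Perm α) (((V ∪ W : Finset α) : Set α)ᶜ) := by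
      refine sup_le ?_ ?_
      · intro k hk
        rw [mem_fixingSubgroup_iff]
        intro x hx
        refine h1 k hk x (fun hxV => hx ?_)
        simp [hxV]
      · intro k hk
        rw [mem_fixingSubgroup_iff]
        intro x hx
        refine h3 k hk x (fun hxV => hx ?_)
        simp [hxV]
    intro x hx
    exact (mem_fixingSubgroup_iff (Perm α)).1 (this hg) x (by simpa using hx)
  · have key : ∀ x ∈ V ∪ W, ∃ g ∈ K ⊔ L, g x = z := by
      intro x hx
      rcases Finset.mem_union.1 hx with hx | hx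
      · obtain ⟨g, hg, hgx⟩ := h2 x hx z hzV
        exact ⟨g, (le_sup_left : K ≤ K ⊔ L) hg, hgx⟩
      · obtain ⟨g, hg, hgx⟩ := h4 x hx z hzW
        exact ⟨g, (le_sup_right : L ≤ K ⊔ L) hg, hgx⟩
    intro x hx y hy
    obtain ⟨g, hg, hgx⟩ := key x hx
    obtain ⟨k, hk, hky⟩ := key y hy
    refine ⟨k⁻¹ * g, mul_mem (inv_mem hk) hg, ?_⟩
    rw [Perm.mul_apply, hgx, ← hky]; simp

theorem TV.card_dvd {M : Subgroup (Perm α)} {V : Finset α} (h : TV M V) (hV : V.Nonempty) :
    V.card ∣ Nat.card M := by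
  obtain ⟨K, hKM, h1, h2⟩ := h
  obtain ⟨x, hx⟩ := hV
  have h3 : Nat.card (MulAction.orbit K x) = V.card := by
    have : (MulAction.orbit K x) = (V : Set α) := by
      ext y
      constructor
      · rintro ⟨k, rfl⟩
        by_contra hn
        have h5 := h1 k⁻¹ (K.inv_mem k.2) _ hn
        have h6 : (k : Perm α)⁻¹ ((k : Perm α) x) = x := by simp
        have h7 : (k : Perm α) x = x := by
          have : (k : Perm α)⁻¹ ((k : Perm α) x) = (k : Perm α) x := h5
          rw [h6] at this; exact this.symm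
        apply hn
        show (k : Perm α) x ∈ (V : Set α)
        rw [h7]; exact hx
      · intro hy
        obtain ⟨g, hg, hgx⟩ := h2 x hx y hy
        exact ⟨⟨g, hg⟩, hgx⟩
    rw [this]; simp
  rw [← h3]
  refine dvd_trans ?_ (card_dvd_of_le hKM)
  have h4 : Nat.card (MulAction.orbit K x) = (MulAction.stabilizer K x).index :=
    (MulAction.index_stabilizer K x).symm
  rw [h4]
  exact index_dvd_card _

theorem TV.cycle {M : Subgroup (Perm α)} {c : Perm α} (hcM : c ∈ M) (hc : c.IsCycle) :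
    TV M c.support := by
  refine ⟨zpowers c, by rwa [zpowers_le], ?_, ?_⟩
  · rintro _ ⟨i, rfl⟩ x hx
    rw [notMem_support] at hx
    exact Equiv.Perm.zpow_apply_eq_self_of_apply_eq_self hx i
  · intro x hx y hy
    rw [mem_support] at hx hy
    obtain ⟨i, hi⟩ := hc.exists_zpow_eq hx hy
    exact ⟨c ^ i, zpow_mem_zpowers _ _, hi⟩

theorem cycle_inv {g : Perm α} (hg : g.IsCycle) {V : Finset α} (hV : ∀ x ∈ V, g x ∈ V)
    {z : α} (hz : z ∈ V) (hzg : z ∈ g.support) {x : α} (hx : x ∈ g.support) : x ∈ V := by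
  rw [mem_support] at hzg hx
  obtain ⟨i, hi⟩ := hg.exists_pow_eq hzg hx
  have : ∀ i : ℕ, (g ^ i) z ∈ V := by
    intro i
    induction i with
    | zero => simpa using hz
    | succ i ih => rw [pow_succ', Perm.mul_apply]; exact hV _ ih
  rw [← hi]; exact this i

theorem odd_false {M : Subgroup (Perm α)} (hodd : ¬ 2 ∣ Nat.card M) {c : Perm α} (hcM : c ∈ M)
    (hc : c.IsCycle) (hq : c.support.card.Prime) {V0 : Finset α} (hV0 : TV M V0)
    {z0 : α} (hz0 : z0 ∈ V0) (hz0' : z0 ∈ c.support)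
    {x0 : α} (hx0 : x0 ∈ c.support) (hx0' : x0 ∉ V0) (h2 : 2 ≤ V0.card) : False := by
  classical
  set q := c.support.card with hqdef
  have hord : orderOf c = q := hc.orderOf
  set P : Finset α → Prop := fun V => V0 ⊆ V ∧ V ⊆ V0 ∪ c.support ∧ (∃ x ∈ c.support, x ∉ V) ∧ TV M V
    with hP
  obtain ⟨V, hV, hmax⟩ := Finset.exists_max_image (Finset.univ.filter P) Finset.card
    ⟨V0, by
      simp only [Finset.mem_filter, Finset.mem_univ, true_and]
      exact ⟨subset_rfl, Finset.subset_union_left, ⟨x0, hx0, hx0'⟩, hV0⟩⟩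
  simp only [Finset.mem_filter, Finset.mem_univ, true_and] at hV hmax
  obtain ⟨hV1, hV2, ⟨x1, hx1, hx1V⟩, hV4⟩ := hV
  have hzV : z0 ∈ V := hV1 hz0
  have hcyc : ∀ i : ℕ, 0 < i → i < q → (c ^ i).IsCycle ∧ (c ^ i).support = c.support := by
    intro i hi hiq
    constructor
    · exact hc.isCycle_pow_pos_of_lt_prime_order (by rw [hord]; exact hq) i hi (by rwa [hord])
    · exact hc.support_pow_of_pos_of_lt_orderOf hi (by rwa [hord])
  -- (U)
  have hU : ∀ i : ℕ, 0 < i → i < q → (∃ z, z ∈ V ∧ z ∈ V.map (c ^ i).toEmbedding) →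
      ∀ x ∈ c.support, x ∈ V ∪ V.map (c ^ i).toEmbedding := by
    rintro i hi hiq ⟨z, hz, hz'⟩
    by_contra hcon
    push Not at hcon
    obtain ⟨x, hx, hxn⟩ := hcon
    obtain ⟨hgc, hgs⟩ := hcyc i hi hiq
    have hPU : P (V ∪ V.map (c ^ i).toEmbedding) := by
      refine ⟨hV1.trans Finset.subset_union_left, ?_, ⟨x, hx, hxn⟩, ?_⟩
      · refine Finset.union_subset hV2 ?_
        intro y hy
        rw [Finset.mem_map] at hy
        obtain ⟨v, hv, rfl⟩ := hy
        rw [Equiv.coe_toEmbedding]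
        by_cases h5 : v ∈ (c ^ i).support
        · apply Finset.mem_union_right
          rw [← hgs]
          exact apply_mem_support.2 h5
        · rw [notMem_support] at h5
          rw [h5]; exact hV2 hv
      · exact hV4.union (hV4.map (M.pow_mem hcM i)) hz hz'
    have h6 := hmax _ hPU
    have h7 : V ∪ V.map (c ^ i).toEmbedding = V :=
      (Finset.eq_of_subset_of_card_le Finset.subset_union_left h6).symm
    have h8 : ∀ y ∈ V, (c ^ i) y ∈ V := by
      intro y hy
      rw [← h7]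
      apply Finset.mem_union_right
      rw [Finset.mem_map]
      exact ⟨y, hy, rfl⟩
    exact hx1V (cycle_inv hgc h8 hzV (by rw [hgs]; exact hz0') (by rw [hgs]; exact hx1))
  -- powers moving x to y
  have hmove : ∀ x ∈ c.support, ∀ y ∈ c.support, x ≠ y →
      ∃ i : ℕ, 0 < i ∧ i < q ∧ (c ^ i) x = y := by
    intro x hx y hy hxy
    rw [mem_support] at hx hy
    obtain ⟨i, hi⟩ := hc.exists_pow_eq hx hy
    refine ⟨i % q, ?_, Nat.mod_lt _ hq.pos, ?_⟩
    · rcases Nat.eq_zero_or_pos (i % q) with h | h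
      · exfalso
        rw [← pow_mod_orderOf, hord, h, pow_zero] at hi
        exact hxy hi
      · exact h
    · rw [← hord, pow_mod_orderOf]; exact hi
  -- (N)
  have hN : ∀ i : ℕ, 0 < i → i < q → ∃ z, z ∈ V ∧ z ∈ V.map (c ^ i).toEmbedding := by
    by_cases hA : ∃ z ∈ V, z ∉ c.support
    · obtain ⟨z, hz, hzc⟩ := hA
      intro i hi hiq
      refine ⟨z, hz, ?_⟩
      rw [Finset.mem_map]
      refine ⟨z, hz, ?_⟩
      rw [← (hcyc i hi hiq).2, notMem_support] at hzc
      exact hzc
    · push Not at hA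
      have hV2' : 1 < V.card := lt_of_lt_of_le (by omega) (Finset.card_le_card hV1)
      obtain ⟨x, hx, y, hy, hxy⟩ := Finset.one_lt_card.1 hV2'
      obtain ⟨j, hj0, hjq, hjxy⟩ := hmove x (hA x hx) y (hA y hy) hxy
      have hyj : y ∈ V.map (c ^ j).toEmbedding := by
        rw [Finset.mem_map]; exact ⟨x, hx, hjxy⟩
      have h3 := hU j hj0 hjq ⟨y, hy, hyj⟩
      have h4 : c.support.card ≤ (V ∪ V.map (c ^ j).toEmbedding).card := Finset.card_le_card h3
      have h5 := Finset.card_union_add_card_inter V (V.map (c ^ j).toEmbedding)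
      rw [Finset.card_map] at h5
      have h6 : 0 < (V ∩ V.map (c ^ j).toEmbedding).card :=
        Finset.card_pos.2 ⟨y, Finset.mem_inter.2 ⟨hy, hyj⟩⟩
      intro i hi hiq
      by_contra hno
      push Not at hno
      have h7 : Disjoint V (V.map (c ^ i).toEmbedding) := by
        rw [Finset.disjoint_left]; exact hno
      have h8 := Finset.card_union_of_disjoint h7
      rw [Finset.card_map] at h8
      have h9 : V ∪ V.map (c ^ i).toEmbedding ⊆ c.support := by
        refine Finset.union_subset hA ?_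
        intro y hy
        rw [Finset.mem_map] at hy
        obtain ⟨v, hv, rfl⟩ := hy
        rw [← (hcyc i hi hiq).2]
        exact apply_mem_support.2 (by rw [(hcyc i hi hiq).2]; exact hA v hv)
      have h10 := Finset.card_le_card h9
      omega
  -- (C)
  have huniq : ∀ x ∈ c.support, x ∉ V → x = x1 := by
    intro x hx hxV
    by_contra hne
    obtain ⟨i, hi, hiq, hixy⟩ := hmove x hx x1 hx1 hne
    have h3 := hU i hi hiq (hN i hi hiq) x1 hx1
    rcases Finset.mem_union.1 h3 with h4 | h4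
    · exact hx1V h4
    · rw [Finset.mem_map] at h4
      obtain ⟨v, hv, hvx⟩ := h4
      have : v = x := (c ^ i).injective (hvx.trans hixy.symm)
      exact hxV (this ▸ hv)
  have hT : TV M (V ∪ c.support) := hV4.union (TV.cycle hcM hc) hzV hz0'
  have hcard : (V ∪ c.support).card = V.card + 1 := by
    have : V ∪ c.support = insert x1 V := by
      ext y
      rw [Finset.mem_union, Finset.mem_insert]
      constructor
      · rintro (h | h)
        · exact Or.inr h
        · by_cases hy : y ∈ V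
          · exact Or.inr hy
          · exact Or.inl (huniq y h hy)
      · rintro (rfl | h)
        · exact Or.inr hx1
        · exact Or.inl h
    rw [this, Finset.card_insert_of_notMem hx1V]
  have hd1 := hV4.card_dvd ⟨z0, hzV⟩
  have hd2 := hT.card_dvd ⟨z0, Finset.mem_union_left _ hzV⟩
  rw [hcard] at hd2
  rcases Nat.even_or_odd V.card with h | h
  · exact hodd (h.two_dvd.trans hd1)
  · have h9 : 2 ∣ V.card + 1 := by
      obtain ⟨k, hk⟩ := h
      omega
    exact hodd (h9.trans hd2)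

end H36.HS
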