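import Cfsg.Agent.Lib.H36.PX0
import Cfsg.Agent.Lib.H6.FT345
import Cfsg.Agent.Lib.H52.FC1
import Cfsg.Agent.Lib.H72.PYa

/-! S3814: step g of piece PA. -/

set_option autoImplicit false

namespace H36.PAg

open Subgroup H88.F4 H36.PX

universe u

variable {G : Type u} [Group G]

theorem le_norm_sup {K P Q : Subgroup G} (h1 : K ≤ normalizer (P : Set G)) (h2 : K ≤ normalizer (Q : Set G)) :
    K ≤ normalizer ((P ⊔ Q : Subgroup G) : Set G) := by
  apply le_norm_of
  intro b hb w hw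
  have h3 : (P ⊔ Q).map (MulAut.conj b).toMonoidHom = P ⊔ Q := by
    rw [Subgroup.map_sup]
    have e1 : P.map (MulAut.conj b).toMonoidHom = P := by
      apply le_antisymm
      · rintro _ ⟨z, hz, rfl⟩
        exact conj_mem (h1 hb) hz
      · intro z hz
        exact ⟨b⁻¹ * z * b, conj_mem' (h1 hb) hz, by
          show b * (b⁻¹ * z * b) * b⁻¹ = z
          group⟩
    have e2 : Q.map (MulAut.conj b).toMonoidHom = Q := by
      apply le_antisymm
      · rintro _ ⟨z, hz, rfl⟩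
        exact conj_mem (h2 hb) hz
      · intro z hz
        exact ⟨b⁻¹ * z * b, conj_mem' (h2 hb) hz, by
          show b * (b⁻¹ * z * b) * b⁻¹ = z
          group⟩
    rw [e1, e2]
  rw [← h3]
  exact ⟨w, hw, rfl⟩

theorem cyc_comm {Q : Subgroup G} (hQ : IsCyclic Q) {x y : G} (hx : x ∈ Q) (hy : y ∈ Q) : Commute x y := by
  haveI := hQ
  letI : CommGroup Q := IsCyclic.commGroup
  exact congrArg Subtype.val (mul_comm (⟨x, hx⟩ : Q) ⟨y, hy⟩)

theorem uniq_order [Finite G] {t : ℕ} (ht : t.Prime) {Q : Subgroup G} (hQ : IsCyclic Q) {x y : G} (hx : x ∈ Q)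
    (hy : y ∈ Q) (hxo : orderOf x = t) (hyo : orderOf y = t) : y ∈ zpowers x := by
  by_contra h
  apply H6.FT.pair_not_cyclic ht hxo hyo (cyc_comm hQ hx hy) h
  haveI := hQ
  have hle : closure ({x, y} : Set G) ≤ Q := by
    rw [closure_le]
    rintro a (rfl | ha)
    · exact hx
    · rw [Set.mem_singleton_iff] at ha
      subst ha
      exact hy
  exact isCyclic_of_injective (Subgroup.inclusion hle) (Subgroup.inclusion_injective hle)

/-- coprime action on a cyclic group -/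
theorem cyc_cop [Finite G] {q r : ℕ} (hq : q.Prime) (hr : r.Prime) (hqr : q ≠ r) {Q : Subgroup G} (hQ : IsCyclic Q)
    (hQq : IsPGroup q Q) {z n : G} (hzo : orderOf z = r) (hzQ : z ∈ normalizer (Q : Set G)) (hn : n ∈ Q)
    (hno : orderOf n = q) (hzn : Commute z n) : ∀ x ∈ Q, Commute z x := by
  intro x hx
  by_contra hc
  set c : G := z * x * z⁻¹ * x⁻¹ with hcd
  have hcQ : c ∈ Q := Q.mul_mem (conj_mem hzQ hx) (inv_mem hx)
  have hc1 : c ≠ 1 := by
    intro h1
    apply hc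
    have h2 : z * x * z⁻¹ = x := mul_inv_eq_one.1 h1
    exact mul_inv_eq_iff_eq_mul.1 h2
  obtain ⟨m, hm⟩ := H36.PX.exists_order hq hQq hcQ hc1
  have hmz : c ^ m ∈ zpowers n := uniq_order hq hQ hn (Q.pow_mem hcQ m) hno hm
  have hcz : Commute z (c ^ m) := by
    obtain ⟨j, hj⟩ := Subgroup.mem_zpowers_iff.1 hmz
    rw [← hj]
    exact hzn.zpow_right j
  have hxm : z * x ^ m * z⁻¹ = c ^ m * x ^ m := by
    have h1 : z * x * z⁻¹ = c * x := by rw [hcd]; group
    have h2 : z * x ^ m * z⁻¹ = (z * x * z⁻¹) ^ m := by rw [conj_pow]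
    rw [h2, h1, (cyc_comm hQ hcQ hx).mul_pow]
  have hk : ∀ k : ℕ, z ^ k * x ^ m * (z ^ k)⁻¹ = (c ^ m) ^ k * x ^ m := by
    intro k
    induction k with
    | zero => simp
    | succ k ih =>
      have e1 : z ^ (k + 1) * x ^ m * (z ^ (k + 1))⁻¹ = z * (z ^ k * x ^ m * (z ^ k)⁻¹) * z⁻¹ := by
        rw [pow_succ']; group
      rw [e1, ih]
      have e2 : z * ((c ^ m) ^ k * x ^ m) * z⁻¹ = (z * (c ^ m) ^ k * z⁻¹) * (z * x ^ m * z⁻¹) := by group
      have e3 : z * (c ^ m) ^ k * z⁻¹ = (c ^ m) ^ k := by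
        rw [(hcz.pow_right k).eq, mul_inv_cancel_right]
      rw [e2, e3, hxm, pow_succ, mul_assoc]
  have h1 := hk r
  have hzr : z ^ r = 1 := by rw [← hzo, pow_orderOf_eq_one]
  rw [hzr, one_mul, inv_one, mul_one] at h1
  have h2 : (c ^ m) ^ r = 1 := by
    have : (c ^ m) ^ r * x ^ m = 1 * x ^ m := by rw [← h1, one_mul]
    exact mul_right_cancel this
  have h3 := orderOf_dvd_of_pow_eq_one h2
  rw [hm] at h3
  exact hqr ((Nat.prime_dvd_prime_iff_eq hq hr).1 h3)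

theorem pag [Finite G] {p : ℕ} {τ : Finset ℕ} {V K : Subgroup G} (h : Env p τ V K) {q r : ℕ} (hq : q ∈ τ)
    (hr : r ∈ τ) (hqr : q ≠ r) (n : G) (hn : n ∈ K) (hno : orderOf n = q)
    (hKn : K ≤ normalizer (zpowers n : Set G))
    (hQ : ∀ Q ≤ K, K ≤ normalizer (Q : Set G) → IsPGroup q Q → IsCyclic Q)
    (hR : ∀ R ≤ K, K ≤ normalizer (R : Set G) → IsPGroup r R → IsCyclic R)
    (htriv : ∀ t : ℕ, t.Prime → t ≠ q → t ≠ r → ∀ P ≤ K, K ≤ normalizer (P : Set G) → IsPGroup t P → P = ⊥) :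
    r ∣ q - 1 := by
  by_contra hnd
  have hqp := (h.hτp q hq).1
  have hrp := (h.hτp r hr).1
  haveI : Fact r.Prime := ⟨hrp⟩
  haveI : Fact q.Prime := ⟨hqp⟩
  have key : ∀ x ∈ K, orderOf x = r → ∃ P : Subgroup G, P ≤ K ∧ K ≤ normalizer (P : Set G) ∧ IsPGroup r P ∧ x ∈ P := by
    intro x hx hxo
    have hxn : Commute x n := by
      by_contra hc
      exact hnd (H72.PYa.dvd_sub_one hqp hrp hno hxo (conj_mem (hKn hx) (mem_zpowers n)) hc)
    have h8 := H52.FC.fc K h.solv x hx (by rw [hxo]; exact hrp)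
    rw [hxo] at h8
    apply h8
    · intro t ht htr P hP hKP hPt w hw
      by_cases htq : t = q
      · subst htq
        have hnp : IsPGroup t (zpowers n) := H72.PYa.zpowers_pgroup ht hno
        have hPn : IsPGroup t (P ⊔ zpowers n : Subgroup G) :=
          IsPGroup.to_sup_of_normal_right' hPt hnp (hP.trans hKn)
        have hcy := hQ (P ⊔ zpowers n) (sup_le hP ((zpowers_le).2 hn)) (le_norm_sup hKP hKn) hPn
        exact cyc_cop ht hrp hqr hcy hPn hxo (le_norm_sup hKP hKn hx)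
          ((le_sup_right : zpowers n ≤ P ⊔ zpowers n) (mem_zpowers n)) hno hxn w
          ((le_sup_left : P ≤ P ⊔ zpowers n) hw)
      · have h1 := htriv t ht htq htr P hP hKP hPt
        rw [h1, Subgroup.mem_bot] at hw
        rw [hw]; exact Commute.one_right x
    · intro P hP hKP hPr
      exact hR P hP hKP hPr
  obtain ⟨x, hx, y, hy, hxo, hyo, hxy, hyx⟩ := h.r2 r hr
  obtain ⟨P, hP, hKP, hPr, hxP⟩ := key x hx hxo
  obtain ⟨Q, hQ', hKQ, hQr, hyQ⟩ := key y hy hyo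
  have hJ : IsPGroup r (P ⊔ Q : Subgroup G) := IsPGroup.to_sup_of_normal_right' hPr hQr (hP.trans hKQ)
  exact hyx (uniq_order hrp (hR _ (sup_le hP hQ') (le_norm_sup hKP hKQ) hJ)
    ((le_sup_left : P ≤ P ⊔ Q) hxP) ((le_sup_right : Q ≤ P ⊔ Q) hyQ) hxo hyo)

end H36.PAg
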