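import Cfsg.Agent.Lib.H36.PX0
import Cfsg.Agent.Lib.H88.F4a
import Cfsg.Agent.Lib.H6.FT345
import Cfsg.Agent.Lib.H52.FC1

/-! S3814: piece PX. -/

set_option autoImplicit false

namespace H36.PX

open Subgroup H88.F4

universe u

variable {G : Type u} [Group G] [Finite G]

theorem tool1 : T1 G := fun hp hq hr hpq hpr hqr V Q x hV hQ hx hxV hxQ hQV hex hf hfa =>
  H88.F4.hhp1 hp hq hr hpq hpr hqr V Q x hV hQ hx hxV hxQ hQV hex hf hfa

theorem tool3 : T3 G := fun ht E W hE hEW hW hW1 => H6.FT.r2_fix ht E W hE hEW hW hW1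

theorem tool4 : T4 G := fun ht P hP h => H6.FT.not_r2 ht P hP h

theorem tool5 : T5 G := fun K D hK hD hn h1 => H6.FT.minn K D hK hD hn h1

theorem tool8 : T8 G := fun K hK x hx ho h hc => H52.FC.fc K hK x hx ho h hc

theorem px {p q r s : ℕ} (hp : p.Prime) (hq : q.Prime) (hr : r.Prime) (hs : s.Prime) (hrs : r ≠ s) (hpr : p ≠ r)
    (hps : p ≠ s) (hqr : q ≠ r) (hqs : q ≠ s) (B V N : Subgroup G) (hB : Group.IsSolvable B)
    (hc : ∀ t : ℕ, t.Prime → t ∣ Nat.card B → t = r ∨ t = s) (hV : Cfsg.IsElementaryAbelian p V)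
    (hN : Cfsg.IsElementaryAbelian q N) (hBV : B ≤ normalizer (V : Set G)) (hBN : B ≤ normalizer (N : Set G))
    (hV1 : V ≠ ⊥) (hN1 : N ≠ ⊥) (hVm : ∀ W ≤ V, W ≠ ⊥ → B ≤ normalizer (W : Set G) → W = V)
    (hNm : ∀ W ≤ N, W ≠ ⊥ → B ≤ normalizer (W : Set G) → W = N)
    (t1 : ∀ x ∈ B, (orderOf x).Prime → Fpf x V ∨ Fpf x N)
    (t2 : ∀ x ∈ B, ∀ y ∈ B, orderOf x = r → orderOf y = s → Commute x y →
      (∀ v ∈ V, Commute x v → Commute y v → v = 1) ∧ (∀ v ∈ N, Commute x v → Commute y v → v = 1))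
    (hr2 : R2 r B) (hs2 : R2 s B) : False :=
  px_of tool1 tool3 tool4 tool5 tool8 hp hq hr hs hrs hpr hps hqr hqs B V N hB hc hV hN hBV hBN hV1 hN1 hVm hNm t1
    t2 hr2 hs2

end H36.PX
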