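import Cfsg.Agent.Lib.H26.GenFitting
import Cfsg.Agent.Lib.H26.PxQ
import Cfsg.Agent.Lib.H1.Frat

/-! `p`-elements of a group `X` with `F*(X) = O_p(X)`, acting "nilpotently" on `O_p(X)`. -/

set_option autoImplicit false

namespace H36.QuadSquare

open Cfsg Subgroup

variable {X : Type*} [Group X]

/-- the subgroup generated by the `p`-th powers of the elements of `N` -/
def pw (p : ℕ) (N : Subgroup X) : Subgroup X := Subgroup.closure ((fun n : X => n ^ p) '' (N : Set X))

theorem pow_mem_pw {p : ℕ} {N : Subgroup X} {n : X} (hn : n ∈ N) : n ^ p ∈ pw p N :=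
  Subgroup.subset_closure ⟨n, hn, rfl⟩

theorem pw_le (p : ℕ) (N : Subgroup X) : pw p N ≤ N := by
  rw [pw, Subgroup.closure_le]
  rintro _ ⟨n, hn, rfl⟩
  exact N.pow_mem hn p

theorem closure_normal {S : Set X} (h : ∀ s ∈ S, ∀ g : X, g * s * g⁻¹ ∈ Subgroup.closure S) :
    (Subgroup.closure S).Normal := by
  constructor
  intro n hn g
  have h1 : (Subgroup.closure S).map (MulAut.conj g).toMonoidHom ≤ Subgroup.closure S := by
    rw [Subgroup.map_le_iff_le_comap, Subgroup.closure_le]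
    intro s hs
    exact h s hs g
  exact h1 ⟨n, hn, rfl⟩

instance pw_normal (p : ℕ) (N : Subgroup X) [hN : N.Normal] : (pw p N).Normal := by
  apply closure_normal
  rintro _ ⟨n, hn, rfl⟩ g
  have : g * n ^ p * g⁻¹ = (g * n * g⁻¹) ^ p := (conj_pow).symm
  show g * n ^ p * g⁻¹ ∈ _
  rw [this]
  exact pow_mem_pw (hN.conj_mem n hn g)

theorem pw_lt [Finite X] {p : ℕ} [hp : Fact p.Prime] {N : Subgroup X} (hN : IsPGroup p N) (hne : N ≠ ⊥) :
    pw p N < N := by
  refine lt_of_le_of_ne (pw_le p N) ?_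
  intro heq
  have hnt : (⊥ : Subgroup N) ≠ ⊤ := by
    intro h
    apply hne
    rw [Subgroup.eq_bot_iff_forall]
    intro x hx
    have : (⟨x, hx⟩ : N) ∈ (⊥ : Subgroup N) := by rw [h]; trivial
    exact congrArg Subtype.val (Subgroup.mem_bot.mp this)
  obtain ⟨M, hM, -⟩ := (eq_top_or_exists_le_coatom (⊥ : Subgroup N)).resolve_left hnt
  have h1 : N ≤ M.map N.subtype := by
    refine le_trans heq.ge ?_
    rw [pw, Subgroup.closure_le]
    rintro _ ⟨n, hn, rfl⟩
    exact ⟨⟨n, hn⟩ ^ p, H1.Frat.pow_mem_of_isCoatom hN hM ⟨n, hn⟩, rfl⟩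
  apply hM.1
  rw [eq_top_iff]
  rintro ⟨x, hx⟩ _
  obtain ⟨y, hy, hyx⟩ := h1 hx
  have : y = ⟨x, hx⟩ := Subtype.ext hyx
  rwa [← this]

/-- the elements acting trivially on `N / K` (`N`, `K` normal) form a normal subgroup -/
def actTriv (N K : Subgroup X) [N.Normal] [K.Normal] : Subgroup X where
  carrier := {y | ∀ n ∈ N, y * n * y⁻¹ * n⁻¹ ∈ K}
  one_mem' := by
    intro n _
    have : (1 : X) * n * 1⁻¹ * n⁻¹ = 1 := by group
    rw [this]; exact K.one_mem
  mul_mem' := by
    intro a b ha hb n hn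
    have h1 : a * b * n * (a * b)⁻¹ * n⁻¹ = (a * (b * n * b⁻¹ * n⁻¹) * a⁻¹) * (a * n * a⁻¹ * n⁻¹) := by group
    rw [h1]
    exact K.mul_mem (Subgroup.Normal.conj_mem inferInstance _ (hb n hn) a) (ha n hn)
  inv_mem' := by
    intro a ha n hn
    have h2 : a⁻¹ * n * a ∈ N := by
      have := (inferInstance : N.Normal).conj_mem n hn a⁻¹
      simpa using this
    have h1 : a⁻¹ * n * a⁻¹⁻¹ * n⁻¹ = (a * (a⁻¹ * n * a) * a⁻¹ * (a⁻¹ * n * a)⁻¹)⁻¹ := by group
    rw [h1]
    exact K.inv_mem (ha _ h2)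

instance actTriv_normal (N K : Subgroup X) [hN : N.Normal] [hK : K.Normal] : (actTriv N K).Normal := by
  constructor
  intro a ha g n hn
  have h2 : g⁻¹ * n * g ∈ N := by
    have := hN.conj_mem n hn g⁻¹
    simpa using this
  have h1 : g * a * g⁻¹ * n * (g * a * g⁻¹)⁻¹ * n⁻¹ =
      g * (a * (g⁻¹ * n * g) * a⁻¹ * (g⁻¹ * n * g)⁻¹) * g⁻¹ := by group
  rw [h1]
  exact hK.conj_mem _ (ha _ h2) g

/-- If `Y ⊴ X` acts trivially on `N / N^p` for each normal `p`-subgroup `N` of `X`, and `C_X(O_p(X)) ≤ O_p(X)`,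
then `Y ≤ O_p(X)`. -/
theorem le_pCore_of_actTriv [Finite X] {p : ℕ} [hp : Fact p.Prime]
    (hX : generalizedFittingSubgroup X = pCore p X) (Y : Subgroup X) [hYn : Y.Normal]
    (hY : ∀ N : Subgroup X, N.Normal → IsPGroup p N → ∀ y ∈ Y, ∀ n ∈ N, y * n * y⁻¹ * n⁻¹ ∈ pw p N) :
    Y ≤ pCore p X := by
  have hC := H26.GenFitting.gFitting_eq_pCore_iff.mp hX
  -- `p'`-elements of `Y` centralize every normal `p`-subgroup
  have key : ∀ k : ℕ, ∀ N : Subgroup X, Nat.card N = k → N.Normal → IsPGroup p N →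
      ∀ y ∈ Y, (orderOf y).Coprime p → ∀ n ∈ N, y * n = n * y := by
    intro k
    induction k using Nat.strong_induction_on with
    | _ k ih =>
    intro N hk hNn hNp y hy hyo n hn
    by_cases hb : N = ⊥
    · rw [hb, Subgroup.mem_bot] at hn
      rw [hn]; group
    · have hlt := pw_lt hNp hb
      have hcard : Nat.card (pw p N) < k := by
        rw [← hk]
        refine lt_of_le_of_ne (Subgroup.card_le_of_le hlt.le) ?_
        intro h
        exact hlt.ne (Subgroup.eq_of_le_of_card_ge hlt.le h.ge)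
      have h1 := ih _ hcard (pw p N) rfl inferInstance (hNp.to_le hlt.le) y hy hyo
      have h2 := hY N hNn hNp y hy n hn
      exact H26.PxQ.commute_of_commute_commutator hNp hyo (hlt.le h2) (h1 _ h2)
  have hYp : IsPGroup p Y := by
    rw [IsPGroup.iff_orderOf]
    intro y
    -- write the order
    have hpos : 0 < orderOf (y : X) := orderOf_pos _
    set a := (orderOf (y : X)).factorization p with ha
    have hz : (orderOf ((y : X) ^ p ^ a)).Coprime p := by
      rw [orderOf_pow, Nat.gcd_eq_right (Nat.ordProj_dvd _ _)]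
      exact (Nat.coprime_ordCompl hp.out hpos.ne').symm
    have hzY : (y : X) ^ p ^ a ∈ Y := Y.pow_mem y.2 _
    have h3 : (y : X) ^ p ^ a ∈ pCore p X := by
      apply hC
      rw [Subgroup.mem_centralizer_iff]
      intro n hn
      exact (key _ (pCore p X) rfl inferInstance (H1.Cores.isPGroup_pCore p) _ hzY hz n hn).symm
    have h4 : (y : X) ^ p ^ a = 1 := by
      obtain ⟨m, hm⟩ := IsPGroup.iff_orderOf.mp (H1.Cores.isPGroup_pCore (G := X) p) ⟨_, h3⟩
      rw [Subgroup.orderOf_mk] at hm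
      rw [hm] at hz
      rcases Nat.eq_zero_or_pos m with h0 | h0
      · rw [h0, pow_zero] at hm
        exact orderOf_eq_one_iff.mp hm
      · exfalso
        have := Nat.Coprime.coprime_dvd_left (dvd_pow_self p h0.ne') hz
        rw [Nat.coprime_self] at this
        exact hp.out.one_lt.ne' this
    have h5 : (y : X) ^ p ^ a = 1 := h4
    rw [← Subgroup.orderOf_coe]
    exact (Nat.dvd_prime_pow hp.out).mp (orderOf_dvd_of_pow_eq_one h5) |>.imp fun _ h => h.2
  exact H1.Cores.le_pCore hYn hYp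

/-- Quadratic elements have their `p`-th powers in `O_p` (`p = 2` version): if `a` commutes with `[n, a]` for every
`n` in `O_2(X)` then `a² ∈ O_2(X)`. -/
theorem sq_mem_pCore_two [Finite X] (hX : generalizedFittingSubgroup X = pCore 2 X) (a : X)
    (ha : ∀ n ∈ pCore 2 X, Commute a (n⁻¹ * (a * n * a⁻¹))) : a ^ 2 ∈ pCore 2 X := by
  have hle : Subgroup.normalClosure {a ^ 2} ≤ pCore 2 X := by
    apply le_pCore_of_actTriv hX
    intro N hNn hNp y hy n hn
    have h1 : Subgroup.normalClosure {a ^ 2} ≤ actTriv N (pw 2 N) := by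
      apply Subgroup.normalClosure_le_normal
      rw [Set.singleton_subset_iff]
      intro n hn
      have hnQ : n ∈ pCore 2 X := H1.Cores.le_pCore hNn hNp hn
      set u := n⁻¹ * (a * n * a⁻¹) with hu
      have huN : u ∈ N := N.mul_mem (N.inv_mem hn) (hNn.conj_mem n hn a)
      have h2 : a * u * a⁻¹ = u := by
        have h := ha n hnQ
        rw [← hu] at h
        rw [h.eq]; group
      have h3 : a * n * a⁻¹ = n * u := by rw [hu]; group
      have h4 : a ^ 2 * n * (a ^ 2)⁻¹ * n⁻¹ = n * u ^ 2 * n⁻¹ := by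
        calc a ^ 2 * n * (a ^ 2)⁻¹ * n⁻¹ = a * (a * n * a⁻¹) * a⁻¹ * n⁻¹ := by rw [pow_two]; group
          _ = a * (n * u) * a⁻¹ * n⁻¹ := by rw [h3]
          _ = (a * n * a⁻¹) * (a * u * a⁻¹) * n⁻¹ := by group
          _ = n * u ^ 2 * n⁻¹ := by rw [h2, h3, pow_two]; group
      rw [h4]
      exact (inferInstance : (pw 2 N).Normal).conj_mem _ (pow_mem_pw huN) n
    exact h1 hy n hn
  exact hle (Subgroup.subset_normalClosure (Set.mem_singleton _))

end H36.QuadSquare
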