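import Mathlib.GroupTheory.Sylow
import Mathlib.GroupTheory.Nilpotent
import Mathlib.GroupTheory.Frattini

/-! TI families of 2-subgroups: commuting results. -/

set_option autoImplicit false

namespace H36.TwoTI

/-- `g` normalizes `R`, or `R` commutes elementwise with `g R g⁻¹` and meets it trivially. -/
def Good {G : Type*} [Group G] (R : Subgroup G) (g : G) : Prop :=
  g ∈ Subgroup.normalizer (R : Set G) ∨
    ((∀ a ∈ R, ∀ b ∈ R, a * (g * b * g⁻¹) = (g * b * g⁻¹) * a) ∧ (∀ a ∈ R, ∀ b ∈ R, a = g * b * g⁻¹ → a = 1))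

theorem mem_normalizer_of_conj_mem {G : Type*} [Group G] [Finite G] (R : Subgroup G) (g : G)
    (h : ∀ r ∈ R, g * r * g⁻¹ ∈ R) : g ∈ Subgroup.normalizer (R : Set G) := by
  have heq : R.map (MulAut.conj g).toMonoidHom = R := by
    apply Subgroup.eq_of_le_of_card_ge
    · rintro _ ⟨r, hr, rfl⟩
      exact h r hr
    · exact le_of_eq (Nat.card_congr (R.equivMapOfInjective _ (MulAut.conj g).injective).toEquiv)
  rw [Subgroup.mem_normalizer_iff]
  intro r
  constructor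
  · exact fun hr => h r hr
  · intro hr
    rw [← heq] at hr
    obtain ⟨r', hr', he⟩ := hr
    have : (MulAut.conj g) r' = (MulAut.conj g) r := he
    rwa [(MulAut.conj g).injective this] at hr'

theorem mem_normalizer_iff_map {G : Type*} [Group G] (R : Subgroup G) (g : G) :
    g ∈ Subgroup.normalizer (R : Set G) ↔ R.map (MulAut.conj g).toMonoidHom = R := by
  constructor
  · intro h
    rw [Subgroup.mem_normalizer_iff] at h
    ext x
    constructor
    · rintro ⟨r, hr, rfl⟩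
      exact (h r).mp hr
    · intro hx
      refine ⟨g⁻¹ * x * g, ?_, ?_⟩
      · apply (h _).mpr
        have : g * (g⁻¹ * x * g) * g⁻¹ = x := by group
        rw [this]; exact hx
      · show g * (g⁻¹ * x * g) * g⁻¹ = x
        group
  · intro h
    rw [Subgroup.mem_normalizer_iff]
    intro r
    constructor
    · intro hr
      rw [← h]
      exact ⟨r, hr, rfl⟩
    · intro hr
      rw [← h] at hr
      obtain ⟨r', hr', he⟩ := hr
      have : (MulAut.conj g) r' = (MulAut.conj g) r := he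
      rwa [(MulAut.conj g).injective this] at hr'

/-- two subgroups normalizing each other and meeting trivially commute -/
theorem comm_of_normalize {G : Type*} [Group G] {R T : Subgroup G} (hRT : R ⊓ T = ⊥)
    (h1 : R ≤ Subgroup.normalizer (T : Set G)) (h2 : T ≤ Subgroup.normalizer (R : Set G)) :
    ∀ r ∈ R, ∀ t ∈ T, r * t = t * r := by
  intro r hr t ht
  have ha : r * t * r⁻¹ ∈ T := (Subgroup.mem_normalizer_iff.mp (h1 hr) t).mp ht
  have hb : t * r⁻¹ * t⁻¹ ∈ R := (Subgroup.mem_normalizer_iff.mp (h2 ht) r⁻¹).mp (R.inv_mem hr)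
  have hc : r * t * r⁻¹ * t⁻¹ ∈ R ⊓ T := by
    refine Subgroup.mem_inf.mpr ⟨?_, T.mul_mem ha (T.inv_mem ht)⟩
    have := R.mul_mem hr hb
    convert this using 1; group
  rw [hRT, Subgroup.mem_bot] at hc
  have : r * t = r * t * r⁻¹ * t⁻¹ * (t * r) := by group
  rw [this, hc, one_mul]

/-- If `R` normalizes `T`, `|R| = |T|`, every `t ∈ T` is good for `R`, then `T` normalizes `R`. -/
theorem normalize_of_good {G : Type*} [Group G] [Finite G] {R T : Subgroup G}
    (h1 : R ≤ Subgroup.normalizer (T : Set G)) (hcard : Nat.card R = Nat.card T)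
    (hg : ∀ t ∈ T, Good R t) : T ≤ Subgroup.normalizer (R : Set G) := by
  intro t ht
  rcases hg t ht with h | ⟨hc, hi⟩
  · exact h
  have hmem : ∀ r : R, (r : G)⁻¹ * (t * r * t⁻¹) ∈ T := by
    intro r
    have h3 : (r : G)⁻¹ * t * (r : G)⁻¹⁻¹ ∈ T := (Subgroup.mem_normalizer_iff.mp (h1 (R.inv_mem r.2)) t).mp ht
    have := T.mul_mem h3 (T.inv_mem ht)
    convert this using 1; group
  let φ : R → T := fun r => ⟨(r : G)⁻¹ * (t * r * t⁻¹), hmem r⟩
  have hinj : Function.Injective φ := by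
    intro r r' h
    have h4 : (r : G)⁻¹ * (t * r * t⁻¹) = (r' : G)⁻¹ * (t * r' * t⁻¹) := congrArg Subtype.val h
    have h5 : (r' : G) * (r : G)⁻¹ = t * ((r' : G) * (r : G)⁻¹) * t⁻¹ := by
      calc (r' : G) * (r : G)⁻¹ = (r' : G) * ((r : G)⁻¹ * (t * r * t⁻¹)) * (t * r * t⁻¹)⁻¹ := by group
        _ = (r' : G) * ((r' : G)⁻¹ * (t * r' * t⁻¹)) * (t * r * t⁻¹)⁻¹ := by rw [h4]
        _ = _ := by group
    have h6 := hi _ (R.mul_mem r'.2 (R.inv_mem r.2)) _ (R.mul_mem r'.2 (R.inv_mem r.2)) h5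
    exact Subtype.ext (mul_inv_eq_one.mp h6).symm
  have hsurj : Function.Surjective φ := by
    have := (Nat.bijective_iff_injective_and_card φ).mpr ⟨hinj, hcard⟩
    exact this.2
  obtain ⟨r, hr⟩ := hsurj ⟨t, ht⟩
  have hr' : (r : G)⁻¹ * (t * r * t⁻¹) = t := congrArg Subtype.val hr
  apply mem_normalizer_of_conj_mem
  intro a ha
  have hcomm := hc a ha r r.2
  have h7 : t * a * t⁻¹ = (r : G)⁻¹ * a * r := by
    have h8 : t * a = (r : G)⁻¹ * a * r * t := by
      calc t * a = ((r : G)⁻¹ * (t * r * t⁻¹)) * a := by rw [hr']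
        _ = (r : G)⁻¹ * ((t * r * t⁻¹) * a) := by group
        _ = (r : G)⁻¹ * (a * (t * r * t⁻¹)) := by rw [hcomm]
        _ = (r : G)⁻¹ * a * r * ((r : G)⁻¹ * (t * r * t⁻¹)) := by group
        _ = _ := by rw [hr']
    rw [h8]; group
  rw [h7]
  exact R.mul_mem (R.mul_mem (R.inv_mem r.2) ha) r.2

/-- order comparison -/
theorem pow_eq_one_iff_of_good {G : Type*} [Group G] {R T : Subgroup G} {r t : G} (hr : r ∈ R) (ht : t ∈ T)
    (hrT : r ∉ Subgroup.normalizer (T : Set G)) (htR : t ∉ Subgroup.normalizer (R : Set G))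
    (hgR : Good R t) (hgT : Good T r⁻¹) (n : ℕ) : r ^ n = 1 ↔ t ^ n = 1 := by
  have hrT' : r⁻¹ ∉ Subgroup.normalizer (T : Set G) := fun h => hrT (by simpa using Subgroup.inv_mem _ h)
  obtain ⟨hc, hi⟩ := hgR.resolve_left htR
  obtain ⟨hc', hi'⟩ := hgT.resolve_left hrT'
  set z := r⁻¹ * (t * r * t⁻¹) with hz
  have hzn : z ^ n = (r ^ n)⁻¹ * (t * r ^ n * t⁻¹) := by
    have hcm : Commute r⁻¹ (t * r * t⁻¹) := hc r⁻¹ (R.inv_mem hr) r hr
    rw [hz, hcm.mul_pow, inv_pow, conj_pow]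
  have hzn' : z ^ n = (r⁻¹ * t ^ n * r) * (t ^ n)⁻¹ := by
    have hz2 : z = (r⁻¹ * t * r⁻¹⁻¹) * t⁻¹ := by rw [hz]; group
    have hcm : Commute (r⁻¹ * t * r⁻¹⁻¹) t⁻¹ := (hc' t⁻¹ (T.inv_mem ht) t ht).symm
    rw [hz2, hcm.mul_pow, inv_pow, conj_pow, inv_inv]
  constructor
  · intro h
    have h1 : z ^ n = 1 := by rw [hzn, h]; group
    rw [hzn'] at h1
    have h2 : t ^ n = r⁻¹ * t ^ n * r⁻¹⁻¹ := by
      rw [inv_inv]; exact (mul_inv_eq_one.mp h1).symm
    exact hi' _ (T.pow_mem ht n) _ (T.pow_mem ht n) h2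
  · intro h
    have h1 : z ^ n = 1 := by rw [hzn', h]; group
    rw [hzn] at h1
    have h2 : r ^ n = t * r ^ n * t⁻¹ := (inv_mul_eq_one.mp h1)
    exact hi _ (R.pow_mem hr n) _ (R.pow_mem hr n) h2

theorem orderOf_pow_two {G : Type*} [Group G] {r : G} (hr : r ≠ 1) {k : ℕ} (hk : r ^ 2 ^ k = 1) :
    ∃ n : ℕ, (r ^ 2) ^ n = 1 ∧ r ^ n ≠ 1 := by
  induction k with
  | zero => simp at hk; exact absurd hk hr
  | succ k ih =>
    by_cases h : r ^ 2 ^ k = 1
    · exact ih h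
    · exact ⟨2 ^ k, by rw [← pow_mul, ← pow_succ']; exact hk, h⟩

/-- half of the involution lemma -/
theorem sq_mem_normalizer_of_good {G : Type*} [Group G] {R T : Subgroup G} {r t : G} (hr : r ∈ R) (ht : t ∈ T)
    (hrT : r ∉ Subgroup.normalizer (T : Set G)) (htR : t ∉ Subgroup.normalizer (R : Set G))
    (hgR : Good R t) (hgT : Good T r⁻¹) (hgT2 : Good T (r ^ 2)⁻¹) {k : ℕ} (hk : r ^ 2 ^ k = 1) :
    r ^ 2 ∈ Subgroup.normalizer (T : Set G) := by
  by_contra hcon
  have hr1 : r ≠ 1 := fun h => hrT (h ▸ Subgroup.one_mem _)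
  obtain ⟨n, hn1, hn2⟩ := orderOf_pow_two hr1 hk
  have h1 := (pow_eq_one_iff_of_good (R.pow_mem hr 2) ht hcon htR hgR hgT2 n).mp hn1
  exact hn2 ((pow_eq_one_iff_of_good hr ht hrT htR hgR hgT n).mpr h1)

theorem sq_eq_one_of_good {G : Type*} [Group G] {R T : Subgroup G} {r t : G} (hr : r ∈ R) (ht : t ∈ T)
    (hrT : r ∉ Subgroup.normalizer (T : Set G)) (htR : t ∉ Subgroup.normalizer (R : Set G))
    (hgR : Good R t) (hgT : Good T r⁻¹) (hgT2 : Good T (r ^ 2)⁻¹) {k : ℕ} (hk : r ^ 2 ^ k = 1) :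
    r ^ 2 = 1 ∧ t ^ 2 = 1 := by
  have h2 := sq_mem_normalizer_of_good hr ht hrT htR hgR hgT hgT2 hk
  have hrT' : r⁻¹ ∉ Subgroup.normalizer (T : Set G) := fun h => hrT (by simpa using Subgroup.inv_mem _ h)
  obtain ⟨hc, hi⟩ := hgR.resolve_left htR
  obtain ⟨hc', hi'⟩ := hgT.resolve_left hrT'
  set z := r⁻¹ * (t * r * t⁻¹) with hz
  have hz2 : z ^ 2 = (r ^ 2)⁻¹ * (t * r ^ 2 * t⁻¹) := by
    have hcm : Commute r⁻¹ (t * r * t⁻¹) := hc r⁻¹ (R.inv_mem hr) r hr
    rw [hz, hcm.mul_pow, inv_pow, conj_pow]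
  have hz2' : z ^ 2 = (r⁻¹ * t ^ 2 * r) * (t ^ 2)⁻¹ := by
    have hz3 : z = (r⁻¹ * t * r⁻¹⁻¹) * t⁻¹ := by rw [hz]; group
    have hcm : Commute (r⁻¹ * t * r⁻¹⁻¹) t⁻¹ := (hc' t⁻¹ (T.inv_mem ht) t ht).symm
    rw [hz3, hcm.mul_pow, inv_pow, conj_pow, inv_inv]
  have hzT : z ^ 2 ∈ T := by
    rw [hz2]
    have h3 : (r ^ 2)⁻¹ * t * (r ^ 2)⁻¹⁻¹ ∈ T :=
      (Subgroup.mem_normalizer_iff.mp (Subgroup.inv_mem _ h2) t).mp ht
    have := T.mul_mem h3 (T.inv_mem ht)
    convert this using 1; group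
  have h4 : r⁻¹ * t ^ 2 * r⁻¹⁻¹ ∈ T := by
    have := T.mul_mem hzT (T.pow_mem ht 2)
    rw [hz2'] at this
    convert this using 1; group
  have h5 : t ^ 2 = 1 := by
    have := hi' _ h4 _ (T.pow_mem ht 2) rfl
    have h6 : t ^ 2 = r * (r⁻¹ * t ^ 2 * r⁻¹⁻¹) * r⁻¹ := by group
    rw [h6, this]; group
  exact ⟨(pow_eq_one_iff_of_good hr ht hrT htR hgR hgT 2).mpr h5, h5⟩


/-- Main lemma (family version).  `Δ` a set of subgroups of `G`, closed under conjugation by `G`, of equal order,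
pairwise equal or meeting trivially, none of exponent 2. Then distinct members lying in a common 2-subgroup commute. -/
theorem family_commute {G : Type*} [Group G] [Finite G] (Δ : Set (Subgroup G))
    (hinv : ∀ s : G, ∀ R ∈ Δ, R.map (MulAut.conj s).toMonoidHom ∈ Δ)
    (hsq : ∀ R ∈ Δ, ∃ x ∈ R, x ^ 2 ≠ 1) (hord : ∀ R ∈ Δ, ∀ T ∈ Δ, Nat.card ↥R = Nat.card ↥T)
    (hti : ∀ R ∈ Δ, ∀ T ∈ Δ, R = T ∨ R ⊓ T = ⊥) :
    ∀ n : ℕ, ∀ H : Subgroup G, Nat.card H = n → IsPGroup 2 H →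
      ∀ R ∈ Δ, ∀ T ∈ Δ, R ≤ H → T ≤ H → R ≠ T → ∀ r ∈ R, ∀ t ∈ T, r * t = t * r := by
  intro n
  induction n using Nat.strong_induction_on with
  | _ n ih =>
  intro H hHn hH R hR T hT hRH hTH hne
  have hbot : R ⊓ T = ⊥ := (hti R hR T hT).resolve_left hne
  -- members are nontrivial
  have hnb : ∀ R ∈ Δ, R ≠ ⊥ := by
    rintro R hR rfl
    obtain ⟨x, hx, hx2⟩ := hsq _ hR
    rw [Subgroup.mem_bot] at hx
    exact hx2 (by rw [hx, one_pow])
  have hnil : Group.IsNilpotent ↥H := hH.isNilpotent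
  -- key: elements of H are good for each proper member
  have hgood : ∀ R ∈ Δ, R ≤ H → R ≠ H → ∀ h ∈ H, Good R h := by
    intro R hR hRH hRne h hh
    by_cases hN : h ∈ Subgroup.normalizer (R : Set G)
    · exact Or.inl hN
    right
    have hlt : R.subgroupOf H ≠ ⊤ := by
      intro htop
      exact hRne (le_antisymm hRH (Subgroup.subgroupOf_eq_top.mp htop))
    obtain ⟨M, hM, hRM⟩ := (eq_top_or_exists_le_coatom (R.subgroupOf H)).resolve_left hlt
    have hMn : M.Normal := Subgroup.NormalizerCondition.normal_of_coatom M (Group.normalizerCondition_of_isNilpotent) hM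
    set MG : Subgroup G := M.map H.subtype with hMG
    have hRMG : R ≤ MG := by
      intro r hr
      exact ⟨⟨r, hRH hr⟩, hRM (Subgroup.mem_subgroupOf.mpr hr), rfl⟩
    set R' := R.map (MulAut.conj h).toMonoidHom with hR'
    have hR'MG : R' ≤ MG := by
      rintro _ ⟨r, hr, rfl⟩
      obtain ⟨m, hm, he⟩ := hRMG hr
      refine ⟨⟨h, hh⟩ * m * ⟨h, hh⟩⁻¹, hMn.conj_mem m hm _, ?_⟩
      have he' : (m : G) = r := he
      show h * (m : G) * h⁻¹ = h * r * h⁻¹
      rw [he']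
    have hR'ne : R' ≠ R := fun h' => hN ((mem_normalizer_iff_map R h).mpr h')
    have hcardlt : Nat.card MG < n := by
      rw [← hHn]
      have h1 : Nat.card MG = Nat.card M := (Nat.card_congr (M.equivMapOfInjective _ (Subgroup.subtype_injective _)).toEquiv).symm
      rw [h1]
      have h2 := Subgroup.card_le_card_group M
      rcases Nat.lt_or_ge (Nat.card M) (Nat.card H) with h3 | h3
      · exact h3
      · exact absurd (Subgroup.eq_top_of_le_card M h3) hM.1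
    have hMGp : IsPGroup 2 MG := (hH.to_subgroup M).map _
    have hcomm := ih _ hcardlt MG rfl hMGp R hR R' (hinv h R hR) hRMG hR'MG (Ne.symm hR'ne)
    refine ⟨fun a ha b hb => hcomm a ha _ ⟨b, hb, rfl⟩, ?_⟩
    intro a ha b hb hab
    have h3 := (hti R hR R' (hinv h R hR)).resolve_left (Ne.symm hR'ne)
    have h4 : a ∈ R ⊓ R' := Subgroup.mem_inf.mpr ⟨ha, ⟨b, hb, hab.symm⟩⟩
    rwa [h3, Subgroup.mem_bot] at h4
  have hRneH : R ≠ H := by
    rintro rfl
    have : R ⊓ T = T := inf_eq_right.mpr hTH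
    rw [this] at hbot
    exact hnb T hT hbot
  have hTneH : T ≠ H := by
    rintro rfl
    have : R ⊓ T = R := inf_eq_left.mpr hRH
    rw [this] at hbot
    exact hnb R hR hbot
  have hgR : ∀ h ∈ H, Good R h := hgood R hR hRH hRneH
  have hgT : ∀ h ∈ H, Good T h := hgood T hT hTH hTneH
  by_contra hcon
  -- neither normalizes the other
  have hRT : ¬ R ≤ Subgroup.normalizer (T : Set G) := by
    intro h1
    have h2 := normalize_of_good h1 (hord R hR T hT) (fun t ht => hgR t (hTH ht))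
    exact hcon (comm_of_normalize hbot h1 h2)
  have hTR : ¬ T ≤ Subgroup.normalizer (R : Set G) := by
    intro h1
    have h2 := normalize_of_good h1 (hord T hT R hR) (fun t ht => hgT t (hRH ht))
    exact hcon (comm_of_normalize hbot h2 h1)
  obtain ⟨r, hr, hrT⟩ := SetLike.not_le_iff_exists.mp hRT
  obtain ⟨t, ht, htR⟩ := SetLike.not_le_iff_exists.mp hTR
  have h2pow : ∀ h ∈ H, ∃ k : ℕ, h ^ 2 ^ k = 1 := by
    intro h hh
    obtain ⟨k, hk⟩ := hH ⟨h, hh⟩
    exact ⟨k, by simpa using congrArg Subtype.val hk⟩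
  -- all elements of R outside N(T) are involutions
  have hinvR : ∀ r ∈ R, r ∉ Subgroup.normalizer (T : Set G) → r ^ 2 = 1 := by
    intro r hr hrT
    obtain ⟨k, hk⟩ := h2pow r (hRH hr)
    exact (sq_eq_one_of_good hr ht hrT htR (hgR t (hTH ht)) (hgT _ (H.inv_mem (hRH hr)))
      (hgT _ (H.inv_mem (H.pow_mem (hRH hr) 2))) hk).1
  -- an element of order 4
  obtain ⟨x, hx, hx2⟩ := hsq R hR
  have hxT : x ∈ Subgroup.normalizer (T : Set G) := by
    by_contra h
    exact hx2 (hinvR x hx h)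
  obtain ⟨k, hk⟩ := h2pow x (hRH hx)
  have h4 : ∃ n : ℕ, (x ^ n) ^ 2 ≠ 1 ∧ (x ^ n) ^ 4 = 1 := by
    clear hcon
    induction k with
    | zero => simp at hk; exact absurd (by rw [hk, one_pow]) hx2
    | succ k ihk =>
      by_cases h : x ^ 2 ^ k = 1
      · exact ihk h
      · rcases k with _ | k
        · simp only [zero_add, pow_one] at hk
          exact absurd hk hx2
        · refine ⟨2 ^ k, ?_, ?_⟩
          · rw [← pow_mul, ← pow_succ]; exact h
          · rw [← pow_mul]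
            have : 2 ^ k * 4 = 2 ^ (k + 1 + 1) := by ring
            rw [this]; exact hk
  obtain ⟨m, hm2, hm4⟩ := h4
  set r0 := x ^ m with hr0
  have hr0R : r0 ∈ R := R.pow_mem hx m
  have hr0T : r0 ∈ Subgroup.normalizer (T : Set G) := Subgroup.pow_mem _ hxT m
  have hr2 : r ^ 2 = 1 := hinvR r hr hrT
  have hrr0 : (r * r0) ^ 2 = 1 := by
    apply hinvR _ (R.mul_mem hr hr0R)
    intro h
    apply hrT
    have := Subgroup.mul_mem _ h (Subgroup.inv_mem _ hr0T)
    simpa using this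
  have hinvert : r⁻¹ * r0 * r = r0⁻¹ := by
    have h5 : r⁻¹ = r := by
      rw [inv_eq_iff_mul_eq_one, ← pow_two]; exact hr2
    rw [h5]
    have h6 : r * r0 * (r * r0) = 1 := by rw [← pow_two]; exact hrr0
    have h7 : r * r0 * r * r0 = 1 := by rw [← h6]; group
    exact eq_inv_of_mul_eq_one_left h7
  obtain ⟨hc, hi⟩ := (hgR t (hTH ht)).resolve_left htR
  have hrT' : r⁻¹ ∉ Subgroup.normalizer (T : Set G) := fun h => hrT (by simpa using Subgroup.inv_mem _ h)
  obtain ⟨hc', hi'⟩ := (hgT r⁻¹ (H.inv_mem (hRH hr))).resolve_left hrT'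
  set z := r0⁻¹ * (t * r0 * t⁻¹) with hz
  have hzT : z ∈ T := by
    have h3 : r0⁻¹ * t * r0⁻¹⁻¹ ∈ T := (Subgroup.mem_normalizer_iff.mp (Subgroup.inv_mem _ hr0T) t).mp ht
    have := T.mul_mem h3 (T.inv_mem ht)
    convert this using 1; rw [hz]; group
  have hcm : ∀ a ∈ R, ∀ b ∈ R, Commute a (t * b * t⁻¹) := fun a ha b hb => hc a ha b hb
  have hz2 : z ^ 2 = (r0 ^ 2)⁻¹ * (t * r0 ^ 2 * t⁻¹) := by
    rw [hz, (hcm r0⁻¹ (R.inv_mem hr0R) r0 hr0R).mul_pow, inv_pow, conj_pow]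
  have hz' : r⁻¹ * z * r = r0 * (t * r0 * t⁻¹) := by
    have h8 : (t * r0 * t⁻¹) * r = r * (t * r0 * t⁻¹) := (hc r hr r0 hr0R).symm
    have h9 : r⁻¹ * r0⁻¹ * r = r0 := by
      have : r⁻¹ * r0⁻¹ * r = (r⁻¹ * r0 * r)⁻¹ := by group
      rw [this, hinvert, inv_inv]
    calc r⁻¹ * z * r = r⁻¹ * r0⁻¹ * ((t * r0 * t⁻¹) * r) := by rw [hz]; group
      _ = r⁻¹ * r0⁻¹ * (r * (t * r0 * t⁻¹)) := by rw [h8]
      _ = (r⁻¹ * r0⁻¹ * r) * (t * r0 * t⁻¹) := by group
      _ = _ := by rw [h9]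
  have hz'2 : r⁻¹ * z ^ 2 * r = r0 ^ 2 * (t * r0 ^ 2 * t⁻¹) := by
    have : r⁻¹ * z ^ 2 * r = (r⁻¹ * z * r) ^ 2 := by
      simp only [pow_two]; group
    rw [this, hz', (hcm r0 hr0R r0 hr0R).mul_pow, conj_pow]
  have hr0sq : (r0 ^ 2)⁻¹ = r0 ^ 2 := by
    rw [inv_eq_iff_mul_eq_one, ← pow_add]; exact hm4
  have hzeq : z ^ 2 = r⁻¹ * z ^ 2 * r⁻¹⁻¹ := by
    rw [inv_inv, hz'2, hz2, hr0sq]
  have hz21 : z ^ 2 = 1 := hi' _ (T.pow_mem hzT 2) _ (T.pow_mem hzT 2) hzeq
  rw [hz2] at hz21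
  have h10 : r0 ^ 2 = t * r0 ^ 2 * t⁻¹ := inv_mul_eq_one.mp hz21
  exact hm2 (hi _ (R.pow_mem hr0R 2) _ (R.pow_mem hr0R 2) h10)


/-- in a finite group of exponent 2, the Frattini subgroup is trivial -/
theorem frattini_eq_bot_of_sq {G : Type*} [Group G] [Finite G] (h : ∀ x : G, x ^ 2 = 1) : frattini G = ⊥ := by
  have hcomm : ∀ a b : G, a * b = b * a := by
    intro a b
    have h1 : ∀ x : G, x⁻¹ = x := fun x => by
      rw [inv_eq_iff_mul_eq_one, ← pow_two]; exact h x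
    have h2 : (a * b)⁻¹ = a * b := h1 _
    rw [mul_inv_rev, h1, h1] at h2
    exact h2.symm
  rw [Subgroup.eq_bot_iff_forall]
  intro x hx
  by_contra hx1
  -- maximal subgroup avoiding x
  have hfin : (Set.univ : Set (Subgroup G)).Finite := Set.finite_univ
  obtain ⟨M, hM⟩ := (Set.toFinite {M : Subgroup G | x ∉ M}).exists_maximal ⟨⊥, by simpa using hx1⟩
  have hMx : x ∉ M := hM.prop
  have hco : IsCoatom M := by
    refine ⟨fun h => hMx (h ▸ Subgroup.mem_top x), ?_⟩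
    intro N hMN
    have hxN : x ∈ N := by
      by_contra hxN
      exact not_le_of_gt hMN (hM.le_of_ge hxN hMN.le)
    rw [eq_top_iff]
    intro y _
    by_cases hyM : y ∈ M
    · exact hMN.le hyM
    · -- M ⊔ <y> contains x
      have hlt : M < M ⊔ Subgroup.zpowers y := by
        refine lt_of_le_of_ne le_sup_left ?_
        intro h'
        apply hyM
        rw [h']
        exact (le_sup_right : Subgroup.zpowers y ≤ M ⊔ Subgroup.zpowers y) (Subgroup.mem_zpowers y)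
      have hx' : x ∈ M ⊔ Subgroup.zpowers y := by
        by_contra hxN
        exact not_le_of_gt hlt (hM.le_of_ge hxN hlt.le)
      have hn : (Subgroup.zpowers y).Normal := ⟨fun n hn g => by
        have : g * n * g⁻¹ = n := by rw [hcomm g n]; group
        rw [this]; exact hn⟩
      obtain ⟨m, hm, z, hz, hmz⟩ := Subgroup.mem_sup_of_normal_right.mp hx'
      obtain ⟨k, rfl⟩ := hz
      have hmz' : m * y ^ k = x := hmz
      rcases Int.even_or_odd' k with ⟨c, hc | hc⟩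
      · exfalso
        rw [hc, zpow_mul] at hmz'
        have : y ^ (2 : ℤ) = 1 := by
          have := h y
          exact_mod_cast this
        rw [this, one_zpow, mul_one] at hmz'
        exact hMx (hmz' ▸ hm)
      · rw [hc, zpow_add, zpow_mul, zpow_one] at hmz'
        have h3 : y ^ (2 : ℤ) = 1 := by
          have := h y
          exact_mod_cast this
        rw [h3, one_zpow, one_mul] at hmz'
        have : y = m⁻¹ * x := by rw [← hmz']; group
        rw [this]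
        exact N.mul_mem (N.inv_mem (hMN.le hm)) hxN
  exact hMx (frattini_le_coatom hco hx)

/-- A group automorphism-type lemma: `t` of 2-power order on an abelian 2-group with `C(t^2) = C(t)` is trivial. -/
theorem aut_trivial {A : Type*} [CommGroup A] [Finite A]
    (hA : IsPGroup 2 A) (t : MulAut A) (ht : ∃ k : ℕ, t ^ 2 ^ k = 1) (hC : ∀ a : A, t (t a) = a → t a = a) :
    ∀ a : A, t a = a := by
  classical
  by_contra hne
  push Not at hne
  obtain ⟨a0, ha0⟩ := hne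
  let d : A →* A := (t.toMonoidHom) / (MonoidHom.id A)
  have hd : ∀ a, d a = t a * a⁻¹ := fun a => by
    show t a / a = _
    rw [div_eq_mul_inv]
  set B : Subgroup A := d.range with hB
  set C : Subgroup A := B ⊓ (powMonoidHom 2 : A →* A).ker with hC'
  have htB : ∀ b ∈ B, t b ∈ B := by
    rintro _ ⟨a, rfl⟩
    refine ⟨t a, ?_⟩
    rw [hd, hd, map_mul, map_inv]
  have htC : ∀ b ∈ C, t b ∈ C := by
    intro b hb
    refine ⟨htB b hb.1, ?_⟩
    have h2 : b ^ 2 = 1 := hb.2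
    show (t b) ^ 2 = 1
    rw [← map_pow, h2, map_one]
  have hBne : B ≠ ⊥ := by
    intro h
    have : d a0 ∈ B := ⟨a0, rfl⟩
    rw [h, Subgroup.mem_bot, hd] at this
    exact ha0 (mul_inv_eq_one.mp this)
  have hCne : C ≠ ⊥ := by
    intro h
    apply hBne
    rw [Subgroup.eq_bot_iff_forall]
    by_contra hcon
    push Not at hcon
    obtain ⟨b, hb, hb1⟩ := hcon
    obtain ⟨n, hn⟩ := hA.exists_orderOf_eq_pow b
    have hn0 : n ≠ 0 := by
      rintro rfl
      rw [pow_zero, orderOf_eq_one_iff] at hn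
      exact hb1 hn
    obtain ⟨m, rfl⟩ := Nat.exists_eq_succ_of_ne_zero hn0
    have hc : b ^ 2 ^ m ∈ C := by
      refine ⟨B.pow_mem hb _, ?_⟩
      show (b ^ 2 ^ m) ^ 2 = 1
      rw [← pow_mul, ← pow_succ, ← hn, pow_orderOf_eq_one]
    rw [h, Subgroup.mem_bot] at hc
    have h1 := orderOf_dvd_of_pow_eq_one hc
    rw [hn] at h1
    have h3 := (Nat.pow_dvd_pow_iff_le_right (x := 2) (by norm_num)).mp h1
    omega
  have htpow : ∀ n : ℤ, ∀ b ∈ C, (t ^ n) b ∈ C := by
    have hsub : (C.map t.toMonoidHom) = C := by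
      apply Subgroup.eq_of_le_of_card_ge
      · rintro _ ⟨b, hb, rfl⟩
        exact htC b hb
      · exact le_of_eq (Nat.card_congr (C.equivMapOfInjective _ t.injective).toEquiv)
    have hinv : ∀ b ∈ C, t⁻¹ b ∈ C := by
      intro b hb
      rw [← hsub] at hb
      obtain ⟨c, hc, rfl⟩ := hb
      have : t⁻¹ (t c) = c := MulAut.inv_apply_self _ _ _
      show t⁻¹ (t c) ∈ C
      rw [this]; exact hc
    intro n
    induction n with
    | zero => intro b hb; simpa using hb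
    | succ n ih =>
      intro b hb
      rw [zpow_add_one]
      exact ih _ (htC b hb)
    | pred n ih =>
      intro b hb
      rw [zpow_sub_one]
      exact ih _ (hinv b hb)
  let X : SubMulAction (Subgroup.zpowers t) A :=
    { carrier := C
      smul_mem' := by
        rintro ⟨s, n, rfl⟩ b hb
        exact htpow n b hb }
  have h2g : IsPGroup 2 (Subgroup.zpowers t) := by
    obtain ⟨k, hk⟩ := ht
    rintro ⟨s, n, rfl⟩
    refine ⟨k, ?_⟩
    apply Subtype.ext
    show (t ^ n) ^ 2 ^ k = 1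
    rw [← zpow_natCast, ← zpow_mul, mul_comm, zpow_mul, zpow_natCast, hk, one_zpow]
  have hcard : 2 ∣ Nat.card X := by
    have hCp : IsPGroup 2 C := hA.to_subgroup C
    obtain ⟨n, hn⟩ := IsPGroup.iff_card.mp hCp
    have : Nat.card X = Nat.card C := rfl
    rw [this, hn]
    have hn0 : n ≠ 0 := by
      rintro rfl
      rw [pow_zero] at hn
      exact hCne (Subgroup.card_eq_one.mp hn)
    exact dvd_pow_self 2 hn0
  have h1fix : (⟨1, C.one_mem⟩ : X) ∈ MulAction.fixedPoints (Subgroup.zpowers t) X := by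
    rintro ⟨s, n, rfl⟩
    apply Subtype.ext
    show (t ^ n) 1 = 1
    exact map_one _
  obtain ⟨⟨b, hb⟩, hbfix, hbne⟩ := h2g.exists_fixed_point_of_prime_dvd_card_of_fixed_point X hcard h1fix
  have htb : t b = b := by
    have := hbfix ⟨t, Subgroup.mem_zpowers t⟩
    exact congrArg Subtype.val this
  have hb' : b ∈ C := hb
  obtain ⟨⟨a, hab⟩, hb2⟩ := hb'
  have hb2' : b ^ 2 = 1 := hb2
  rw [hd] at hab
  have hta : t a = b * a := by rw [← hab]; group
  have htta : t (t a) = a := by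
    rw [hta, map_mul, htb, hta, ← mul_assoc, ← pow_two, hb2', one_mul]
  have := hC a htta
  apply hbne
  apply Subtype.ext
  show 1 = b
  rw [← hab, this]; group

/-- `A` abelian, TI (only used: `C(a) ≤ N(A)` for `1 ≠ a ∈ A`); `B` abelian 2-group with `A ∩ B = 1`;
`a ∈ A` normalizes `B`, `a² ≠ 1`: then `a` centralizes `B`. -/
theorem centralize_of_sq_ne_one {G : Type*} [Group G] [Finite G] {A B : Subgroup G}
    (hB2 : IsPGroup 2 ↥B) (hBa : IsMulCommutative ↥B) (hAB : A ⊓ B = ⊥)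
    (hti : ∀ a ∈ A, a ≠ 1 → ∀ g : G, g * a = a * g → g ∈ Subgroup.normalizer (A : Set G))
    {a : G} (ha : a ∈ A) (haB : a ∈ Subgroup.normalizer (B : Set G)) (ha2 : a ^ 2 ≠ 1)
    (hak : ∃ k : ℕ, a ^ 2 ^ k = 1) : ∀ b ∈ B, a * b = b * a := by
  let _ : CommGroup ↥B := { (inferInstance : Group ↥B) with mul_comm := hBa.is_comm.comm }
  have hN := Subgroup.mem_normalizer_iff.mp haB
  -- the automorphism of B induced by a
  let t : MulAut ↥B :=
    { toFun := fun b => ⟨a * b * a⁻¹, (hN b).mp b.2⟩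
      invFun := fun b => ⟨a⁻¹ * b * a, (hN _).mpr (by
        have : a * (a⁻¹ * (b : G) * a) * a⁻¹ = b := by group
        rw [this]; exact b.2)⟩
      left_inv := fun b => Subtype.ext (by show a⁻¹ * (a * (b : G) * a⁻¹) * a = b; group)
      right_inv := fun b => Subtype.ext (by show a * (a⁻¹ * (b : G) * a) * a⁻¹ = b; group)
      map_mul' := fun b c => Subtype.ext (by
        show a * ((b : G) * c) * a⁻¹ = (a * b * a⁻¹) * (a * c * a⁻¹); group) }
  have htc : ∀ b : ↥B, ((t b : ↥B) : G) = a * b * a⁻¹ := fun b => rfl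
  have htn : ∀ n : ℕ, ∀ b : ↥B, (((t ^ n) b : ↥B) : G) = a ^ n * b * (a ^ n)⁻¹ := by
    intro n
    induction n with
    | zero => intro b; simp
    | succ n ih =>
      intro b
      rw [pow_succ t n]
      show (((t ^ n) (t b) : ↥B) : G) = _
      rw [ih, htc, pow_succ]; group
  have key : ∀ b : ↥B, t b = b := by
    apply aut_trivial hB2 t
    · obtain ⟨k, hk⟩ := hak
      refine ⟨k, ?_⟩
      ext b
      rw [htn, hk]; simp
    · intro b hb
      have h1 : a * (a * b * a⁻¹) * a⁻¹ = (b : G) := congrArg Subtype.val hb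
      have h2 : (b : G) * a ^ 2 = a ^ 2 * b := by
        conv_lhs => rw [← h1]
        rw [pow_two]; group
      have h3 := hti (a ^ 2) (A.pow_mem ha 2) ha2 b h2
      -- [a, b] ∈ A ⊓ B
      have h4 : a * b * a⁻¹ * (b : G)⁻¹ ∈ A ⊓ B := by
        refine Subgroup.mem_inf.mpr ⟨?_, ?_⟩
        · have := (Subgroup.mem_normalizer_iff.mp h3 a⁻¹).mp (A.inv_mem ha)
          have h5 := A.mul_mem ha this
          convert h5 using 1; group
        · exact B.mul_mem ((hN b).mp b.2) (B.inv_mem b.2)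
      rw [hAB, Subgroup.mem_bot] at h4
      exact Subtype.ext (mul_inv_eq_one.mp h4)
  intro b hb
  have := congrArg Subtype.val (key ⟨b, hb⟩)
  have h6 : a * b * a⁻¹ = b := this
  calc a * b = (a * b * a⁻¹) * a := by group
    _ = b * a := by rw [h6]

/-- S1781 in general form: `A`, `B` abelian 2-subgroups with the TI-type centralizer property, `A ∩ B = 1`, and `B`
not of exponent two. If some `a ∈ A` normalizing `B` has `a² ≠ 1` then `A` and `B` commute. -/
theorem commute_of_sq_ne_one {G : Type*} [Group G] [Finite G] {A B : Subgroup G}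
    (hA2 : IsPGroup 2 ↥A) (hAa : IsMulCommutative ↥A) (hB2 : IsPGroup 2 ↥B) (hBa : IsMulCommutative ↥B)
    (hAB : A ⊓ B = ⊥)
    (htiA : ∀ a ∈ A, a ≠ 1 → ∀ g : G, g * a = a * g → g ∈ Subgroup.normalizer (A : Set G))
    (htiB : ∀ b ∈ B, b ≠ 1 → ∀ g : G, g * b = b * g → g ∈ Subgroup.normalizer (B : Set G))
    (hBsq : ∃ b ∈ B, b ^ 2 ≠ 1)
    {a : G} (ha : a ∈ A) (haB : a ∈ Subgroup.normalizer (B : Set G)) (ha2 : a ^ 2 ≠ 1) :
    ∀ a ∈ A, ∀ b ∈ B, a * b = b * a := by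
  have hpow : ∀ (C : Subgroup G), IsPGroup 2 ↥C → ∀ c ∈ C, ∃ k : ℕ, c ^ 2 ^ k = 1 := by
    intro C hC c hc
    obtain ⟨k, hk⟩ := hC ⟨c, hc⟩
    exact ⟨k, by simpa using congrArg Subtype.val hk⟩
  have h1 := centralize_of_sq_ne_one hB2 hBa hAB htiA ha haB ha2 (hpow A hA2 a ha)
  have ha1 : a ≠ 1 := by
    rintro rfl
    exact ha2 (one_pow 2)
  have hBN : B ≤ Subgroup.normalizer (A : Set G) := fun b hb => htiA a ha ha1 b (h1 b hb).symm
  obtain ⟨b, hb, hb2⟩ := hBsq
  have h2 := centralize_of_sq_ne_one hA2 hAa (by rw [inf_comm]; exact hAB) htiB hb (hBN hb) hb2 (hpow B hB2 b hb)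
  have hb1 : b ≠ 1 := by
    rintro rfl
    exact hb2 (one_pow 2)
  have hAN : A ≤ Subgroup.normalizer (B : Set G) := fun a ha => htiB b hb hb1 a (h2 a ha).symm
  exact comm_of_normalize hAB hAN hBN

/-- TI property of `A` gives `C(a) ≤ N(A)`. -/
theorem ti_centralizer {G : Type*} [Group G] {A : Subgroup G}
    (hti : ∀ h : G, A.map (MulAut.conj h).toMonoidHom = A ∨ A.map (MulAut.conj h).toMonoidHom ⊓ A = ⊥) :
    ∀ a ∈ A, a ≠ 1 → ∀ g : G, g * a = a * g → g ∈ Subgroup.normalizer (A : Set G) := by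
  intro a ha ha1 g hg
  rw [mem_normalizer_iff_map]
  refine (hti g).resolve_right ?_
  intro h
  apply ha1
  have : a ∈ A.map (MulAut.conj g).toMonoidHom ⊓ A := by
    refine Subgroup.mem_inf.mpr ⟨⟨a, ha, ?_⟩, ha⟩
    show g * a * g⁻¹ = a
    rw [hg]; group
  rwa [h, Subgroup.mem_bot] at this

/-- conjugates of a TI subgroup are TI -/
theorem ti_conj {G : Type*} [Group G] {A : Subgroup G}
    (hti : ∀ h : G, A.map (MulAut.conj h).toMonoidHom = A ∨ A.map (MulAut.conj h).toMonoidHom ⊓ A = ⊥) (x y : G) :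
    A.map (MulAut.conj x).toMonoidHom = A.map (MulAut.conj y).toMonoidHom ∨
      A.map (MulAut.conj x).toMonoidHom ⊓ A.map (MulAut.conj y).toMonoidHom = ⊥ := by
  rcases hti (y⁻¹ * x) with h | h
  · left
    ext g
    have key : ∀ u : G, u ∈ A.map (MulAut.conj (y⁻¹ * x)).toMonoidHom ↔ u ∈ A := by rw [h]; exact fun u => Iff.rfl
    constructor
    · rintro ⟨a, ha, rfl⟩
      refine ⟨y⁻¹ * x * a * (y⁻¹ * x)⁻¹, (key _).mp ⟨a, ha, rfl⟩, ?_⟩
      show y * (y⁻¹ * x * a * (y⁻¹ * x)⁻¹) * y⁻¹ = x * a * x⁻¹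
      group
    · rintro ⟨a, ha, rfl⟩
      obtain ⟨b, hb, hba⟩ := (key a).mpr ha
      refine ⟨b, hb, ?_⟩
      have hba' : y⁻¹ * x * b * (y⁻¹ * x)⁻¹ = a := hba
      show x * b * x⁻¹ = y * a * y⁻¹
      rw [← hba']; group
  · right
    rw [Subgroup.eq_bot_iff_forall]
    rintro u ⟨⟨a, ha, hau⟩, ⟨b, hb, hbu⟩⟩
    have hau' : x * a * x⁻¹ = u := hau
    have hbu' : y * b * y⁻¹ = u := hbu
    have : b ∈ A.map (MulAut.conj (y⁻¹ * x)).toMonoidHom ⊓ A := by
      refine Subgroup.mem_inf.mpr ⟨⟨a, ha, ?_⟩, hb⟩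
      show y⁻¹ * x * a * (y⁻¹ * x)⁻¹ = b
      have : b = y⁻¹ * u * y := by rw [← hbu']; group
      rw [this, ← hau']; group
    rw [h, Subgroup.mem_bot] at this
    rw [← hbu', this]; group

end H36.TwoTI
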